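import Cfsg.Agent.LeadWork.CoherentAbelian

/-!
The principal block for an abelian Sylow subgroup with fixed-point-free automizer.
-/

set_option autoImplicit false
set_option linter.unusedSectionVars false
set_option linter.style.haveILetI false
set_option linter.unusedVariables false

namespace Cfsg.Agent.LeadWork.Coherent

open Cfsg Cfsg.Agent
open scoped ComplexConjugate

universe u

variable {G : Type u} [Group G]

/-- Conjugation by an element of the normalizer. -/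
def act (P : Subgroup G) (n : Subgroup.normalizer (P : Set G)) : P →* P where
  toFun y := ⟨(n : G) * y * (n : G)⁻¹, (Subgroup.mem_normalizer_iff.1 n.2 y).1 y.2⟩
  map_one' := by ext; simp
  map_mul' a b := by ext; simp

@[simp] theorem coe_act (P : Subgroup G) (n : Subgroup.normalizer (P : Set G)) (y : P) :
    (act P n y : G) = (n : G) * y * (n : G)⁻¹ := rfl

theorem act_mul (P : Subgroup G) (m n : Subgroup.normalizer (P : Set G)) :
    act P (m * n) = (act P m).comp (act P n) := by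
  ext y; simp [mul_assoc]

theorem act_one (P : Subgroup G) : act P 1 = MonoidHom.id P := by ext y; simp

/-- Two characters of `P` in one orbit of the normalizer. -/
def Rel (P : Subgroup G) (ψ φ : P →* ℂˣ) : Prop :=
  ∃ n : Subgroup.normalizer (P : Set G), φ.comp (act P n) = ψ

theorem rel_equivalence (P : Subgroup G) : Equivalence (Rel P) where
  refl ψ := ⟨1, by rw [act_one, MonoidHom.comp_id]⟩
  symm := by
    rintro ψ φ ⟨n, rfl⟩
    exact ⟨n⁻¹, by rw [MonoidHom.comp_assoc, ← act_mul, mul_inv_cancel, act_one, MonoidHom.comp_id]⟩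
  trans := by
    rintro ψ φ χ ⟨n, rfl⟩ ⟨k, rfl⟩
    exact ⟨k * n, by rw [act_mul, MonoidHom.comp_assoc]⟩

theorem rel_iff (P : Subgroup G) (ψ φ : P →* ℂˣ) :
    (∃ n : G, n ∈ Subgroup.normalizer (P : Set G) ∧
      ∀ w w' : P, (w' : G) = n * w * n⁻¹ → φ w' = ψ w) ↔ Rel P ψ φ := by
  constructor
  · rintro ⟨n, hn, h⟩
    exact ⟨⟨n, hn⟩, MonoidHom.ext fun y => h y _ (coe_act P ⟨n, hn⟩ y)⟩
  · rintro ⟨n, rfl⟩
    refine ⟨n, n.2, fun w w' h => ?_⟩
    rw [MonoidHom.comp_apply, show w' = act P n w from Subtype.ext h]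

/-- What is asserted about the principal block. -/
structure Data [Finite G] (p : ℕ) (M : Ideal AlgInt) (P : Subgroup G) (m : ℕ) where
  X : Set (IrrCharacter G)
  Y : Set (IrrCharacter G)
  union_eq : principalBlock M G = X ∪ Y
  disjoint : Disjoint X Y
  card_X : Nat.card X ≤ m
  card_Y : Nat.card Y = (Nat.card P - 1) / m
  one_mem : ∃ χ₁ ∈ X, (χ₁ : G → ℂ) = fun _ => 1
  a : IrrCharacter G → ℤ
  a_one : ∀ χ : IrrCharacter G, (χ : G → ℂ) = (fun _ => 1) → a χ = 1
  d : ℤ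
  δ : ℤ
  ζ : (P →* ℂˣ) → IrrCharacter G
  δ_eq : δ = 1 ∨ δ = -1
  val_X : ∀ χ ∈ X, a χ ≠ 0 ∧ ∀ z y : G, IsPPart p z y → y ∈ P → y ≠ 1 → (χ : G → ℂ) z = (a χ : ℂ)
  ζ_mem : ∀ ψ : P →* ℂˣ, ψ ≠ 1 → ζ ψ ∈ Y
  ζ_surj : ∀ η ∈ Y, ∃ ψ : P →* ℂˣ, ψ ≠ 1 ∧ ζ ψ = η
  ζ_inv : ∀ ψ ψ' : P →* ℂˣ, ψ ≠ 1 → (∃ n : G, n ∈ Subgroup.normalizer (P : Set G) ∧
      ∀ w w' : P, (w' : G) = n * w * n⁻¹ → ψ' w' = ψ w) → ζ ψ' = ζ ψ
  val_Y : ∀ ψ : P →* ℂˣ, ψ ≠ 1 → ∀ (z : G) (y : P), IsPPart p z (y : G) → (y : G) ≠ 1 →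
    (ζ ψ : G → ℂ) z = (d : ℂ) + (δ : ℂ) *
      ∑ᶠ ψ' ∈ {ψ' : P →* ℂˣ | ∃ n : G, n ∈ Subgroup.normalizer (P : Set G) ∧
        ∀ w w' : P, (w' : G) = n * w * n⁻¹ → ψ' w' = ψ w}, ((ψ' y : ℂˣ) : ℂ)
  norm_eq : (d - δ) ^ 2 + ((Nat.card P - 1) / m - 1 : ℤ) * d ^ 2 + ∑ᶠ χ ∈ X, a χ ^ 2 = (m : ℤ) + 1
  two_le : 2 ≤ (Nat.card P - 1) / m
  dvd_card : m ∣ Nat.card P - 1
  column : ∀ u ∈ P, u ≠ 1 →
    ∑ᶠ χ ∈ principalBlock M G, (χ : G → ℂ) u * conj ((χ : G → ℂ) u) = (Nat.card P : ℂ)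
  normalised : (Nat.card P - 1) / m = 2 → d ≠ δ
  rel : ∀ f : IrrCharacter G → ℂ,
    (∀ u ∈ P, u ≠ 1 → ∑ᶠ χ ∈ principalBlock M G, f χ * (χ : G → ℂ) u = 0) →
    (∀ η ∈ Y, ∀ η' ∈ Y, f η = f η') ∧ ∀ η ∈ Y,
      ((((Nat.card P - 1) / m : ℕ) : ℂ) * d - δ) * f η + ∑ᶠ χ ∈ X, (a χ : ℂ) * f χ = 0

/-- The columns of `p`-regular elements meet the hypothesis of `Data.rel`. -/
theorem kill_regular [Finite G] {p : ℕ} [Fact p.Prime] {M : Ideal AlgInt} (hM : IsPModular p M)
    {P : Subgroup G} (hP : IsPGroup p P) {g : G} (hg : ¬ p ∣ orderOf g) :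
    ∀ u ∈ P, u ≠ 1 →
      ∑ᶠ χ ∈ principalBlock M G, (χ : G → ℂ) g * (χ : G → ℂ) u = 0 := by
  classical
  haveI : M.IsMaximal := hM.2.1
  haveI := Fintype.ofFinite G
  intro u hu hu1
  obtain ⟨k, hk⟩ := IsPGroup.iff_orderOf.1 hP ⟨u, hu⟩
  have hk' : orderOf u = p ^ k := by rw [← hk, ← Subgroup.orderOf_coe]
  rw [Blocks.finsum_mem_eq_filter]
  have h := Blocks.block_orth_weak (p := p) (M := M) hM.2.2 Blocks.isPBlock_principal (x := g)
    (y := u⁻¹) hg (by
      rw [orderOf_inv, hk']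
      refine dvd_pow_self p fun h0 => hu1 ?_
      rw [h0, pow_zero, orderOf_eq_one_iff] at hk'
      exact hk')
  rw [← h]
  exact Finset.sum_congr rfl fun χ _ => by
    rw [← Chars.char_inv_eq_conj (Chars.irr_isCharacter χ), inv_inv]

/-- The centralizers of nontrivial elements of `P` have normal complements. -/
theorem exists_complement [Finite G] (p : ℕ) [Fact p.Prime] (P : Sylow p G)
    (hab : IsMulCommutative P)
    (hfrob : ∀ y : G, y ∈ (P : Subgroup G) → y ≠ 1 →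
      Subgroup.centralizer ({y} : Set G) ⊓ Subgroup.normalizer ((P : Subgroup G) : Set G) =
        Subgroup.centralizer ((P : Subgroup G) : Set G))
    {y : G} (hy : y ∈ (P : Subgroup G)) (hy1 : y ≠ 1) :
    ∃ (K : Subgroup (Subgroup.centralizer ({y} : Set G))) (k : ℕ),
      K.Normal ∧ ¬ p ∣ Nat.card K ∧ K.index = p ^ k ∧ Nat.card (P : Subgroup G) = p ^ k := by
  classical
  set Q : Subgroup G := (P : Subgroup G) with hQ
  set N := Subgroup.normalizer (Q : Set G) with hN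
  set C := Subgroup.centralizer (Q : Set G) with hC
  have hQC : Q ≤ C := fun a ha => Subgroup.mem_centralizer_iff.2 fun b hb =>
    congrArg Subtype.val (hab.1.1 (⟨b, hb⟩ : Q) ⟨a, ha⟩)
  set H := Subgroup.centralizer ({y} : Set G) with hH
  have hle : (P : Subgroup G) ≤ H := fun a ha => Subgroup.mem_centralizer_singleton_iff.2
    (Subgroup.mem_centralizer_iff.1 (hQC ha) y hy).symm
  let S : Sylow p H := P.subtype hle
  have hS : Subgroup.normalizer ((S : Subgroup H) : Set H) ≤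
      Subgroup.centralizer ((S : Subgroup H) : Set H) := by
    intro h hh
    have hhN : (h : G) ∈ N := Subgroup.mem_normalizer_iff.2 fun g => by
      constructor
      · intro hg
        exact (Subgroup.mem_normalizer_iff.1 hh ⟨g, hle hg⟩).1 hg
      · intro hg
        have hgH : g ∈ H := by
          have := H.mul_mem (H.mul_mem (H.inv_mem h.2) (hle hg)) h.2
          simpa [mul_assoc] using this
        exact (Subgroup.mem_normalizer_iff.1 hh ⟨g, hgH⟩).2 hg
    have hhC : (h : G) ∈ C := (hfrob y hy hy1) ▸ Subgroup.mem_inf.2 ⟨h.2, hhN⟩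
    exact Subgroup.mem_centralizer_iff.2 fun a ha =>
      Subtype.ext (Subgroup.mem_centralizer_iff.1 hhC a ha)
  have hK := MonoidHom.ker_transferSylow_isComplement' S hS
  obtain ⟨k, hk⟩ := IsPGroup.iff_card.1 P.2
  have hcard : Nat.card (S : Subgroup H) = Nat.card Q :=
    Nat.card_congr (Subgroup.subgroupOfEquivOfLe hle).toEquiv
  refine ⟨(MonoidHom.transferSylow S hS).ker, k, inferInstance, ?_, ?_, hk⟩
  · rw [← hK.index_eq_card]
    exact S.not_dvd_index
  · rw [hK.symm.index_eq_card, hcard]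
    exact hk


set_option maxHeartbeats 1000000 in
/-- The main structure theorem. -/
theorem exists_data [Finite G] (p : ℕ) [Fact p.Prime] (M : Ideal AlgInt) (hM : IsPModular p M)
    (P : Sylow p G) (hab : IsMulCommutative P) (hP1 : Nat.card P ≠ 1) (m : ℕ) (hm1 : 1 < m)
    (hm2 : m + 1 < Nat.card P)
    (hCN : (Subgroup.centralizer ((P : Subgroup G) : Set G)).relIndex
      (Subgroup.normalizer ((P : Subgroup G) : Set G)) = m)
    (hfrob : ∀ y : G, y ∈ (P : Subgroup G) → y ≠ 1 →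
      Subgroup.centralizer ({y} : Set G) ⊓ Subgroup.normalizer ((P : Subgroup G) : Set G) =
        Subgroup.centralizer ((P : Subgroup G) : Set G)) :
    Nonempty (Data p M (P : Subgroup G) m) := by
  classical
  haveI : M.IsMaximal := hM.2.1
  haveI : Fintype G := Fintype.ofFinite G
  have hpM : (p : AlgInt) ∈ M := hM.2.2
  set Q : Subgroup G := (P : Subgroup G) with hQ
  haveI : Fintype Q := Fintype.ofFinite Q
  letI : CommGroup Q :=
    { (inferInstance : Group Q) with mul_comm := fun a b => hab.1.1 a b }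
  haveI : Finite (Q →* ℂˣ) := Nat.finite_of_card_ne_zero (by
    rw [CommGroup.card_monoidHom_of_hasEnoughRootsOfUnity Q ℂ]; exact Nat.card_pos.ne')
  haveI : Fintype (Q →* ℂˣ) := Fintype.ofFinite _
  set N := Subgroup.normalizer (Q : Set G) with hN
  set C := Subgroup.centralizer (Q : Set G) with hC
  haveI : Fintype N := Fintype.ofFinite N
  have hQC : Q ≤ C := fun a ha => Subgroup.mem_centralizer_iff.2 fun b hb =>
    congrArg Subtype.val (hab.1.1 (⟨b, hb⟩ : Q) ⟨a, ha⟩)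
  have hCN' : C ≤ N := BlockChar.centralizer_le_normalizer _
  have hNC : Nat.card N = Nat.card C * m := by
    rw [← hCN, ← Subgroup.relIndex_bot_left, ← Subgroup.relIndex_bot_left,
      Subgroup.relIndex_mul_relIndex ⊥ C N bot_le hCN']
  have hC0 : (Nat.card C : ℂ) ≠ 0 := Nat.cast_ne_zero.2 Nat.card_pos.ne'
  have hQ0 : (Nat.card Q : ℂ) ≠ 0 := Nat.cast_ne_zero.2 Nat.card_pos.ne'
  -- the centralizers have normal complements
  have comp : ∀ y ∈ Q, y ≠ 1 → ∃ (K : Subgroup (Subgroup.centralizer ({y} : Set G))) (k : ℕ),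
      K.Normal ∧ ¬ p ∣ Nat.card K ∧ K.index = p ^ k ∧ Nat.card Q = p ^ k :=
    fun y hy hy1 => exists_complement p P hab hfrob hy hy1
  -- values on the sections
  have hval : ∀ χ ∈ principalBlock M G, ∀ z y : G, IsPPart p z y → y ∈ Q → y ≠ 1 →
      (χ : G → ℂ) z = (χ : G → ℂ) y := by
    intro χ hχ z y hz hy hy1
    obtain ⟨c, rfl, hc, ho, hcp⟩ := hz
    obtain ⟨K, k, hKn, hKp, hKi, -⟩ := comp y hy hy1
    haveI : Fintype (Subgroup.centralizer ({y} : Set G)) := Fintype.ofFinite _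
    haveI := hKn
    let c' : Subgroup.centralizer ({y} : Set G) := ⟨c, Blocks.mem_centralizer_of_commute hc⟩
    have hc' : ¬ p ∣ orderOf c' := by rw [← Subgroup.orderOf_coe]; exact hcp
    have h1 : ¬ p ∣ orderOf (1 : Subgroup.centralizer ({y} : Set G)) := by
      rw [orderOf_one]; exact (Fact.out : p.Prime).not_dvd_one
    have hH : ∀ g, g ∈ Subgroup.centralizer ({y} : Set G) ↔ Commute g y :=
      fun g => Subgroup.mem_centralizer_singleton_iff.trans ⟨fun h => h, fun h => h⟩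
    have e1 := Chars2.second_main_principal hpM ho hH hχ (y := c') hc'
    have e2 := Chars2.second_main_principal hpM ho hH hχ
      (y := (1 : Subgroup.centralizer ({y} : Set G))) h1
    simp only [Subgroup.coe_one, mul_one] at e2
    rw [e1, e2]
    refine Finset.sum_congr rfl fun ψ hψ => ?_
    rw [BlockChar.apply_eq_one_of_mem_principal hpM (Finset.mem_filter.1 hψ).2 hKp
      (BlockChar.mem_of_isPRegular_of_index hKi hc')]
  -- the integers
  let θ : (Q →* ℂˣ) → Q → ℂ := fun ψ => Chars2.linFun ψ - Chars2.linFun 1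
  have hθgen : ∀ ψ, IsGeneralizedCharacter Q (θ ψ) := fun ψ =>
    ⟨_, _, (Chars2.linFun_isCharacter ψ).1, (Chars2.linFun_isCharacter 1).1, rfl⟩
  have hθ1 : ∀ ψ, θ ψ 1 = 0 := fun ψ => by simp [θ]
  have hθinv : ∀ ψ (a : Q), θ ψ a⁻¹ = conj (θ ψ a) := fun ψ a => by
    simp [θ, ← linFun_inv]
  let A : (Q →* ℂˣ) → IrrCharacter G → ℂ := fun ψ χ =>
    (Nat.card Q : ℂ)⁻¹ * ∑ᶠ y : Q, (χ : G → ℂ) (y : G) * θ ψ y⁻¹
  have hA : ∀ ψ χ, A ψ χ = (Nat.card Q : ℂ)⁻¹ * ∑ y : Q, (χ : G → ℂ) (y : G) * conj (θ ψ y) :=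
    fun ψ χ => by simp only [A, finsum_eq_sum_of_fintype, hθinv]
  have hint : ∀ ψ χ, ∃ n : ℤ, A ψ χ = n := fun ψ χ => by
    rw [hA]
    exact Chars.exists_classInner_eq_int
      (Chars.isGen_of_isCharacter (Chars.isCharacter_restrict (Chars.irr_isCharacter χ) Q))
      (hθgen ψ)
  choose k hk using hint
  -- a class function on the sections is recovered
  have hrec : ∀ (χ : IrrCharacter G) (y : Q), y ≠ 1 →
      (χ : G → ℂ) y = ∑ ψ : Q →* ℂˣ, A ψ χ * (ψ y : ℂ) := by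
    intro χ y hy
    have e : ∀ (ψ : Q →* ℂˣ), A ψ χ * (ψ y : ℂ) = (Nat.card Q : ℂ)⁻¹ *
        (∑ a : Q, (χ : G → ℂ) a * (ψ (a⁻¹ * y) : ℂ) - (∑ a : Q, (χ : G → ℂ) a) * (ψ y : ℂ)) := by
      intro ψ
      rw [hA, mul_assoc, Finset.sum_mul, Finset.sum_mul, ← Finset.sum_sub_distrib]
      congr 1
      refine Finset.sum_congr rfl fun a _ => ?_
      simp only [θ, Pi.sub_apply, Chars2.linFun_apply, MonoidHom.one_apply, Units.val_one,
        map_sub, map_one, map_mul, Units.val_mul, linFun_inv, Pi.one_apply]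
      ring
    simp only [e, ← Finset.mul_sum, Finset.sum_sub_distrib]
    rw [Finset.sum_comm]
    simp only [← Finset.mul_sum, sum_dual, if_neg hy, inv_mul_eq_one, mul_zero, sub_zero,
      mul_ite, Finset.sum_ite_eq', Finset.mem_univ, if_pos]
    field_simp
  -- stabilisers
  have hstab : ∀ (ψ : Q →* ℂˣ) (n : N), ψ ≠ 1 → ψ.comp (act Q n) = ψ → (n : G) ∈ C := by
    intro ψ n hψ hn
    by_contra hnC
    let f : Q →* Q := act Q n * (MonoidHom.id Q)⁻¹
    have hf : Function.Injective f := by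
      refine (injective_iff_map_eq_one _).2 fun a ha => by_contra fun ha1 => hnC ?_
      have hh : act Q n a = a := mul_inv_eq_one.1 ha
      rw [← hfrob a a.2 (fun h => ha1 (Subtype.ext h))]
      refine Subgroup.mem_inf.2 ⟨Subgroup.mem_centralizer_singleton_iff.2 ?_, n.2⟩
      have := congrArg Subtype.val hh
      rw [coe_act] at this
      exact mul_inv_eq_iff_eq_mul.1 this
    refine hψ (MonoidHom.ext fun b => ?_)
    obtain ⟨a, rfl⟩ := Finite.surjective_of_injective hf b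
    have := DFunLike.congr_fun hn a
    simp only [MonoidHom.comp_apply] at this
    simp [f, this]
  have hfix : ∀ (n : N), (n : G) ∈ C → act Q n = MonoidHom.id Q := fun n hn => by
    refine MonoidHom.ext fun a => Subtype.ext ?_
    rw [coe_act, ← Subgroup.mem_centralizer_iff.1 hn a a.2]
    simp
  have hfib : ∀ ψ φ : Q →* ℂˣ, ψ ≠ 1 → φ ≠ 1 →
      ((Finset.univ.filter fun n : N => φ.comp (act Q n) = ψ).card : ℂ) =
        if Rel Q ψ φ then (Nat.card C : ℂ) else 0 := by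
    intro ψ φ hψ hφ
    split_ifs with h
    · obtain ⟨n0, hn0⟩ := h
      norm_cast
      rw [← Fintype.card_subtype, ← Nat.card_eq_fintype_card]
      refine Nat.card_congr
        { toFun := fun n => ⟨((n.1 * n0⁻¹ : N) : G), ?_⟩
          invFun := fun c => ⟨⟨(c : G), hCN' c.2⟩ * n0, ?_⟩
          left_inv := fun n => Subtype.ext (Subtype.ext (by simp))
          right_inv := fun c => Subtype.ext (by simp) }
      · refine hstab φ _ hφ ?_
        rw [act_mul, ← MonoidHom.comp_assoc, n.2, ← hn0, MonoidHom.comp_assoc, ← act_mul,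
          mul_inv_cancel, act_one, MonoidHom.comp_id]
      · rw [act_mul, ← MonoidHom.comp_assoc, hfix ⟨(c : G), hCN' c.2⟩ c.2, MonoidHom.comp_id, hn0]
    · rw [Finset.filter_eq_empty_iff.2 fun n _ hn => h ⟨n, hn⟩]
      simp
  -- the Gram matrix
  have hgram : ∀ ψ φ : Q →* ℂˣ, ψ ≠ 1 → φ ≠ 1 →
      ∑ χ ∈ Finset.univ.filter (· ∈ principalBlock M G), A ψ χ * conj (A φ χ) =
        (m : ℂ) + if Rel Q ψ φ then 1 else 0 := by
    intro ψ φ hψ hφ
    have h := S4720.result p M hM Q P.2 N (Subgroup.le_normalizer) le_rfl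
      {g | g ∈ Q ∧ g ≠ 1} (by
        by_contra he
        refine hP1 (Subgroup.card_eq_one.2 ((Subgroup.eq_bot_iff_forall _).2 fun a ha => ?_))
        exact by_contra fun h1 => he ⟨a, ha, h1⟩)
      (fun g hg => hg.1)
      (fun n hn g hg => ⟨(Subgroup.mem_normalizer_iff.1 hn g).1 hg.1, by simpa using hg.2⟩)
      (fun g hg x hx => Transfer.burnside_fusion_elem P (hQC hg.1) (hQC hx))
      ((Nat.card Q : ℚ) / Nat.card C) (fun y hy => by
        obtain ⟨K, k, hKn, hKp, hKi, hQk⟩ := comp y hy.1 hy.2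
        haveI := hKn
        haveI : Fintype (Subgroup.centralizer ({y} : Set G)) := Fintype.ofFinite _
        haveI : Fintype K := Fintype.ofFinite K
        have hs := (Blocks.sum_sq_principal (M := M) hpM hKp hKi
          (y := (1 : Subgroup.centralizer ({y} : Set G)))
          (by rw [orderOf_one]; exact (Fact.out : p.Prime).not_dvd_one)).1
        rw [inf_comm, hfrob y hy.1 hy.2,
          div_mul_cancel₀ _ (Nat.cast_ne_zero.2 (Nat.card_pos (α := C)).ne')]
        apply Rat.cast_injective (α := ℂ)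
        rw [Blocks.finsum_mem_eq_filter, Rat.cast_sum, Rat.cast_natCast, hQk, Nat.cast_pow, ← hs]
        exact Finset.sum_congr rfl fun χ _ => by
          rw [Rat.cast_pow, Rat.cast_natCast, BlockChar.charDegree_cast (Chars.irr_isCharacter χ),
            Chars.irr_apply_one_conj (Chars.irr_isCharacter χ), sq])
      (θ ψ) (θ φ) (hθgen ψ) (hθgen φ) (fun y hy => by
        rw [show y = 1 from by_contra fun h1 => hy ⟨y.2, fun h => h1 (Subtype.ext h)⟩]
        exact hθ1 ψ)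
    rw [Blocks.finsum_mem_eq_filter] at h
    rw [h]
    have hn : ∀ n : N, ∑ y : Q, θ ψ y * conj (θ φ (act Q n y)) =
        (Nat.card Q : ℂ) * ((if φ.comp (act Q n) = ψ then 1 else 0) + 1) := by
      intro n
      have e : ∀ y : Q, θ ψ y * conj (θ φ (act Q n y)) = (ψ y : ℂ) * conj ((φ.comp (act Q n)) y : ℂ) -
          (ψ y : ℂ) * conj ((1 : Q →* ℂˣ) y : ℂ) -
          ((1 : Q →* ℂˣ) y : ℂ) * conj ((φ.comp (act Q n)) y : ℂ) +
          ((1 : Q →* ℂˣ) y : ℂ) * conj ((1 : Q →* ℂˣ) y : ℂ) := fun y => by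
        simp [θ, sub_mul, mul_sub]
        ring
      have hne : φ.comp (act Q n) ≠ 1 := fun h1 => hφ <| by
        have := congrArg (fun f : Q →* ℂˣ => f.comp (act Q n⁻¹)) h1
        simpa [MonoidHom.comp_assoc, ← act_mul, act_one] using this
      simp only [e, Finset.sum_add_distrib, Finset.sum_sub_distrib, sum_mul_conj]
      rw [if_neg hψ, if_neg (Ne.symm hne), if_pos trivial]
      by_cases hh : φ.comp (act Q n) = ψ
      · rw [if_pos hh, if_pos hh.symm]; ring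
      · rw [if_neg hh, if_neg (Ne.symm hh)]; ring
    have hR : ∑ᶠ y : Q, θ ψ y * conj (∑ᶠ n : N, extendByZero Q (θ φ) ((n : G) * (y : G) * (n : G)⁻¹)) =
        ∑ n : N, (Nat.card Q : ℂ) * ((if φ.comp (act Q n) = ψ then 1 else 0) + 1) := by
      simp only [finsum_eq_sum_of_fintype, map_sum, Finset.mul_sum]
      rw [Finset.sum_comm]
      refine Finset.sum_congr rfl fun n _ => ?_
      rw [← hn]
      refine Finset.sum_congr rfl fun y _ => ?_
      congr 2
      exact Subtype.val_injective.extend_apply (θ φ) 0 (act Q n y)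
    rw [hR, ← Finset.mul_sum, Finset.sum_add_distrib, Finset.sum_boole, hfib ψ φ hψ hφ,
      Finset.sum_const, Finset.card_univ, nsmul_eq_mul, mul_one, ← Nat.card_eq_fintype_card, hNC]
    split_ifs <;> · push_cast; field_simp; ring
  -- kill
  have hkill : ∀ f : IrrCharacter G → ℂ,
      (∀ u ∈ Q, u ≠ 1 → ∑ᶠ χ ∈ principalBlock M G, f χ * (χ : G → ℂ) u = 0) →
      ∀ ψ, ∑ χ ∈ Finset.univ.filter (· ∈ principalBlock M G), f χ * A ψ χ = 0 := by
    intro f hf ψ
    simp only [hA, Finset.mul_sum]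
    rw [Finset.sum_comm]
    refine Finset.sum_eq_zero fun y _ => ?_
    by_cases hy : y = 1
    · subst hy; simp [hθ1]
    · have h0 := hf y y.2 (fun h => hy (Subtype.ext h))
      rw [Blocks.finsum_mem_eq_filter] at h0
      calc _ = (Nat.card Q : ℂ)⁻¹ * conj (θ ψ y) *
            ∑ χ ∈ Finset.univ.filter (· ∈ principalBlock M G), f χ * (χ : G → ℂ) y := by
            rw [Finset.mul_sum]
            exact Finset.sum_congr rfl fun χ _ => by ring
        _ = 0 := by rw [h0, mul_zero]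
  -- apply the combinatorics
  let Ψ := {ψ : Q →* ℂˣ // ψ ≠ 1}
  let ι := {χ : IrrCharacter G // χ ∈ principalBlock M G}
  haveI : Fintype ι := Fintype.ofFinite ι
  have tosum : ∀ g : IrrCharacter G → ℂ,
      ∑ χ ∈ Finset.univ.filter (· ∈ principalBlock M G), g χ = ∑ i : ι, g i.1 := fun g =>
    Finset.sum_subtype _ (fun χ => by simp) g
  have hdeg : ∀ i : ι, ∃ n : ℕ, 0 < n ∧ (i.1 : G → ℂ) 1 = n := fun i =>
    Chars.exists_irr_apply_one_eq i.1.2
  choose dg hdg0 hdg using hdeg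
  have hcountm : ∀ ψ : Ψ, (Finset.univ.filter fun φ : Ψ => Rel Q φ.1 ψ.1).card = m := by
    intro ψ
    let g : N → Ψ := fun n => ⟨ψ.1.comp (act Q n), fun h1 => ψ.2 <| by
      have := congrArg (fun f : Q →* ℂˣ => f.comp (act Q n⁻¹)) h1
      simpa [MonoidHom.comp_assoc, ← act_mul, act_one] using this⟩
    have h := Finset.card_eq_sum_card_fiberwise (s := (Finset.univ : Finset N))
      (t := (Finset.univ : Finset Ψ)) (f := g) fun _ _ => Finset.mem_coe.2 (Finset.mem_univ _)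
    have hc : ∀ φ : Ψ, ((Finset.univ.filter fun n => g n = φ).card : ℂ) =
        if Rel Q φ.1 ψ.1 then (Nat.card C : ℂ) else 0 := fun φ => by
      rw [← hfib φ.1 ψ.1 φ.2 ψ.2]
      congr 2
      ext n
      simp only [Finset.mem_filter, Finset.mem_univ, true_and]
      exact ⟨fun h => congrArg Subtype.val h, fun h => Subtype.ext h⟩
    have h2 := congrArg (fun k : ℕ => (k : ℂ)) h
    simp only [Finset.card_univ, ← Nat.card_eq_fintype_card, hNC, Nat.cast_sum, hc,
      ← Finset.sum_filter, Finset.sum_const, nsmul_eq_mul, Nat.cast_mul] at h2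
    rw [mul_comm (Nat.card C : ℂ) (m : ℂ)] at h2
    exact_mod_cast (mul_right_cancel₀ hC0 h2).symm
  have hΨ : Fintype.card Ψ = Nat.card Q - 1 := by
    rw [Fintype.card_subtype_compl, Fintype.card_subtype_eq, ← Nat.card_eq_fintype_card,
      CommGroup.card_monoidHom_of_hasEnoughRootsOfUnity Q ℂ]
  obtain ⟨ψ0⟩ : Nonempty Ψ := Fintype.card_pos_iff.1 (by omega)
  obtain ⟨ψ1, hψ1⟩ : ∃ ψ1 : Ψ, ¬ Rel Q ψ1.1 ψ0.1 := by
    by_contra hno
    push Not at hno
    have := hcountm ψ0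
    rw [Finset.filter_true_of_mem fun φ _ => hno φ, Finset.card_univ, hΨ] at this
    omega
  let R : Ψ → Ψ → Prop := fun ψ φ => Rel Q ψ.1 φ.1
  have hR : Equivalence R :=
    ⟨fun ψ => (rel_equivalence Q).refl _, fun h => (rel_equivalence Q).symm h,
      fun h h' => (rel_equivalence Q).trans h h'⟩
  obtain ⟨ζ, w, δ, c, hδ, hζ, hxw, hc, hcn⟩ := coherent' R (fun ψ (i : ι) => k ψ.1 i.1) (m : ℤ) hR
    (fun ψ φ => by
      have h := hgram ψ.1 φ.1 ψ.2 φ.2
      rw [tosum] at h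
      simp only [hk, map_intCast] at h
      exact_mod_cast h)
    (fun i => (dg i : ℤ)) (fun i => by exact_mod_cast hdg0 i)
    (fun ψ => by
      have h := hkill (fun χ => (χ : G → ℂ) 1)
        (kill_regular hM P.2 (g := 1) (by rw [orderOf_one]; exact (Fact.out : p.Prime).not_dvd_one))
        ψ.1
      rw [tosum] at h
      simp only [hk, hdg] at h
      exact_mod_cast h)
    hψ1
  -- values
  have hk1 : ∀ χ, k 1 χ = 0 := fun χ => by
    have h : A 1 χ = 0 := by rw [hA]; simp [θ]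
    rw [hk] at h
    exact_mod_cast h
  have hvalue : ∀ (i : ι) (y : Q), y ≠ 1 → (i.1 : G → ℂ) y =
      -(w i : ℂ) + (δ : ℂ) * ∑ ψ ∈ Finset.univ.filter (fun ψ : Ψ => ζ ψ = i), (ψ.1 y : ℂ) := by
    intro i y hy
    have hsum : ∑ ψ : Ψ, (ψ.1 y : ℂ) = -1 := by
      have h := sum_dual y
      rw [if_neg hy, ← Fintype.sum_subtype_add_sum_subtype (fun ψ : Q →* ℂˣ => ψ ≠ 1)] at h
      haveI : Unique {ψ : Q →* ℂˣ // ¬ ψ ≠ 1} :=
        ⟨⟨⟨1, by simp⟩⟩, fun a => Subtype.ext (not_not.1 a.2)⟩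
      rw [Fintype.sum_unique (fun a : {ψ : Q →* ℂˣ // ¬ ψ ≠ 1} => ((a.1 y : ℂˣ) : ℂ))] at h
      rw [show ((default : {ψ : Q →* ℂˣ // ¬ ψ ≠ 1}) : Q →* ℂˣ) = 1 from
        not_not.1 (default : {ψ : Q →* ℂˣ // ¬ ψ ≠ 1}).2] at h
      simpa [eq_neg_iff_add_eq_zero] using h
    rw [hrec i.1 y hy, ← Finset.add_sum_erase _ _ (Finset.mem_univ (1 : Q →* ℂˣ)), hk, hk1,
      Int.cast_zero, zero_mul, zero_add, ← Finset.filter_ne', Finset.sum_subtype _
      (p := fun ψ : Q →* ℂˣ => ψ ≠ 1) (fun ψ => by simp)]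
    calc ∑ ψ : Ψ, A ψ.1 i.1 * (ψ.1 y : ℂ)
        = ∑ ψ : Ψ, ((w i : ℂ) * (ψ.1 y : ℂ) +
            (δ : ℂ) * if ζ ψ = i then (ψ.1 y : ℂ) else 0) := by
          refine Finset.sum_congr rfl fun ψ _ => ?_
          have h := hxw ψ i
          rw [hk, h]
          by_cases hh : i = ζ ψ
          · subst hh; simp; ring
          · simp [hh, Ne.symm hh]
      _ = _ := by
          rw [Finset.sum_add_distrib, ← Finset.mul_sum, ← Finset.mul_sum, hsum, Finset.sum_filter]
          ring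
  -- the two sets
  obtain ⟨Yf, hYf⟩ : ∃ Yf : Finset ι, Yf = Finset.univ.image ζ := ⟨_, rfl⟩
  have hYcard : Yf.card * m = Nat.card Q - 1 := by
    rw [← hΨ, ← Finset.card_univ, Finset.card_eq_sum_card_fiberwise (t := Yf) (f := ζ)
      (fun ψ _ => by simp [hYf])]
    rw [Finset.sum_congr rfl (g := fun _ => m) fun i hi => ?_, Finset.sum_const, smul_eq_mul]
    rw [hYf, Finset.mem_image] at hi
    obtain ⟨ψ, -, rfl⟩ := hi
    rw [← hcountm ψ]
    congr 1
    ext φ
    simp [hζ, R]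
  have hr : (Nat.card Q - 1) / m = Yf.card := by
    rw [← hYcard, Nat.mul_div_cancel _ (by omega)]
  have hr2 : 2 ≤ Yf.card := Finset.one_lt_card.2 ⟨ζ ψ0, by simp [hYf], ζ ψ1, by simp [hYf],
    fun h => hψ1 ((rel_equivalence Q).symm ((hζ _ _).1 h))⟩
  obtain ⟨one, hone⟩ : ∃ one : ι, (one.1 : G → ℂ) = fun _ => 1 :=
    ⟨⟨Blocks.oneChar G, Blocks.one_mem_principal⟩, by funext g; simp [Blocks.coe_oneChar]⟩
  have hkone : ∀ ψ : Ψ, k ψ.1 one.1 = -1 := fun ψ => by
    have h : A ψ.1 one.1 = -1 := by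
      have hs := sum_mul_conj (1 : Q →* ℂˣ) ψ.1
      rw [if_neg (Ne.symm ψ.2)] at hs
      simp only [MonoidHom.one_apply, Units.val_one, one_mul] at hs
      rw [hA]
      simp [hone, θ, mul_sub, hs, ← Nat.card_eq_fintype_card, hQ0]
    rw [hk] at h
    exact_mod_cast h
  have honeY : ∀ ψ, ζ ψ ≠ one := by
    intro ψ hψ
    have a0 := hxw ψ0 one
    have a1 := hxw ψ1 one
    have a2 := hxw ψ one
    simp only [hkone] at a0 a1 a2
    rw [if_pos hψ.symm] at a2
    by_cases b0 : one = ζ ψ0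
    · by_cases b1 : one = ζ ψ1
      · exact hψ1 ((rel_equivalence Q).symm ((hζ _ _).1 (b0.symm.trans b1)))
      · rw [if_neg b1] at a1; rcases hδ with hd | hd <;> subst hd <;> omega
    · rw [if_neg b0] at a0; rcases hδ with hd | hd <;> subst hd <;> omega
  have hwone : w one = -1 := by
    have a0 := hxw ψ0 one
    simp only [hkone, if_neg (Ne.symm (honeY ψ0))] at a0
    linarith
  have hwne : ∀ i : ι, i ∉ Yf → w i ≠ 0 := by
    intro i hi h0
    have hi' : ∀ ψ, ζ ψ ≠ i := fun ψ h => hi (by simp [hYf, ← h])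
    have hv : ∀ g : G, p ∣ orderOf g → (i.1 : G → ℂ) g = 0 := by
      intro g hg
      obtain ⟨y, hy⟩ : ∃ y, y = Blocks.ppart p g := ⟨_, rfl⟩
      have hyp : IsPPart p g y := Blocks.isPPart_iff.2 hy
      have hy1 : y ≠ 1 := fun h => (Blocks.ppart_one_iff.1 (hy.symm.trans h)) hg
      obtain ⟨l, hl⟩ := hy ▸ Blocks.exists_orderOf_ppart (p := p) g
      obtain ⟨S, hS⟩ := IsPGroup.exists_le_sylow
        (IsPGroup.of_card ((Nat.card_zpowers y).trans hl))
      obtain ⟨b, hb⟩ := MulAction.exists_smul_eq G S P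
      have hbQ : b * y * b⁻¹ ∈ Q := by
        rw [hQ, ← hb, Sylow.coe_subgroup_smul]
        exact ⟨y, hS (Subgroup.mem_zpowers y), by simp⟩
      have hb1 : b * y * b⁻¹ ≠ 1 := by simpa using hy1
      have hz : IsPPart p (b * g * b⁻¹) (b * y * b⁻¹) :=
        Blocks.isPPart_iff.2 (by rw [Blocks.ppart_conj, hy])
      rw [← Chars.isClassFunction_irr i.1 g b, hval i.1 i.2 _ _ hz hbQ hb1,
        hvalue i ⟨_, hbQ⟩ (fun h => hb1 (congrArg Subtype.val h)),
        Finset.filter_eq_empty_iff.2 fun ψ _ => hi' ψ]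
      simp [h0]
    have hs := BlockChar.block_singleton_of_vanish (p := p) hpM Blocks.isPBlock_principal i.2 hv
    have ho : one.1 = i.1 := by
      exact (Set.ext_iff.1 hs one.1).1 one.2
    obtain ⟨l, hl⟩ := IsPGroup.iff_card.1 P.2
    obtain ⟨g, hg⟩ := exists_prime_orderOf_dvd_card' p (G := G) (dvd_trans (by
      rw [hl]; exact dvd_pow_self p fun h => hP1 (by rw [hl, h, pow_zero]))
      (Subgroup.card_subgroup_dvd_card Q))
    have := hv g (dvd_of_eq hg.symm)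
    rw [← ho, hone] at this
    exact one_ne_zero this
  -- the relation
  have hrel : ∀ f : IrrCharacter G → ℂ,
      (∀ u ∈ Q, u ≠ 1 → ∑ᶠ χ ∈ principalBlock M G, f χ * (χ : G → ℂ) u = 0) →
      ∀ ψ : Ψ, ∑ i : ι, (w i : ℂ) * f i.1 + (δ : ℂ) * f (ζ ψ).1 = 0 := by
    intro f hf ψ
    have h := hkill f hf ψ.1
    rw [tosum] at h
    rw [← h]
    have e : ∀ i : ι, f i.1 * A ψ.1 i.1 =
        (w i : ℂ) * f i.1 + if i = ζ ψ then (δ : ℂ) * f i.1 else 0 := fun i => by
      have h' := hxw ψ i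
      rw [hk, h']
      push_cast
      split_ifs <;> ring
    simp only [e, Finset.sum_add_distrib]
    rw [Finset.sum_ite_eq']
    simp
  -- assemble
  let a' : IrrCharacter G → ℤ := fun χ => if h : χ ∈ principalBlock M G then -w ⟨χ, h⟩ else 0
  have ha' : ∀ i : ι, a' i.1 = -w i := fun i => by simp [a', i.2]
  let ζ' : (Q →* ℂˣ) → IrrCharacter G := fun ψ => if h : ψ = 1 then one.1 else (ζ ⟨ψ, h⟩).1
  let Xs : Set (IrrCharacter G) := {χ | ∃ i : ι, i ∉ Yf ∧ i.1 = χ}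
  have hsumX : ∀ g : IrrCharacter G → ℂ, ∑ᶠ χ ∈ Xs, g χ = ∑ i ∈ Yfᶜ, g i.1 := by
    intro g
    have : Xs = Subtype.val '' ((Yfᶜ : Finset ι) : Set ι) := by
      ext χ; exact ⟨fun ⟨i, hi, e⟩ => ⟨i, Finset.mem_coe.2 (Finset.mem_compl.2 hi), e⟩,
        fun ⟨i, hi, e⟩ => ⟨i, Finset.mem_compl.1 (Finset.mem_coe.1 hi), e⟩⟩
    rw [this, finsum_mem_image Subtype.val_injective.injOn, finsum_mem_coe_finset]
  have hsumXZ : ∀ g : IrrCharacter G → ℤ, ∑ᶠ χ ∈ Xs, g χ = ∑ i ∈ Yfᶜ, g i.1 := by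
    intro g
    have : Xs = Subtype.val '' ((Yfᶜ : Finset ι) : Set ι) := by
      ext χ; exact ⟨fun ⟨i, hi, e⟩ => ⟨i, Finset.mem_coe.2 (Finset.mem_compl.2 hi), e⟩,
        fun ⟨i, hi, e⟩ => ⟨i, Finset.mem_compl.1 (Finset.mem_coe.1 hi), e⟩⟩
    rw [this, finsum_mem_image Subtype.val_injective.injOn, finsum_mem_coe_finset]
  have hnorm : (c + δ) ^ 2 + ((Yf.card : ℤ) - 1) * c ^ 2 + ∑ i ∈ Yfᶜ, w i ^ 2 = (m : ℤ) + 1 := by
    have h := hgram ψ0.1 ψ0.1 ψ0.2 ψ0.2
    rw [tosum, if_pos ((rel_equivalence Q).refl _)] at h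
    simp only [hk, map_intCast] at h
    have h' : ∑ i : ι, k ψ0.1 i.1 * k ψ0.1 i.1 = (m : ℤ) + 1 := by exact_mod_cast h
    rw [← h', ← Finset.sum_add_sum_compl Yf (fun i : ι => k ψ0.1 i.1 * k ψ0.1 i.1)]
    have e : ∀ i : ι, k ψ0.1 i.1 = w i + δ * if i = ζ ψ0 then 1 else 0 := fun i => hxw ψ0 i
    have h0 : ζ ψ0 ∈ Yf := by simp [hYf]
    congr 1
    · rw [← Finset.add_sum_erase _ _ h0, e, if_pos rfl, hc]
      rw [Finset.sum_congr rfl (g := fun _ => c ^ 2) fun i hi => ?_, Finset.sum_const,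
        Finset.card_erase_of_mem h0, nsmul_eq_mul, Nat.cast_sub (by omega)]
      · push_cast; ring
      · obtain ⟨hne, hi⟩ := Finset.mem_erase.1 hi
        rw [hYf, Finset.mem_image] at hi
        obtain ⟨φ, -, rfl⟩ := hi
        rw [e, if_neg hne, hc]; ring
    · refine Finset.sum_congr rfl fun i hi => ?_
      rw [e, if_neg fun (h : i = ζ ψ0) => Finset.mem_compl.1 hi (h ▸ h0)]
      ring
  have hsq : ((Yfᶜ).card : ℤ) ≤ ∑ i ∈ Yfᶜ, w i ^ 2 := by
    rw [Finset.card_eq_sum_ones, Nat.cast_sum]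
    exact Finset.sum_le_sum fun i hi => by
      have := hwne i (Finset.mem_compl.1 hi)
      have h2 : 0 < w i ^ 2 := by positivity
      push_cast; omega
  refine ⟨{
    X := Xs
    Y := {χ | ∃ i : ι, i ∈ Yf ∧ i.1 = χ}
    union_eq := ?_
    disjoint := ?_
    card_X := ?_
    card_Y := ?_
    one_mem := ⟨one.1, ⟨one, fun h => ?_, rfl⟩, hone⟩
    a := a'
    a_one := fun χ hχ => ?_
    d := -c
    δ := δ
    ζ := ζ'
    δ_eq := hδ
    val_X := ?_
    ζ_mem := fun ψ hψ => ⟨ζ ⟨ψ, hψ⟩, by simp [hYf], by simp [ζ', hψ]⟩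
    ζ_surj := ?_
    ζ_inv := ?_
    val_Y := ?_
    norm_eq := ?_
    two_le := hr ▸ hr2
    dvd_card := ⟨Yf.card, by rw [← hYcard, mul_comm]⟩
    column := fun u hu hu1 => ?_
    normalised := fun h2 hd => hcn (fun ψ => ?_) (by linarith)
    rel := ?_ }⟩
  · ext χ
    constructor
    · intro h
      by_cases hY : (⟨χ, h⟩ : ι) ∈ Yf
      · exact Or.inr ⟨_, hY, rfl⟩
      · exact Or.inl ⟨_, hY, rfl⟩
    · rintro (⟨i, -, rfl⟩ | ⟨i, -, rfl⟩) <;> exact i.2
  · rw [Set.disjoint_left]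
    rintro χ ⟨i, hi, rfl⟩ ⟨j, hj, hji⟩
    exact hi (Subtype.ext hji ▸ hj)
  · have h1 : Nat.card Xs = (Yfᶜ).card := by
      rw [show Xs = Subtype.val '' ((Yfᶜ : Finset ι) : Set ι) by ext χ; exact ⟨fun ⟨i, hi, e⟩ => ⟨i, Finset.mem_coe.2 (Finset.mem_compl.2 hi), e⟩,
        fun ⟨i, hi, e⟩ => ⟨i, Finset.mem_compl.1 (Finset.mem_coe.1 hi), e⟩⟩,
        Nat.card_image_of_injective Subtype.val_injective, Nat.card_coe_set_eq,
        Set.ncard_coe_finset]
    have h1' : 1 ≤ (c + δ) ^ 2 + ((Yf.card : ℤ) - 1) * c ^ 2 := by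
      have : (2 : ℤ) ≤ Yf.card := by exact_mod_cast hr2
      rcases eq_or_ne c 0 with h | h
      · subst h; rcases hδ with h | h <;> subst h <;> norm_num
      · have : 1 ≤ c ^ 2 := by have : 0 < c ^ 2 := by positivity
                               omega
        nlinarith [sq_nonneg (c + δ)]
    rw [h1]
    omega
  · rw [hr, show {χ | ∃ i : ι, i ∈ Yf ∧ i.1 = χ} = Subtype.val '' (Yf : Set ι) by
      ext χ; exact ⟨fun ⟨i, hi, e⟩ => ⟨i, hi, e⟩, fun ⟨i, hi, e⟩ => ⟨i, hi, e⟩⟩,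
      Nat.card_image_of_injective Subtype.val_injective, Nat.card_coe_set_eq,
      Set.ncard_coe_finset]
  · rw [hYf, Finset.mem_image] at h
    obtain ⟨ψ, -, hψ⟩ := h
    exact honeY ψ hψ
  · have : χ = one.1 := Subtype.ext (hχ.trans hone.symm)
    rw [this, ha', hwone]; rfl
  · rintro χ ⟨i, hi, rfl⟩
    refine ⟨by rw [ha']; simpa using hwne i hi, fun z y hz hy hy1 => ?_⟩
    rw [hval i.1 i.2 z y hz hy hy1, hvalue i ⟨y, hy⟩ (fun h => hy1 (congrArg Subtype.val h)),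
      Finset.filter_eq_empty_iff.2 fun ψ _ h => hi (by simp [hYf, ← h]), ha']
    simp
  · rintro η ⟨i, hi, rfl⟩
    rw [hYf, Finset.mem_image] at hi
    obtain ⟨ψ, -, rfl⟩ := hi
    exact ⟨ψ.1, ψ.2, by simp [ζ', ψ.2]⟩
  · intro ψ ψ' hψ h
    rw [rel_iff] at h
    have hψ' : ψ' ≠ 1 := by
      rintro rfl
      obtain ⟨n, hn⟩ := h
      exact hψ (by rw [← hn, MonoidHom.one_comp])
    simp only [ζ', dif_neg hψ, dif_neg hψ']
    exact congrArg Subtype.val ((hζ _ _).2 ((rel_equivalence Q).symm h))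
  · intro ψ hψ z y hz hy
    have hy' : y ≠ 1 := fun h => hy (congrArg Subtype.val h)
    simp only [ζ', dif_neg hψ]
    rw [hval _ (ζ ⟨ψ, hψ⟩).2 z y hz y.2 hy, hvalue _ y hy', hc]
    push_cast
    congr 1
    congr 1
    rw [finsum_mem_eq_sum_of_inter_support_eq _
      (t := (Finset.univ.filter fun φ : Ψ => ζ φ = ζ ⟨ψ, hψ⟩).map (Function.Embedding.subtype _)) ?_,
      Finset.sum_map]
    · rfl
    · ext φ
      simp only [Set.mem_inter_iff, Set.mem_ofPred_eq, Finset.coe_map, Set.mem_image,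
        Finset.mem_coe, Finset.mem_filter, Finset.mem_univ, true_and,
        Function.Embedding.subtype_apply, rel_iff]
      constructor
      · rintro ⟨h, hs⟩
        have hφ : φ ≠ 1 := by
          rintro rfl
          obtain ⟨n, hn⟩ := h
          exact hψ (by rw [← hn, MonoidHom.one_comp])
        exact ⟨⟨⟨φ, hφ⟩, (hζ _ _).2 ((rel_equivalence Q).symm h), rfl⟩, hs⟩
      · rintro ⟨⟨φ', h, rfl⟩, hs⟩
        exact ⟨(rel_equivalence Q).symm ((hζ _ _).1 h), hs⟩
  · rw [hsumXZ]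
    have hcast : (((Nat.card Q : ℤ) - 1) / (m : ℤ)) = (Yf.card : ℤ) := by
      have : ((Nat.card Q : ℤ) - 1) = (Yf.card : ℤ) * m := by
        have h1 : 1 ≤ Nat.card Q := Nat.card_pos
        exact_mod_cast (by rw [Nat.cast_sub h1, Nat.cast_one] :
          ((Nat.card Q : ℤ) - 1) = ((Nat.card Q - 1 : ℕ) : ℤ)).trans
            (congrArg (fun k : ℕ => (k : ℤ)) hYcard.symm)
      rw [this, Int.mul_ediv_cancel _ (by omega)]
    have hsum : ∑ i ∈ Yfᶜ, a' i.1 ^ 2 = ∑ i ∈ Yfᶜ, w i ^ 2 :=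
      Finset.sum_congr rfl fun i _ => by rw [ha', neg_sq]
    rw [hsum, hcast, ← hnorm]
    ring
  · obtain ⟨K, l, hKn, hKp, hKi, hQl⟩ := comp u hu hu1
    haveI := hKn
    haveI : Fintype (Subgroup.centralizer ({u} : Set G)) := Fintype.ofFinite _
    haveI : Fintype K := Fintype.ofFinite K
    have h1 : ¬ p ∣ orderOf (1 : Subgroup.centralizer ({u} : Set G)) := by
      rw [orderOf_one]; exact (Fact.out : p.Prime).not_dvd_one
    obtain ⟨l', hl'⟩ := IsPGroup.iff_orderOf.1 P.2 ⟨u, hu⟩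
    have e := Blocks.norm_sum_principal (M := M) hpM (z := u)
      ⟨l', by rw [← hl', ← Subgroup.orderOf_coe]⟩ (y := (1 : Subgroup.centralizer ({u} : Set G))) h1
    simp only [Subgroup.coe_one, mul_one] at e
    rw [Blocks.finsum_mem_eq_filter, e, (Blocks.sum_sq_principal (M := M) hpM hKp hKi h1).1, hQl,
      Nat.cast_pow]
  · rw [hr] at h2
    have hne : ζ ψ0 ≠ ζ ψ1 := fun h => hψ1 ((rel_equivalence Q).symm ((hζ _ _).1 h))
    have hsub : ({ζ ψ0, ζ ψ1} : Finset ι) = Yf := Finset.eq_of_subset_of_card_le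
      (by simp [Finset.insert_subset_iff, hYf]) (by rw [h2, Finset.card_pair hne])
    have hmem : ζ ψ ∈ ({ζ ψ0, ζ ψ1} : Finset ι) := by rw [hsub]; simp [hYf]
    rcases Finset.mem_insert.1 hmem with h | h
    · exact Or.inr ((hζ _ _).1 h)
    · exact Or.inl ((hζ _ _).1 (Finset.mem_singleton.1 h))
  · intro f hf
    have h := hrel f hf
    have heq : ∀ ψ φ : Ψ, f (ζ ψ).1 = f (ζ φ).1 := fun ψ φ => by
      have h1 := h ψ
      have h2 := h φ
      rcases hδ with hd | hd <;> subst hd <;> push_cast at h1 h2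
      · linear_combination h1 - h2
      · linear_combination h2 - h1
    refine ⟨?_, ?_⟩
    · rintro η ⟨i, hi, rfl⟩ η' ⟨j, hj, rfl⟩
      rw [hYf, Finset.mem_image] at hi hj
      obtain ⟨ψ, -, rfl⟩ := hi
      obtain ⟨φ, -, rfl⟩ := hj
      exact heq ψ φ
    · rintro η ⟨i, hi, rfl⟩
      have hi' := hi
      rw [hYf, Finset.mem_image] at hi'
      obtain ⟨ψ, -, rfl⟩ := hi'
      have h1 := h ψ
      rw [← Finset.sum_add_sum_compl Yf (fun i : ι => (w i : ℂ) * f i.1),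
        Finset.sum_congr rfl (g := fun _ => (c : ℂ) * f (ζ ψ).1) fun j hj => ?_, Finset.sum_const,
        nsmul_eq_mul] at h1
      · rw [hr, hsumX, Finset.sum_congr rfl (g := fun i : ι => -((w i : ℂ) * f i.1))
          fun i _ => by rw [ha']; push_cast; ring, Finset.sum_neg_distrib]
        push_cast
        linear_combination -h1
      · rw [hYf, Finset.mem_image] at hj
        obtain ⟨φ, -, rfl⟩ := hj
        rw [hc, heq φ ψ]

end Cfsg.Agent.LeadWork.Coherent
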