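import Cfsg.Agent.LeadWork.CoherentBlock
import Cfsg.Agent.Chars.Eigen
import Cfsg.Agent.S0944

/-!
An automizer of order three on an abelian Sylow subgroup: the principal block.
-/

set_option autoImplicit false
set_option linter.unusedSectionVars false
set_option linter.style.haveILetI false
set_option linter.unusedVariables false

namespace Cfsg.Agent.LeadWork.Coherent

open Cfsg Cfsg.Agent
open scoped ComplexConjugate

universe u

theorem three_pos {u v w U V W : ℝ} (hu : 0 < u) (hv : 0 < v) (hw : 0 < w) (h0 : 1 + u + v = w)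
    (h1 : 1 + U + V = W) (h2 : 1 + U ^ 2 / u + V ^ 2 / v = W ^ 2 / w) : W = w := by
  obtain ⟨c, hc⟩ : ∃ c, c * w = W := ⟨W / w, div_mul_cancel₀ _ hw.ne'⟩
  have e : (1 - c) ^ 2 + (U - c * u) ^ 2 / u + (V - c * v) ^ 2 / v = 0 := by
    calc (1 - c) ^ 2 + (U - c * u) ^ 2 / u + (V - c * v) ^ 2 / v
        = (1 + U ^ 2 / u + V ^ 2 / v) - 2 * c * (1 + U + V) + c ^ 2 * (1 + u + v) := by
          field_simp; ring
      _ = 0 := by
          rw [h0, h1, h2, ← hc]
          field_simp
          ring
  have : 0 ≤ (U - c * u) ^ 2 / u := by positivity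
  have : 0 ≤ (V - c * v) ^ 2 / v := by positivity
  have h3 : (1 - c) ^ 2 = 0 := le_antisymm (by linarith) (sq_nonneg _)
  have : c = 1 := by linarith [eq_zero_of_pow_eq_zero h3]
  rw [← hc, this, one_mul]

theorem square_of_moments {u v w : ℕ} {U V W : ℤ} (hu : 0 < u) (hv : 0 < v) (hw : 0 < w)
    (h0 : (1 : ℤ) + w = u + v) (h1 : 1 + W = U + V)
    (h2 : (u * v * w : ℤ) + u * v * W ^ 2 = v * w * U ^ 2 + u * w * V ^ 2) (hne : V ≠ v) :
    IsSquare (u * v * w) := by
  obtain ⟨A, hA⟩ : ∃ A : ℤ, A = -((v : ℤ) * (v - 1)) * U + u * v * (V - 1) := ⟨_, rfl⟩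
  have hw' : (w : ℤ) = u + v - 1 := by linarith
  have hW' : W = U + V - 1 := by linarith
  have e : A ^ 2 = ((u * v * w : ℕ) : ℤ) * (V - v) ^ 2 := by
    push_cast
    rw [hA, hw']
    rw [hw', hW'] at h2
    linear_combination (-((v : ℤ) * (v - 1))) * h2
  have e' : A.natAbs ^ 2 = (u * v * w) * (V - v).natAbs ^ 2 := by
    have := congrArg Int.natAbs e
    rwa [Int.natAbs_mul, Int.natAbs_pow, Int.natAbs_pow, Int.natAbs_natCast] at this
  have hk : 0 < (V - v).natAbs := Int.natAbs_pos.2 (sub_ne_zero.2 hne)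
  obtain ⟨l, hl⟩ := (Nat.pow_dvd_pow_iff two_ne_zero).1 (Dvd.intro_left _ e'.symm)
  refine ⟨l, Nat.eq_of_mul_eq_mul_right (pow_pos hk 2) ?_⟩
  rw [← e', hl]
  ring

variable {G : Type u} [Group G] [Finite G] {p : ℕ} [Fact p.Prime] {M : Ideal AlgInt}

/-- For an automizer of order three the exceptional correction vanishes. -/
theorem normal_form (hM : IsPModular p M) (P : Sylow p G) (D : Data p M (P : Subgroup G) 3) :
    D.d = 0 ∧ Nat.card D.X = 3 ∧ ∀ χ ∈ D.X, D.a χ = 1 ∨ D.a χ = -1 := by
  classical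
  haveI : Fintype G := Fintype.ofFinite G
  obtain ⟨r, hr⟩ := D.dvd_card
  have hr' : (Nat.card (P : Subgroup G) - 1) / 3 = r := by rw [hr]; omega
  have h2 : 2 ≤ r := hr' ▸ D.two_le
  have hcast : ((Nat.card (P : Subgroup G) : ℤ) - 1) / 3 = (r : ℤ) := by omega
  have hn := D.norm_eq
  rw [Blocks.finsum_mem_eq_filter, Nat.cast_ofNat, hcast] at hn
  set X' := Finset.univ.filter (· ∈ D.X) with hX'
  obtain ⟨one, hone, hone1⟩ := D.one_mem
  have ha1 : D.a one = 1 := D.a_one one hone1
  have hsq : ∀ χ ∈ X', 1 ≤ D.a χ ^ 2 := fun χ hχ => by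
    have := (D.val_X χ (Finset.mem_filter.1 hχ).2).1
    have : 0 < D.a χ ^ 2 := by positivity
    omega
  have hmem : one ∈ X' := by simp [hX', hone]
  have hS : 1 ≤ ∑ χ ∈ X', D.a χ ^ 2 :=
    le_trans (by rw [ha1]; norm_num) (Finset.single_le_sum (fun χ _ => sq_nonneg (D.a χ)) hmem)
  have hd : D.d = 0 := by
    by_contra hd
    have hdd : 1 ≤ D.d ^ 2 := by
      have : 0 < D.d ^ 2 := by positivity
      omega
    have hr1 : (1 : ℤ) ≤ (r : ℤ) - 1 := by omega
    have hsum : D.d ^ 2 ≤ ((r : ℤ) - 1) * D.d ^ 2 := le_mul_of_one_le_left (sq_nonneg _) hr1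
    have hub : D.d ^ 2 ≤ 3 := by nlinarith [sq_nonneg (D.d - D.δ)]
    have hd1 : D.d = 1 ∨ D.d = -1 := by
      have : D.d < 2 := by nlinarith
      have : -2 < D.d := by nlinarith
      omega
    by_cases hdδ : D.d = D.δ
    · have hd2 : D.d ^ 2 = 1 := by rcases hd1 with h | h <;> rw [h] <;> norm_num
      rw [hdδ, sub_self] at hn
      rw [hdδ] at hd2
      rw [hd2, mul_one] at hn
      have hrne : r ≠ 2 := fun h => D.normalised (hr'.trans h) hdδ
      have hcases : r = 3 ∨ r = 4 := by
        simp only [ne_eq, OfNat.ofNat_ne_zero, not_false_eq_true, zero_pow] at hn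
        omega
      rcases hcases with h | h
      · -- no group of order ten
        obtain ⟨k, hk⟩ := IsPGroup.iff_card.1 P.2
        have h10 : p ^ k = 10 := by rw [← hk]; omega
        have hp := (Fact.out : p.Prime)
        have hk0 : k ≠ 0 := fun h => by subst h; simp at h10
        have h5 : (5 : ℕ).Prime := Nat.prime_five
        have a2 := (Nat.prime_dvd_prime_iff_eq Nat.prime_two hp).1
          (Nat.prime_two.dvd_of_dvd_pow (show 2 ∣ p ^ k by rw [h10]; norm_num))
        have a5 := (Nat.prime_dvd_prime_iff_eq h5 hp).1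
          (h5.dvd_of_dvd_pow (show 5 ∣ p ^ k by rw [h10]; norm_num))
        omega
      · subst h
        have hS1 : ∑ χ ∈ X', D.a χ ^ 2 = 1 := by
          simp only [ne_eq, OfNat.ofNat_ne_zero, not_false_eq_true, zero_pow] at hn
          omega
        have hX1 : X' = {one} := by
          refine Finset.eq_singleton_iff_unique_mem.2 ⟨hmem, fun χ hχ => by_contra fun hne => ?_⟩
          have : D.a one ^ 2 + D.a χ ^ 2 ≤ ∑ χ ∈ X', D.a χ ^ 2 := by
            rw [← Finset.sum_pair (Ne.symm hne) (f := fun χ => D.a χ ^ 2)]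
            exact Finset.sum_le_sum_of_subset_of_nonneg
              (by simp [Finset.insert_subset_iff, hmem, hχ]) fun χ _ _ => sq_nonneg _
          have := hsq χ hχ
          rw [ha1] at *
          omega
        obtain ⟨η, hη⟩ : D.Y.Nonempty := by
          by_contra hY
          rw [Set.not_nonempty_iff_eq_empty] at hY
          have := D.card_Y
          rw [hY, hr'] at this
          simp at this
        have hrel := (D.rel (fun χ => (χ : G → ℂ) 1) (kill_regular hM P.2 (g := 1)
          (by rw [orderOf_one]; exact (Fact.out : p.Prime).not_dvd_one))).2 η hη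
        obtain ⟨n, -, hn1⟩ := Chars.exists_irr_apply_one_eq η.2
        rw [Blocks.finsum_mem_eq_filter, ← hX', hX1, Finset.sum_singleton, hr', hn1, ha1, hdδ,
          hone1] at hrel
        have hz : ((4 * D.δ - D.δ) * (n : ℤ) + 1 : ℤ) = 0 := by
          apply Int.cast_injective (α := ℂ)
          push_cast at hrel ⊢
          linear_combination hrel
        rcases D.δ_eq with h | h <;> rw [h] at hz <;> omega
    · have : 4 ≤ (D.d - D.δ) ^ 2 := by
        rcases hd1 with h | h <;> rcases D.δ_eq with h' | h' <;>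
          first | exact absurd (h.trans h'.symm) hdδ | (rw [h, h']; norm_num)
      nlinarith
  refine ⟨hd, ?_⟩
  have hS3 : ∑ χ ∈ X', D.a χ ^ 2 = 3 := by
    rw [hd] at hn
    rcases D.δ_eq with h | h <;> rw [h] at hn <;> norm_num at hn <;> linarith
  have hone' : ∀ χ ∈ X', D.a χ = 1 ∨ D.a χ = -1 := by
    intro χ hχ
    have h1 := Finset.single_le_sum (fun χ _ => sq_nonneg (D.a χ)) hχ
    rw [hS3] at h1
    have : D.a χ < 2 := by nlinarith
    have : -2 < D.a χ := by nlinarith
    have := (D.val_X χ (Finset.mem_filter.1 hχ).2).1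
    omega
  refine ⟨?_, fun χ hχ => hone' χ (by simp [hX', hχ])⟩
  have hc : ((X'.card : ℕ) : ℤ) = 3 := by
    rw [← hS3, Finset.card_eq_sum_ones, Nat.cast_sum]
    exact Finset.sum_congr rfl fun χ hχ => by rcases hone' χ hχ with h | h <;> simp [h]
  rw [Nat.card_eq_fintype_card, Fintype.card_subtype]
  exact_mod_cast hc

section

variable (P : Sylow p G) (hab : IsMulCommutative P)
  (hCN : (Subgroup.centralizer ((P : Subgroup G) : Set G)).relIndex
    (Subgroup.normalizer ((P : Subgroup G) : Set G)) = 3)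
  (hfrob : ∀ y : G, y ∈ (P : Subgroup G) → y ≠ 1 →
    Subgroup.centralizer ({y} : Set G) ⊓ Subgroup.normalizer ((P : Subgroup G) : Set G) =
      Subgroup.centralizer ((P : Subgroup G) : Set G))

include hab in
theorem le_centralizer : (P : Subgroup G) ≤ Subgroup.centralizer ((P : Subgroup G) : Set G) :=
  fun a ha => Subgroup.mem_centralizer_iff.2 fun b hb =>
    congrArg Subtype.val (hab.1.1 (⟨b, hb⟩ : (P : Subgroup G)) ⟨a, ha⟩)

include hCN in
theorem pow_three_mem (n : Subgroup.normalizer ((P : Subgroup G) : Set G)) :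
    ((n ^ 3 : Subgroup.normalizer ((P : Subgroup G) : Set G)) : G) ∈
      Subgroup.centralizer ((P : Subgroup G) : Set G) := by
  haveI := Subgroup.normal_subgroupOf_iff (BlockChar.centralizer_le_normalizer (P : Subgroup G))
    |>.2 fun c k hc hk => Subgroup.mem_centralizer_iff.2 fun a ha => by
      have h1 := (Subgroup.mem_normalizer_iff.1 (Subgroup.inv_mem _ hk) a).1 ha
      have h2 := Subgroup.mem_centralizer_iff.1 hc _ h1
      simp only [inv_inv] at h2
      calc a * (k * c * k⁻¹) = k * ((k⁻¹ * a * k) * c) * k⁻¹ := by group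
        _ = k * (c * (k⁻¹ * a * k)) * k⁻¹ := by rw [h2]
        _ = _ := by group
  have h := Subgroup.pow_index_mem ((Subgroup.centralizer ((P : Subgroup G) : Set G)).subgroupOf
    (Subgroup.normalizer ((P : Subgroup G) : Set G))) n
  rw [show ((Subgroup.centralizer ((P : Subgroup G) : Set G)).subgroupOf
    (Subgroup.normalizer ((P : Subgroup G) : Set G))).index = 3 from hCN] at h
  exact Subgroup.mem_subgroupOf.1 h

include hab hCN hfrob in
/-- An element inverted by a conjugation is an involution. -/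
theorem mul_self_of_inverted {w g : G} (hw : w ∈ (P : Subgroup G)) (hw1 : w ≠ 1)
    (hg : g * w * g⁻¹ = w⁻¹) : w * w = 1 := by
  have hC := le_centralizer P hab
  obtain ⟨n, hn, h⟩ := Transfer.burnside_fusion_elem P (hC hw)
    (g := g) (by rw [hg]; exact hC ((P : Subgroup G).inv_mem hw))
  rw [hg] at h
  have h2 : n * n ∈ Subgroup.centralizer ((P : Subgroup G) : Set G) := by
    rw [← hfrob w hw hw1]
    refine Subgroup.mem_inf.2 ⟨Subgroup.mem_centralizer_singleton_iff.2 ?_, mul_mem hn hn⟩
    calc n * n * w = n * (n * w * n⁻¹) * n := by group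
      _ = n * w⁻¹ * n := by rw [h]
      _ = (n * w * n⁻¹)⁻¹ * (n * n) := by group
      _ = w * (n * n) := by rw [h, inv_inv]
  have h3 := pow_three_mem P hCN ⟨n, hn⟩
  have hnC : n ∈ Subgroup.centralizer ((P : Subgroup G) : Set G) := by
    have := mul_mem (inv_mem h2) h3
    simpa [pow_succ, mul_assoc] using this
  have e : n * w * n⁻¹ = w := by
    rw [← Subgroup.mem_centralizer_iff.1 hnC w hw, mul_inv_cancel_right]
  rw [e] at h
  exact mul_eq_one_iff_eq_inv.2 h

include hab hCN hfrob in
/-- The orbit of a linear character. -/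
theorem exists_sigma : ∃ σ : (P : Subgroup G) →* (P : Subgroup G),
    (∀ y, σ (σ (σ y)) = y) ∧ (∀ y, σ y = y → y = 1) ∧ (∀ y, y * σ y * σ (σ y) = 1) ∧
    (∀ n : Subgroup.normalizer ((P : Subgroup G) : Set G),
      act (P : Subgroup G) n = MonoidHom.id _ ∨ act (P : Subgroup G) n = σ ∨
        act (P : Subgroup G) n = σ.comp σ) ∧
    ∃ g : Subgroup.normalizer ((P : Subgroup G) : Set G), σ = act (P : Subgroup G) g := by
  classical
  set C := Subgroup.centralizer ((P : Subgroup G) : Set G) with hC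
  set N := Subgroup.normalizer ((P : Subgroup G) : Set G) with hN
  obtain ⟨g, hg⟩ : ∃ g : N, (g : G) ∉ C := by
    by_contra h
    push Not at h
    have : C.relIndex N = 1 := Subgroup.relIndex_eq_one.2 fun a ha => h ⟨a, ha⟩
    omega
  have hfix : ∀ n : N, (n : G) ∈ C → act (P : Subgroup G) n = MonoidHom.id _ := fun n hn =>
    MonoidHom.ext fun a => Subtype.ext (by
      rw [coe_act, ← Subgroup.mem_centralizer_iff.1 hn a a.2]; simp)
  have hfp : ∀ y, act (P : Subgroup G) g y = y → y = 1 := by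
    intro y hy
    by_contra hy1
    refine hg ?_
    rw [← hfrob y y.2 fun h => hy1 (Subtype.ext h)]
    refine Subgroup.mem_inf.2 ⟨Subgroup.mem_centralizer_singleton_iff.2 ?_, g.2⟩
    exact mul_inv_eq_iff_eq_mul.1 (congrArg Subtype.val hy)
  haveI hnorm : (C.subgroupOf N).Normal := by
    constructor
    intro c hc k
    rw [Subgroup.mem_subgroupOf] at hc ⊢
    refine Subgroup.mem_centralizer_iff.2 fun a ha => ?_
    have h1 := (Subgroup.mem_normalizer_iff.1 (inv_mem k.2) a).1 ha
    have h2 := Subgroup.mem_centralizer_iff.1 hc _ h1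
    simp only [inv_inv] at h2
    simp only [Subgroup.coe_mul, Subgroup.coe_inv]
    calc a * ((k : G) * c * (k : G)⁻¹) = k * (((k : G)⁻¹ * a * k) * c) * (k : G)⁻¹ := by group
      _ = k * (c * ((k : G)⁻¹ * a * k)) * (k : G)⁻¹ := by rw [h2]
      _ = _ := by group
  have hQ : Nat.card (N ⧸ C.subgroupOf N) = 3 := hCN
  have hcube : act (P : Subgroup G) (g ^ 3) = MonoidHom.id _ :=
    hfix _ (pow_three_mem P hCN g)
  have h3 : ∀ y, act (P : Subgroup G) g (act (P : Subgroup G) g (act (P : Subgroup G) g y)) = y := by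
    intro y
    have := DFunLike.congr_fun hcube y
    rwa [pow_succ', pow_two, act_mul, act_mul] at this
  refine ⟨act (P : Subgroup G) g, h3, hfp, fun y => hfp _ ?_, fun n => ?_, g, rfl⟩
  · rw [map_mul, map_mul, h3]
    rw [hab.1.1 (act (P : Subgroup G) g y * act (P : Subgroup G) g (act (P : Subgroup G) g y)) y,
      mul_assoc]
  · set π := QuotientGroup.mk' (C.subgroupOf N) with hπ
    have hx : π g ≠ 1 := fun h => hg
      (Subgroup.mem_subgroupOf.1 ((QuotientGroup.eq_one_iff g).1 h))
    have hx2 : π g * π g ≠ 1 := fun h => by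
      have h3' : π g ^ 3 = 1 := by rw [← hQ]; exact pow_card_eq_one'
      rw [pow_succ, pow_two, h, one_mul] at h3'
      exact hx h3'
    have hall : ∀ z : N ⧸ C.subgroupOf N, z = 1 ∨ z = π g ∨ z = π g * π g := by
      haveI := Fintype.ofFinite (N ⧸ C.subgroupOf N)
      have hne : π g ≠ π g * π g := fun h => hx (left_eq_mul.1 h)
      have hu : ({1, π g, π g * π g} : Finset (N ⧸ C.subgroupOf N)) = Finset.univ := by
        refine Finset.eq_univ_of_card _ ?_
        rw [← Nat.card_eq_fintype_card, hQ,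
          Finset.card_insert_of_notMem (by simp [Ne.symm hx, Ne.symm hx2]), Finset.card_pair hne]
      intro z
      have := Finset.mem_univ z
      rw [← hu] at this
      simpa using this
    rcases hall (π n) with h | h | h
    · exact Or.inl (hfix n (Subgroup.mem_subgroupOf.1 ((QuotientGroup.eq_one_iff n).1 h)))
    · refine Or.inr (Or.inl ?_)
      have h' : ((g⁻¹ * n : N) : G) ∈ C := Subgroup.mem_subgroupOf.1 (QuotientGroup.eq.1 h.symm)
      calc act (P : Subgroup G) n = act (P : Subgroup G) (g * (g⁻¹ * n)) := by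
            rw [mul_inv_cancel_left]
        _ = _ := by rw [act_mul, hfix _ h', MonoidHom.comp_id]
    · refine Or.inr (Or.inr ?_)
      rw [← map_mul] at h
      have h' : (((g * g)⁻¹ * n : N) : G) ∈ C :=
        Subgroup.mem_subgroupOf.1 (QuotientGroup.eq.1 h.symm)
      calc act (P : Subgroup G) n = act (P : Subgroup G) ((g * g) * ((g * g)⁻¹ * n)) := by
            rw [mul_inv_cancel_left]
        _ = _ := by rw [act_mul (P : Subgroup G) (g * g), hfix _ h', MonoidHom.comp_id, act_mul]

include hab hCN hfrob in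
/-- The orbit sums. -/
theorem finsum_orbit (σ : (P : Subgroup G) →* (P : Subgroup G))
    (hσ3 : ∀ y, σ (σ (σ y)) = y) (hσ1 : ∀ y, σ y = y → y = 1)
    (hσN : ∀ n : Subgroup.normalizer ((P : Subgroup G) : Set G),
      act (P : Subgroup G) n = MonoidHom.id _ ∨ act (P : Subgroup G) n = σ ∨
        act (P : Subgroup G) n = σ.comp σ)
    (hσg : ∃ g : Subgroup.normalizer ((P : Subgroup G) : Set G), σ = act (P : Subgroup G) g)
    (ψ : (P : Subgroup G) →* ℂˣ) (hψ : ψ ≠ 1) (y : (P : Subgroup G)) :
    (∑ᶠ ψ' ∈ {ψ' : (P : Subgroup G) →* ℂˣ | ∃ n : G,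
        n ∈ Subgroup.normalizer ((P : Subgroup G) : Set G) ∧
        ∀ w w' : (P : Subgroup G), (w' : G) = n * w * n⁻¹ → ψ' w' = ψ w}, ((ψ' y : ℂˣ) : ℂ)) =
      (ψ y : ℂ) + (ψ (σ y) : ℂ) + (ψ (σ (σ y)) : ℂ) := by
  classical
  have hne : ψ.comp σ ≠ ψ := fun h => hψ <| by
    letI : CommGroup (P : Subgroup G) :=
      { (inferInstance : Group (P : Subgroup G)) with mul_comm := fun a b => hab.1.1 a b }
    let f : (P : Subgroup G) →* (P : Subgroup G) := σ * (MonoidHom.id _)⁻¹
    have hf : Function.Injective f :=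
      (injective_iff_map_eq_one _).2 fun a ha => hσ1 a (mul_inv_eq_one.1 ha)
    refine MonoidHom.ext fun b => ?_
    obtain ⟨a, rfl⟩ := Finite.surjective_of_injective hf b
    have := DFunLike.congr_fun h a
    simp only [MonoidHom.comp_apply] at this
    simp [f, this]
  have hne2 : ψ.comp (σ.comp σ) ≠ ψ := fun h => hne <| MonoidHom.ext fun a => by
    have := DFunLike.congr_fun h (σ a)
    simp only [MonoidHom.comp_apply, hσ3] at this
    exact this.symm
  have hne3 : ψ.comp σ ≠ ψ.comp (σ.comp σ) := fun h => hne <| MonoidHom.ext fun a => by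
    have := DFunLike.congr_fun h (σ (σ a))
    simp only [MonoidHom.comp_apply, hσ3] at this
    exact this.symm
  obtain ⟨g, hg⟩ := hσg
  have hset : {ψ' : (P : Subgroup G) →* ℂˣ | ∃ n : G,
      n ∈ Subgroup.normalizer ((P : Subgroup G) : Set G) ∧
      ∀ w w' : (P : Subgroup G), (w' : G) = n * w * n⁻¹ → ψ' w' = ψ w} =
      ↑({ψ, ψ.comp σ, ψ.comp (σ.comp σ)} : Finset ((P : Subgroup G) →* ℂˣ)) := by
    ext φ
    simp only [Set.mem_ofPred_eq, rel_iff, Finset.coe_insert, Finset.coe_singleton,
      Set.mem_insert_iff, Set.mem_singleton_iff]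
    constructor
    · intro h
      obtain ⟨n, rfl⟩ := (rel_equivalence _).symm h
      rcases hσN n with h | h | h <;> rw [h]
      · exact Or.inl (MonoidHom.comp_id _)
      · exact Or.inr (Or.inl rfl)
      · exact Or.inr (Or.inr rfl)
    · intro h
      refine (rel_equivalence _).symm ?_
      rcases h with h | h | h <;> subst h
      · exact ⟨1, by rw [act_one, MonoidHom.comp_id]⟩
      · exact ⟨g, by rw [hg]⟩
      · exact ⟨g * g, by rw [act_mul, hg]⟩
  rw [hset, finsum_mem_coe_finset, Finset.sum_insert (by simp [Ne.symm hne, Ne.symm hne2]),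
    Finset.sum_pair hne3]
  simp only [MonoidHom.comp_apply]
  ring

end

/-- The kernel of a character containing an element outside all proper normal subgroups. -/
theorem eq_one_of_apply_eq {t : G} (hK : ∀ K : Subgroup G, K.Normal → t ∈ K → K = ⊤)
    (χ : IrrCharacter G) (h : (χ : G → ℂ) t = (χ : G → ℂ) 1) :
    (χ : G → ℂ) = fun _ => 1 := by
  classical
  haveI : Fintype G := Fintype.ofFinite G
  have hc := Chars.irr_isCharacter χ
  have htop := hK _ (Chars.charKer_normal hc) ((Chars.mem_charKer hc).2 h)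
  have hall : ∀ g, (χ : G → ℂ) g = (χ : G → ℂ) 1 := fun g =>
    (Chars.mem_charKer hc).1 (htop ▸ Subgroup.mem_top g)
  have h0 := Chars.classInner_irrCharacter χ (Blocks.oneChar G)
  by_cases hone : χ = Blocks.oneChar G
  · rw [hone]; funext g; simp [Blocks.coe_oneChar]
  · rw [if_neg hone, Chars.classInner_def] at h0
    simp [hall, Blocks.coe_oneChar, Chars.irr_apply_one_ne_zero χ.2] at h0

end Cfsg.Agent.LeadWork.Coherent
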