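import Cfsg.Agent.Blocks.Covering
import Cfsg.Agent.Blocks.NormSum
import Cfsg.Agent.Chars2.OddIndexPrincipal
import Cfsg.Agent.Coprime.Action

/-!
Every principal-block character of a normal subgroup lies under the principal block.
-/

set_option autoImplicit false
set_option linter.style.haveILetI false
set_option linter.unusedSectionVars false
set_option linter.unusedVariables false

namespace Cfsg.Agent.LeadWork.Cover

open Cfsg Cfsg.Agent Cfsg.Agent.Blocks
open scoped ComplexConjugate

universe u

variable {G : Type u} [Group G] [Fintype G] {p : ℕ} [hp : Fact p.Prime] {M : Ideal AlgInt} [M.IsMaximal]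

/-- The subgroup `S C(S)`. -/
abbrev sylCent (S : Sylow p G) : Subgroup G :=
  (S : Subgroup G) ⊔ Subgroup.centralizer ((S : Subgroup G) : Set G)

/-- `S C(S)` has a normal `p'`-subgroup inside `C(S)` of `p`-power index. -/
theorem exists_regular_part (S : Sylow p G) :
    ∃ O : Subgroup ↥(sylCent S),
      O.Normal ∧ ¬ p ∣ Nat.card O ∧ (∃ k : ℕ, O.index = p ^ k) ∧
      ∀ x ∈ O, (x : G) ∈ Subgroup.centralizer ((S : Subgroup G) : Set G) := by
  classical
  set C := Subgroup.centralizer ((S : Subgroup G) : Set G) with hC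
  set H : Subgroup G := (S : Subgroup G) ⊔ C with hH
  set S' : Subgroup H := (S : Subgroup G).subgroupOf H with hS'
  have hHN : H ≤ Subgroup.normalizer ((S : Subgroup G) : Set G) :=
    sup_le Subgroup.le_normalizer (Subgroup.centralizer_le_normalizer _)
  haveI : S'.Normal := Subgroup.normal_subgroupOf_of_le_normalizer hHN
  have hS'p : IsPGroup p S' := S.isPGroup'.comap_of_injective H.subtype H.subtype_injective
  obtain ⟨k, hk⟩ := IsPGroup.iff_card.1 hS'p
  have hidx : ¬ p ∣ S'.index := by
    intro h
    exact S.not_dvd_index (h.trans (Subgroup.relIndex_dvd_index_of_le (le_sup_left : (S : Subgroup G) ≤ H)))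
  have hcop : Nat.Coprime (Nat.card S') S'.index := by
    rw [hk]; exact (hp.out.coprime_iff_not_dvd.2 hidx).pow_left k
  obtain ⟨K, hK⟩ := Subgroup.exists_right_complement'_of_coprime hcop
  have hKc : Nat.card K = S'.index := by
    have h1 := hK.card_mul
    rw [← S'.card_mul_index] at h1
    exact Nat.eq_of_mul_eq_mul_left Nat.card_pos h1
  have hKC : ∀ x ∈ K, (x : G) ∈ C := by
    intro x hx
    have hxm : (x : G) ∈ (S : Subgroup G) ⊔ C := x.2
    rw [← SetLike.mem_coe, Subgroup.coe_mul_of_right_le_normalizer_left _ _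
      (Subgroup.centralizer_le_normalizer _)] at hxm
    obtain ⟨s, hs, c, hc, hsc⟩ := Set.mem_mul.mp hxm
    have hcomm : Commute s c := (Subgroup.mem_centralizer_iff.1 hc) s hs
    have h1 : (x : G) ^ Nat.card (S : Subgroup G) ∈ C := by
      rw [← hsc, hcomm.mul_pow,
        show s ^ Nat.card (S : Subgroup G) = 1 from
          congrArg Subtype.val (pow_card_eq_one' (G := (S : Subgroup G)) (x := ⟨s, hs⟩)), one_mul]
      exact C.pow_mem hc _
    have h2 : (x : G) ^ Nat.card K = 1 :=
      congrArg Subtype.val (congrArg Subtype.val (pow_card_eq_one' (G := K) (x := ⟨x, hx⟩)))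
    have h3 : Nat.Coprime (Nat.card (S : Subgroup G)) (Nat.card K) := by
      rw [hKc, ← Nat.card_congr (Subgroup.subgroupOfEquivOfLe (le_sup_left : (S : Subgroup G) ≤ H)).toEquiv]
      exact hcop
    have h4 := Nat.gcd_eq_gcd_ab (Nat.card (S : Subgroup G)) (Nat.card K)
    rw [h3.gcd_eq_one] at h4
    have h5 : (x : G) = ((x : G) ^ Nat.card (S : Subgroup G)) ^
        (Nat.gcdA (Nat.card (S : Subgroup G)) (Nat.card K)) := by
      conv_lhs => rw [← zpow_one (x : G), show (1 : ℤ) = _ from h4, zpow_add, zpow_mul, zpow_mul,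
        zpow_natCast, zpow_natCast, h2, one_zpow, mul_one]
    rw [h5]
    exact C.zpow_mem h1 _
  refine ⟨K, ?_, by rw [hKc]; exact hidx, ⟨k, ?_⟩, hKC⟩
  · rw [← Subgroup.normalizer_eq_top_iff, eq_top_iff, ← hK.sup_eq_top]
    refine sup_le ?_ Subgroup.le_normalizer
    refine le_trans ?_ (Subgroup.centralizer_le_normalizer _)
    intro s hs
    rw [Subgroup.mem_centralizer_iff]
    intro x hx
    exact Subtype.ext (((Subgroup.mem_centralizer_iff.1 (hKC x hx)) (s : G)
      (Subgroup.mem_subgroupOf.1 hs)).symm)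
  · have h1 := K.card_mul_index
    rw [← S'.card_mul_index, hKc, mul_comm (Nat.card S')] at h1
    rw [← hk]
    exact Nat.eq_of_mul_eq_mul_left (Nat.pos_of_ne_zero Subgroup.index_ne_zero_of_finite) h1

/-- The principal idempotent is congruent to a constant on the regular part of `S C(S)`. -/
theorem blockCoeff_congr_const (hpM : (p : AlgInt) ∈ M) (S : Sylow p G)
    {O : Subgroup ↥(sylCent S)} [O.Normal]
    (hO : ¬ p ∣ Nat.card O) {k : ℕ} (hk : O.index = p ^ k)
    (hOC : ∀ x ∈ O, (x : G) ∈ Subgroup.centralizer ((S : Subgroup G) : Set G)) (x : O) :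
    MemLocalIdeal M (blockCoeff (principalBlock M G) ((x : ↥(sylCent S)) : G) - (Nat.card O : ℂ)⁻¹) := by
  classical
  let H : Subgroup G := sylCent S
  haveI : Fintype H := Fintype.ofFinite _
  haveI : Fintype O := Fintype.ofFinite _
  have hPH : (S : Subgroup G) ≤ H := le_sup_left
  have hCH : Subgroup.centralizer ((S : Subgroup G) : Set G) ≤ H := le_sup_right
  have hHN : H ≤ Subgroup.normalizer ((S : Subgroup G) : Set G) :=
    sup_le Subgroup.le_normalizer (Subgroup.centralizer_le_normalizer _)
  set e := blockCoeff (principalBlock M G) with he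
  have heC : IsClassFunction G e := isClassFunction_blockCoeff _
  have heR : RFun M e := rFun_blockCoeff hpM isPBlock_principal
  set f := brRes H (S : Subgroup G) e with hf
  have hfC : IsClassFunction H f := isClassFunction_brRes H hHN heC
  have hf0 : ∀ y : H, y ∉ O → f y = 0 := by
    intro y hy
    by_cases hyC : (y : G) ∈ Subgroup.centralizer ((S : Subgroup G) : Set G)
    · rw [hf, brRes_of_mem H _ _ hyC]
      refine blockCoeff_eq_zero_of_dvd hpM isPBlock_principal ?_
      by_contra h
      exact hy (BlockChar.mem_of_isPRegular_of_index hk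
        (show ¬ p ∣ orderOf y by rwa [← Subgroup.orderOf_coe]))
    · rw [hf, brRes_of_not_mem H _ _ hyC]
  -- the values of the central characters
  have hval : ∀ ξ : IrrCharacter H, MemLocalIdeal M (omega (ξ : H → ℂ) f -
      if ξ ∈ principalBlock M H then 1 else 0) := by
    intro ξ
    obtain ⟨χ, hχ⟩ := exists_omega_br H hpM S.isPGroup' hCH hHN ξ
    have hind : IsInducedBlock M H (blockOf M (ξ : H → ℂ)) (blockOf M (χ : G → ℂ)) :=
      isInducedBlock_of_omega H (isPBlock_blockOf ξ) (isPBlock_blockOf χ) (mem_blockOf_self ξ)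
        (mem_blockOf_self χ) fun g => by
          have := memI_add (omega_res_sub_br H hpM S.isPGroup' hPH hHN ξ (isClassFunction_clsFun g)
            (rFun_clsFun g)) (hχ _ (isClassFunction_clsFun g) (rFun_clsFun g))
          simpa using this
    have hdef := inducedBlockDefined_of_brauer H hpM S.isPGroup' hPH hCH hHN (isPBlock_blockOf ξ)
    have hiff : χ ∈ principalBlock M G ↔ ξ ∈ principalBlock M H := by
      constructor
      · intro hc
        have e1 : blockOf M (χ : G → ℂ) = principalBlock M G := (block_eq_of_mem isPBlock_principal hc).symm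
        rw [e1] at hind
        have e2 := (third_main H hpM hdef).1 hind
        rw [← e2]
        exact mem_blockOf_self ξ
      · intro hc
        have e1 : blockOf M (ξ : H → ℂ) = principalBlock M H := (block_eq_of_mem isPBlock_principal hc).symm
        have h2 := (third_main H hpM hdef).2 e1
        rw [← isInducedBlock_unique H hpM hind h2]
        exact mem_blockOf_self χ
    have h3 := hχ e heC heR
    have h4 : omega (χ : G → ℂ) e = if ξ ∈ principalBlock M H then 1 else 0 := by
      by_cases hc : χ ∈ principalBlock M G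
      · rw [omega_blockCoeff_mem hc, if_pos (hiff.1 hc)]
      · rw [omega_blockCoeff_not_mem hc, if_neg fun h => hc (hiff.2 h)]
    rwa [h4] at h3
  -- on the regular part
  have hωO : ∀ θ : IrrCharacter O, MemLocalIdeal M (omega (θ : O → ℂ) (fun y : O => f y) -
      if θ = oneChar O then 1 else 0) := by
    intro θ
    obtain ⟨ξ, hξ⟩ := exists_over θ
    have h1 := hval ξ
    rw [Chars2.omega_supported O ξ θ hξ hfC hf0] at h1
    have hiff : ξ ∈ principalBlock M H ↔ θ = oneChar O := by
      constructor
      · intro hc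
        exact (constituent_one_iff ξ).1
          (fun n => BlockChar.apply_eq_one_of_mem_principal hpM hc hO n.2) θ hξ
      · rintro rfl
        refine mem_of_sameBlock isPBlock_principal one_mem_principal
          (sameBlock_of_common hpM hk (constituent_one (N := O) fun n => by simp [coe_oneChar]) hξ)
    rwa [if_congr hiff rfl rfl] at h1
  -- Fourier inversion
  set g : O → ℂ := fun y => f y - (Nat.card O : ℂ)⁻¹ with hg
  have hgC : IsClassFunction O g := fun a b => by
    simp only [hg]
    rw [Subgroup.coe_mul, Subgroup.coe_mul, Subgroup.coe_inv, hfC (a : H) (b : H)]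
  have hωg : ∀ θ : IrrCharacter O, MemLocalIdeal M (omega (θ : O → ℂ) g) := by
    intro θ
    have : omega (θ : O → ℂ) g =
        omega (θ : O → ℂ) (fun y : O => f y) - if θ = oneChar O then 1 else 0 := by
      rw [show g = (fun y : O => f y) - (fun _ : O => (Nat.card O : ℂ)⁻¹) from rfl, omega_sub]
      congr 1
      rw [omega, ← Finset.mul_sum]
      split_ifs with h
      · subst h
        simp [coe_oneChar, Nat.card_eq_fintype_card]
      · have h0 := Chars.classInner_irr_of_ne θ.2 (oneChar O).2 fun e => h (Subtype.ext e)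
        rw [Chars.classInner_def] at h0
        simp only [coe_oneChar, map_one, mul_one] at h0
        rw [h0, zero_div]
    rw [this]
    exact hωO θ
  have hgx : MemLocalIdeal M (g x) := by
    rw [congrFun (Chars.eq_sum_classInner hgC) x, Finset.sum_apply]
    refine memI_sum _ _ fun θ _ => ?_
    rw [Pi.smul_apply, smul_eq_mul]
    refine memI_mul_right ?_ (irr_memR θ x)
    let θ' : IrrCharacter O := ⟨_, Chars.isIrrCharacter_star θ.2⟩
    obtain ⟨d, hd⟩ := Chars.exists_apply_one_eq (Chars.irr_isCharacter θ)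
    have e1 : classInner g (θ : O → ℂ) = ((Nat.card O : ℂ)⁻¹ * (d : ℂ)) * omega (θ' : O → ℂ) g := by
      rw [Chars.classInner_def, omega]
      show _ = _ * ((∑ y, g y * conj ((θ : O → ℂ) y)) / conj ((θ : O → ℂ) 1))
      rw [hd, Complex.conj_natCast]
      have hd0 : (d : ℂ) ≠ 0 := hd ▸ Chars.irr_apply_one_ne_zero θ.2
      field_simp
    rw [e1]
    exact memI_mul_left (memR_mul (memR_inv_natCast hpM hO) (memR_natCast d)) (hωg θ')
  simpa only [hg, hf, brRes_of_mem H _ _ (hOC _ x.2)] using hgx

/-- The principal idempotent sums to a unit over every normal subgroup. -/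
theorem sum_blockCoeff_not_memI (hpM : (p : AlgInt) ∈ M) (N : Subgroup G) [N.Normal] [Fintype N] :
    ¬ MemLocalIdeal M (∑ n : N, blockCoeff (principalBlock M G) (n : G)) := by
  classical
  let S : Sylow p G := default
  obtain ⟨O, hOn, hO, ⟨k, hk⟩, hOC⟩ := exists_regular_part S
  haveI := hOn
  set e := blockCoeff (principalBlock M G) with he
  have heR : RFun M e := rFun_blockCoeff hpM isPBlock_principal
  let H : Subgroup G := sylCent S
  haveI : Fintype O := Fintype.ofFinite _
  set F : G → ℂ := fun x => if x ∈ N then e x else 0 with hF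
  have hFR : RFun M F := fun x => by
    simp only [hF]; split_ifs
    · exact heR x
    · exact memR_zero
  have hFS : ∀ (q : (S : Subgroup G)) (x : G), F ((q : G) * x * (q : G)⁻¹) = F x := fun q x => by
    have hmem : (q : G) * x * (q : G)⁻¹ ∈ N ↔ x ∈ N :=
      ⟨fun h => by simpa [mul_assoc] using ‹N.Normal›.conj_mem _ h (q : G)⁻¹,
       fun h => ‹N.Normal›.conj_mem _ h _⟩
    simp only [hF, hmem, isClassFunction_blockCoeff (principalBlock M G) x (q : G), he]
  have h1 : MemLocalIdeal M (∑ x, F x -
      ∑ x ∈ Finset.univ.filter (· ∈ Subgroup.centralizer ((S : Subgroup G) : Set G)), F x) := by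
    let F' : G → loc M := fun x => ⟨F x, hFR x⟩
    have e1 : ∀ T : Finset G, ((∑ x ∈ T, F' x : loc M) : ℂ) = ∑ x ∈ T, F x := fun T =>
      map_sum (loc M).subtype F' T
    rw [← e1, ← e1, ← residue_eq_iff, map_sum, map_sum]
    refine sum_eq_sum_centralizer _ S.isPGroup' (res_nsmul_eq_zero hpM)
      (fun x => residue M (F' x)) fun q x => congrArg (residue M) (Subtype.ext (hFS q x))
  set C := Subgroup.centralizer ((S : Subgroup G) : Set G) with hC
  set T : Finset O := Finset.univ.filter fun y => ((y : H) : G) ∈ N with hT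
  have h2 : ∑ x ∈ Finset.univ.filter (· ∈ C), F x = ∑ y ∈ T, e ((y : H) : G) := by
    symm
    refine Finset.sum_bij_ne_zero (fun (y : O) _ _ => ((y : H) : G)) ?_ ?_ ?_ ?_
    · intro y _ _; exact Finset.mem_filter.2 ⟨Finset.mem_univ _, hOC _ y.2⟩
    · intro a _ _ b _ _ h; exact Subtype.ext (Subtype.ext h)
    · intro x hx hne
      have hxC : x ∈ C := (Finset.mem_filter.1 hx).2
      have hxN : x ∈ N := by by_contra h; exact hne (by simp [hF, h])
      have hxH : x ∈ H := Subgroup.mem_sup_right hxC
      have hreg : ¬ p ∣ orderOf x := fun h => hne (by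
        simp only [hF, if_pos hxN, he]; exact blockCoeff_eq_zero_of_dvd hpM isPBlock_principal h)
      have hxO : (⟨x, hxH⟩ : H) ∈ O := BlockChar.mem_of_isPRegular_of_index hk
        (show ¬ p ∣ orderOf (⟨x, hxH⟩ : H) by rwa [← Subgroup.orderOf_coe])
      refine ⟨⟨_, hxO⟩, Finset.mem_filter.2 ⟨Finset.mem_univ _, hxN⟩, ?_, rfl⟩
      simpa [hF, hxN] using hne
    · intro y hy _
      rw [hF]; exact (if_pos (Finset.mem_filter.1 hy).2).symm
  have h3 : MemLocalIdeal M (∑ y ∈ T, e ((y : H) : G) - (T.card : ℂ) * (Nat.card O : ℂ)⁻¹) := by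
    rw [← nsmul_eq_mul, ← Finset.sum_const, ← Finset.sum_sub_distrib]
    exact memI_sum _ _ fun y _ => blockCoeff_congr_const hpM S hO hk hOC y
  have hTc : ¬ p ∣ T.card := by
    have : T.card = Nat.card ((N.comap H.subtype).subgroupOf O) := by
      rw [Nat.card_eq_fintype_card, Fintype.card_subtype]
      exact congrArg Finset.card (Finset.ext fun y => by simp [hT, Subgroup.mem_subgroupOf])
    rw [this]
    exact fun h => hO (h.trans (Subgroup.card_subgroup_dvd_card _))
  intro hmem
  have h4 : ∑ x, F x = ∑ n : N, e (n : G) := by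
    rw [hF, ← Finset.sum_filter]
    exact Finset.sum_subtype _ (by simp) _
  rw [h4, h2] at h1
  have h5 : MemLocalIdeal M ((T.card : ℂ) * (Nat.card O : ℂ)⁻¹) :=
    (memI_iff_of_sub h3).1 ((memI_iff_of_sub h1).1 hmem)
  have hO0 : (Nat.card O : ℂ) ≠ 0 := Nat.cast_ne_zero.2 Nat.card_pos.ne'
  refine hTc ((memI_natCast_iff hpM _).1 ?_)
  have := memI_mul_right h5 (memR_natCast (Nat.card O))
  rwa [mul_assoc, inv_mul_cancel₀ hO0, mul_one] at this

/-- A principal character of a normal subgroup lies under a principal character. -/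
theorem exists_over_principal (hpM : (p : AlgInt) ∈ M) (N : Subgroup G) [N.Normal] [Fintype N]
    {θ : IrrCharacter N} (hθ : θ ∈ principalBlock M N) :
    ∃ χ ∈ principalBlock M G, classInner (fun n : N => (χ : G → ℂ) n) (θ : N → ℂ) ≠ 0 := by
  classical
  by_contra hcon
  push Not at hcon
  apply sum_blockCoeff_not_memI hpM N
  set e := blockCoeff (principalBlock M G) with he
  have hzero : omega (θ : N → ℂ) (fun n : N => e (n : G)) = 0 := by
    rw [omega, div_eq_zero_iff]
    left
    simp only [he, blockCoeff, finsum_mem_eq_filter, Finset.mul_sum, Finset.sum_mul]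
    rw [Finset.sum_comm]
    refine Finset.sum_eq_zero fun χ hχ => ?_
    have h0 := congrArg conj (hcon χ (Finset.mem_filter.1 hχ).2)
    rw [Chars.classInner_conj_symm, map_zero, Chars.classInner_def, mul_eq_zero, inv_eq_zero,
      or_iff_right Chars.card_ne_zero] at h0
    calc ∑ x : N, (Nat.card G : ℂ)⁻¹ * ((χ : G → ℂ) 1 * conj ((χ : G → ℂ) x)) * (θ : N → ℂ) x
        = (Nat.card G : ℂ)⁻¹ * (χ : G → ℂ) 1 * ∑ x : N, (θ : N → ℂ) x * conj ((χ : G → ℂ) x) := by
          rw [Finset.mul_sum]; exact Finset.sum_congr rfl fun x _ => by ring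
      _ = 0 := by rw [h0, mul_zero]
  have h1 := omega_congr (χ := oneChar N) hθ (f := fun n : N => e (n : G))
    (isClassFunction_resFun N (isClassFunction_blockCoeff _))
    (rFun_resFun N (rFun_blockCoeff hpM isPBlock_principal))
  rw [hzero, sub_zero] at h1
  simpa [omega, coe_oneChar] using h1

/-- The sums of squares of degrees of the principal blocks. -/
theorem sum_sq_bounds (hpM : (p : AlgInt) ∈ M) (N : Subgroup G) [N.Normal] [Fintype N]
    [DecidablePred (· ∈ principalBlock M G)] [DecidablePred (· ∈ principalBlock M N)] :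
    (∑ θ ∈ Finset.univ.filter (· ∈ principalBlock M N), charDegree (θ : N → ℂ) ^ 2 ≤
      ∑ χ ∈ Finset.univ.filter (· ∈ principalBlock M G), charDegree (χ : G → ℂ) ^ 2) ∧
    ∑ χ ∈ Finset.univ.filter (· ∈ principalBlock M G), charDegree (χ : G → ℂ) ^ 2 ≤
      N.index * ∑ θ ∈ Finset.univ.filter (· ∈ principalBlock M N), charDegree (θ : N → ℂ) ^ 2 := by
  classical
  choose c hc using fun (χ : IrrCharacter G) (θ : IrrCharacter N) =>
    Chars.exists_classInner_eq_nat (Chars.isCharacter_restrict (Chars.irr_isCharacter χ) N)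
      (Chars.irr_isCharacter θ)
  set BG := Finset.univ.filter (· ∈ principalBlock M G) with hBG
  set BN := Finset.univ.filter (· ∈ principalBlock M N) with hBN
  have hdeg : ∀ χ : IrrCharacter G, χ ∈ BG →
      charDegree (χ : G → ℂ) = ∑ θ ∈ BN, c χ θ * charDegree (θ : N → ℂ) := by
    intro χ hχ
    have h1 := Chars2.apply_eq_sum (Chars.isClassFunction_of_isCharacter
      (Chars.isCharacter_restrict (Chars.irr_isCharacter χ) N)) 1
    simp only [hc, OneMemClass.coe_one, (Blocks.charDegree_eq χ.2).1] at h1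
    rw [Finset.sum_congr rfl fun θ _ => by rw [(Blocks.charDegree_eq θ.2).1]] at h1
    have h2 : charDegree (χ : G → ℂ) = ∑ θ : IrrCharacter N, c χ θ * charDegree (θ : N → ℂ) := by
      exact_mod_cast h1
    rw [h2]
    refine (Finset.sum_subset (Finset.subset_univ _) fun θ _ hθ => ?_).symm
    rw [show c χ θ = 0 from ?_, zero_mul]
    by_contra h0
    refine hθ (Finset.mem_filter.2 ⟨Finset.mem_univ _,
      Chars2.principal_constituent hpM N χ θ ?_ (Finset.mem_filter.1 hχ).2⟩)
    rw [hc]; exact_mod_cast h0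
  have hind : ∀ θ : IrrCharacter N, ∑ χ : IrrCharacter G, c χ θ * charDegree (χ : G → ℂ) =
      N.index * charDegree (θ : N → ℂ) := by
    intro θ
    have h1 := congrFun (Chars.eq_sum_classInner (Chars.isClassFunction_indFun N (θ : N → ℂ))) 1
    rw [Chars.indFun_apply_one, Finset.sum_apply] at h1
    have h2 : ∀ χ : IrrCharacter G, classInner (indFun N (θ : N → ℂ)) (χ : G → ℂ) = c χ θ := fun χ => by
      rw [Chars.classInner_indFun _ _ (Chars.isClassFunction_irr χ), ← Chars.classInner_conj_symm, hc,
        Complex.conj_natCast]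
    simp only [Pi.smul_apply, smul_eq_mul, h2, (Blocks.charDegree_eq θ.2).1] at h1
    rw [Finset.sum_congr rfl fun χ _ => by rw [(Blocks.charDegree_eq χ.2).1]] at h1
    exact_mod_cast h1.symm
  refine ⟨?_, ?_⟩
  · calc ∑ θ ∈ BN, charDegree (θ : N → ℂ) ^ 2
        ≤ ∑ θ ∈ BN, ∑ χ ∈ BG, (c χ θ * charDegree (θ : N → ℂ)) ^ 2 := by
          refine Finset.sum_le_sum fun θ hθ => ?_
          obtain ⟨χ, hχ, hne⟩ := exists_over_principal hpM N (Finset.mem_filter.1 hθ).2
          have h0 : c χ θ ≠ 0 := by intro h; apply hne; rw [hc, h, Nat.cast_zero]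
          refine le_trans (Nat.pow_le_pow_left (Nat.le_mul_of_pos_left _ (Nat.pos_of_ne_zero h0)) 2) ?_
          exact Finset.single_le_sum (f := fun χ => (c χ θ * charDegree (θ : N → ℂ)) ^ 2)
            (fun _ _ => Nat.zero_le _) (Finset.mem_filter.2 ⟨Finset.mem_univ _, hχ⟩)
      _ = ∑ χ ∈ BG, ∑ θ ∈ BN, (c χ θ * charDegree (θ : N → ℂ)) ^ 2 := Finset.sum_comm
      _ ≤ _ := Finset.sum_le_sum fun χ hχ => by
          rw [hdeg χ hχ]
          exact Finset.sum_sq_le_sq_sum_of_nonneg fun _ _ => Nat.zero_le _
  · calc ∑ χ ∈ BG, charDegree (χ : G → ℂ) ^ 2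
        = ∑ χ ∈ BG, ∑ θ ∈ BN, c χ θ * charDegree (θ : N → ℂ) * charDegree (χ : G → ℂ) := by
          refine Finset.sum_congr rfl fun χ hχ => ?_
          rw [← Finset.sum_mul, ← hdeg χ hχ, sq]
      _ = ∑ θ ∈ BN, charDegree (θ : N → ℂ) * ∑ χ ∈ BG, c χ θ * charDegree (χ : G → ℂ) := by
          rw [Finset.sum_comm]
          refine Finset.sum_congr rfl fun θ _ => ?_
          rw [Finset.mul_sum]
          exact Finset.sum_congr rfl fun χ _ => by ring
      _ ≤ ∑ θ ∈ BN, charDegree (θ : N → ℂ) * (N.index * charDegree (θ : N → ℂ)) := by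
          refine Finset.sum_le_sum fun θ _ => Nat.mul_le_mul_left _ ?_
          rw [← hind θ]
          exact Finset.sum_le_sum_of_subset (Finset.subset_univ _)
      _ = _ := by
          rw [Finset.mul_sum]
          exact Finset.sum_congr rfl fun θ _ => by ring

end Cfsg.Agent.LeadWork.Cover
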