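/-
The centre of a Hecke algebra given by its matrices in the natural basis has the dimension of the centre of
the group algebra: the dimension is a rational function of the parameter with natural values.
-/
import Mathlib.LinearAlgebra.Trace
import Mathlib.LinearAlgebra.Matrix.Adjugate
import Mathlib.LinearAlgebra.Matrix.NonsingularInverse
import Mathlib.LinearAlgebra.Matrix.ToLin
import Mathlib.Analysis.Complex.Basic
import Mathlib.Algebra.Polynomial.Roots
import Mathlib.Algebra.Group.Conj

set_option autoImplicit false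

namespace Cfsg.Agent.LeadWork.Hecke

open Matrix

/-- A finite group with involutory generators, a length and a choice of shortest words. -/
structure Words (W ι : Type*) [Group W] where
  s : ι → W
  s_sq : ∀ i, s i * s i = 1
  len : W → ℕ
  len_one : len 1 = 0
  len_le : ∀ i w, len (s i * w) ≤ len w + 1
  word : W → List ι
  word_prod : ∀ w, ((word w).map s).prod = w
  word_length : ∀ w, (word w).length = len w

variable {W ι : Type*} [Group W] [Fintype W] [DecidableEq W] (S : Words W ι)

section generic

variable {R : Type*} [CommRing R]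

/-- The matrix of a generator at parameter `x`. -/
def L (x : R) (i : ι) : Matrix W W R :=
  Matrix.of fun u w => if S.len w < S.len (S.s i * w) then (if u = S.s i * w then 1 else 0)
    else (x - 1) * (if u = w then 1 else 0) + x * (if u = S.s i * w then 1 else 0)

/-- The matrix of a basis element at parameter `x`. -/
def M (x : R) (v : W) : Matrix W W R := ((S.word v).map (L S x)).prod

/-- The linear combination of the basis matrices. -/
def Φ (x : R) (a : W → R) : Matrix W W R := ∑ u, a u • M S x u

/-- The Gram matrix of the trace form. -/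
def gram (x : R) : Matrix W W R := Matrix.of fun v w => (M S x v * M S x w).trace

/-- The numerator of the rank of the centre. -/
def num (x : R) : R := ∑ u, ∑ v, ∑ w, (gram S x).adjugate v w * (M S x v * M S x u) u w

theorem map_L {R' : Type*} [CommRing R'] (f : R →+* R') (x : R) (i : ι) :
    (L S x i).map f = L S (f x) i := by
  ext u w
  simp only [L, Matrix.map_apply, Matrix.of_apply]
  split_ifs <;> simp

theorem map_M {R' : Type*} [CommRing R'] (f : R →+* R') (x : R) (v : W) :
    f.mapMatrix (M S x v) = M S (f x) v := by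
  rw [M, map_list_prod, List.map_map, M]
  congr 1
  exact List.map_congr_left fun i _ => map_L S f x i

theorem map_gram {R' : Type*} [CommRing R'] (f : R →+* R') (x : R) :
    f.mapMatrix (gram S x) = gram S (f x) := by
  ext v w
  simp only [gram, RingHom.mapMatrix_apply, Matrix.map_apply, Matrix.of_apply]
  rw [AddMonoidHom.map_trace f, ← RingHom.mapMatrix_apply, map_mul, map_M, map_M]

theorem map_num {R' : Type*} [CommRing R'] (f : R →+* R') (x : R) : f (num S x) = num S (f x) := by
  have h := f.map_adjugate (gram S x)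
  rw [map_gram] at h
  simp only [num, map_sum, map_mul, ← h, RingHom.mapMatrix_apply, Matrix.map_apply]
  refine Finset.sum_congr rfl fun u _ => Finset.sum_congr rfl fun v _ => Finset.sum_congr rfl fun w _ => ?_
  congr 1
  rw [← Matrix.map_apply (f := f), ← RingHom.mapMatrix_apply, map_mul, map_M, map_M]

theorem M_one (x : R) : M S x 1 = 1 := by
  have h : S.word 1 = [] := List.length_eq_zero_iff.mp ((S.word_length 1).trans S.len_one)
  rw [M, h]; rfl

theorem len_prod_le (l : List ι) : S.len (l.map S.s).prod ≤ l.length := by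
  induction l with
  | nil => simp [S.len_one]
  | cons i l ih =>
    rw [List.map_cons, List.prod_cons, List.length_cons]
    have := S.len_le i (l.map S.s).prod
    omega

theorem prod_col_one (x : R) (l : List ι) (hl : S.len (l.map S.s).prod = l.length) :
    (l.map (L S x)).prod *ᵥ Pi.single 1 1 = Pi.single (l.map S.s).prod 1 := by
  induction l with
  | nil => funext u; simp [Matrix.one_apply, Pi.single_apply]
  | cons i l ih =>
    simp only [List.map_cons, List.prod_cons, List.length_cons] at hl ⊢
    have h1 := len_prod_le S l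
    have h2 := S.len_le i (l.map S.s).prod
    rw [← Matrix.mulVec_mulVec, ih (by omega), Matrix.mulVec_single_one]
    funext u
    rw [Matrix.col_apply, L, Matrix.of_apply, if_pos (by omega), Pi.single_apply]

theorem M_col_one (x : R) (v u : W) : M S x v u 1 = if u = v then 1 else 0 := by
  have h := congrFun (prod_col_one S x (S.word v) (by rw [S.word_prod, S.word_length])) u
  rw [S.word_prod, Matrix.mulVec_single_one, Matrix.col_apply, Pi.single_apply] at h
  exact h

theorem Φ_col_one (x : R) (a : W → R) (u : W) : Φ S x a u 1 = a u := by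
  simp [Φ, Matrix.sum_apply, M_col_one]

end generic

/-- The span of the basis matrices is closed under multiplication. -/
def Closed (x : ℂ) : Prop := ∀ v w, M S x v * M S x w = Φ S x (fun u => M S x v u w)

/-- The centre. -/
noncomputable def Z (x : ℂ) : Submodule ℂ (W → ℂ) where
  carrier := {a | ∀ v, Φ S x a * M S x v = M S x v * Φ S x a}
  zero_mem' := by intro v; simp [Φ]
  add_mem' := by
    intro a b ha hb v
    have e : Φ S x (a + b) = Φ S x a + Φ S x b := by simp [Φ, add_smul, Finset.sum_add_distrib]
    rw [e, add_mul, mul_add, ha, hb]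
  smul_mem' := by
    intro c a ha v
    have e : Φ S x (c • a) = c • Φ S x a := by simp [Φ, Finset.smul_sum, smul_smul]
    rw [e, smul_mul_assoc, mul_smul_comm, ha]

section closed

variable {S} {x : ℂ} (hx : Closed S x)
include hx

theorem Φ_mul (a : W → ℂ) (v : W) : Φ S x a * M S x v = Φ S x (fun u => Φ S x a u v) := by
  simp only [Φ, Finset.sum_mul, smul_mul_assoc, hx _ v]
  simp only [Φ, Finset.smul_sum, smul_smul, Matrix.sum_apply, Matrix.smul_apply, smul_eq_mul, Finset.sum_smul]
  exact Finset.sum_comm

theorem M_mul_Φ (v : W) (a : W → ℂ) : M S x v * Φ S x a = Φ S x (M S x v *ᵥ a) := by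
  simp only [Φ, Finset.mul_sum, mul_smul_comm, hx v]
  simp only [Φ, Finset.smul_sum, smul_smul, Matrix.mulVec, dotProduct, Finset.sum_smul]
  rw [Finset.sum_comm]
  exact Finset.sum_congr rfl fun u _ => Finset.sum_congr rfl fun y _ => by rw [mul_comm]

theorem Φ_mul_Φ (a c : W → ℂ) : Φ S x a * Φ S x c = Φ S x (Φ S x a *ᵥ c) := by
  conv_lhs => enter [2]; rw [Φ]
  simp only [Finset.mul_sum, mul_smul_comm, Φ_mul hx]
  simp only [Φ, Finset.smul_sum, smul_smul, Matrix.mulVec, dotProduct, Finset.sum_smul]
  rw [Finset.sum_comm]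
  exact Finset.sum_congr rfl fun u _ => Finset.sum_congr rfl fun y _ => by rw [mul_comm]

variable (hd : (gram S x).det ≠ 0)
include hd

omit hx in
theorem gram_symm : (gram S x)ᵀ = gram S x := by
  ext v w
  exact Matrix.trace_mul_comm _ _

omit hx in
theorem sum_gram_inv (u w : W) :
    ∑ v, (M S x u * M S x v).trace * (gram S x)⁻¹ v w = if u = w then 1 else 0 := by
  have h := congrFun (congrFun (Matrix.mul_nonsing_inv _ (isUnit_iff_ne_zero.mpr hd)) u) w
  rw [Matrix.mul_apply, Matrix.one_apply] at h
  exact h

omit hx in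
theorem inv_symm (v w : W) : (gram S x)⁻¹ v w = (gram S x)⁻¹ w v := by
  have h := congrArg (fun A : Matrix W W ℂ => A w v) (Matrix.transpose_nonsing_inv (gram S x))
  simp only [Matrix.transpose_apply, gram_symm hd] at h
  exact h

/-- The dual basis. -/
noncomputable def star' (S : Words W ι) (x : ℂ) (v : W) : Matrix W W ℂ := Φ S x (fun w => (gram S x)⁻¹ v w)

omit hx in
theorem trace_star' (v u : W) : (M S x u * star' S x v).trace = if u = v then 1 else 0 := by
  rw [← sum_gram_inv hd u v]
  simp only [star', Φ, Finset.mul_sum, mul_smul_comm, Matrix.trace_sum, Matrix.trace_smul, smul_eq_mul]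
  exact Finset.sum_congr rfl fun w _ => by rw [inv_symm hd v w, mul_comm]

omit hx in
theorem expand (a : W → ℂ) : Φ S x a = ∑ v, (Φ S x a * M S x v).trace • star' S x v := by
  have e : ∀ v, (Φ S x a * M S x v).trace = ∑ u, a u * (M S x u * M S x v).trace := by
    intro v; simp [Φ, Finset.sum_mul, Matrix.trace_sum]
  simp only [e]
  simp only [star', Φ, Finset.smul_sum, smul_smul, Finset.sum_smul]
  rw [Finset.sum_comm]
  refine Finset.sum_congr rfl fun w _ => ?_
  rw [← Finset.sum_smul]
  congr 1
  simp only [Finset.sum_mul, mul_assoc]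
  rw [Finset.sum_comm]
  simp only [← Finset.mul_sum, sum_gram_inv hd]
  simp

theorem star'_mul (v h : W) : ∃ a, star' S x v * M S x h = Φ S x a := ⟨_, Φ_mul hx _ h⟩

theorem sum_mul_star' : ∑ v, M S x v * star' S x v = 1 := by
  obtain ⟨c, hc⟩ : ∃ c, Φ S x c = ∑ v, M S x v * star' S x v :=
    ⟨∑ v, M S x v *ᵥ fun w => (gram S x)⁻¹ v w, by
      simp only [star', M_mul_Φ hx]
      simp only [Φ, Finset.sum_apply, Finset.sum_smul]
      exact Finset.sum_comm⟩
  have key : ∀ y, (Φ S x c * M S x y).trace = (M S x y).trace := by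
    intro y
    rw [hc, Finset.sum_mul, Matrix.trace_sum]
    have e : ∀ v, (M S x v * star' S x v * M S x y).trace = M S x y v v := by
      intro v
      rw [Matrix.trace_mul_comm, ← mul_assoc, hx y v]
      simp [Φ, Finset.sum_mul, Matrix.trace_sum, trace_star' hd]
    simp only [e]
    rfl
  have h1 : (1 : Matrix W W ℂ) = Φ S x (Pi.single 1 1) := by
    simp [Φ, Pi.single_apply, M_one]
  rw [← hc, expand hd c, h1, expand hd (Pi.single 1 1)]
  simp only [key, ← h1, one_mul]

/-- The averaging operator commutes with the algebra. -/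
theorem sum_commute (a : W → ℂ) (h : W) :
    M S x h * ∑ v, M S x v * Φ S x a * star' S x v = (∑ v, M S x v * Φ S x a * star' S x v) * M S x h := by
  have lhs : ∀ v, M S x h * M S x v = ∑ u, (star' S x u * M S x h * M S x v).trace • M S x u := by
    intro v
    rw [hx h v, Φ]
    refine Finset.sum_congr rfl fun u _ => congrArg (· • _) ?_
    rw [mul_assoc, hx h v, Φ]
    simp only [Finset.mul_sum, mul_smul_comm, Matrix.trace_sum, Matrix.trace_smul, smul_eq_mul]
    rw [Finset.sum_eq_single u]
    · rw [Matrix.trace_mul_comm, trace_star' hd, if_pos rfl, mul_one]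
    · intro b _ hb; rw [Matrix.trace_mul_comm, trace_star' hd, if_neg hb, mul_zero]
    · simp
  have rhs : ∀ u, star' S x u * M S x h = ∑ v, (star' S x u * M S x h * M S x v).trace • star' S x v := by
    intro u
    obtain ⟨b, hb⟩ := star'_mul hx hd u h
    rw [hb]
    exact expand hd b
  calc M S x h * ∑ v, M S x v * Φ S x a * star' S x v
      = ∑ v, (M S x h * M S x v) * Φ S x a * star' S x v := by simp only [Finset.mul_sum, mul_assoc]
    _ = ∑ v, ∑ u, (star' S x u * M S x h * M S x v).trace • (M S x u * Φ S x a * star' S x v) := by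
      refine Finset.sum_congr rfl fun v _ => ?_
      rw [lhs v]
      simp only [Finset.sum_mul, smul_mul_assoc]
    _ = ∑ u, M S x u * Φ S x a * ∑ v, (star' S x u * M S x h * M S x v).trace • star' S x v := by
      rw [Finset.sum_comm]
      simp only [Finset.mul_sum, mul_smul_comm]
    _ = _ := by
      rw [Finset.sum_mul]
      exact Finset.sum_congr rfl fun u _ => by rw [← rhs u, mul_assoc _ (star' S x u)]

/-- The rank of the centre. -/
theorem finrank_Z : (Module.finrank ℂ (Z S x) : ℂ) * (gram S x).det = num S x := by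
  let Pm : Matrix W W ℂ := Matrix.of fun u y => ∑ v, ∑ w, (gram S x)⁻¹ v w * (M S x v * M S x y) u w
  let P : (W → ℂ) →ₗ[ℂ] (W → ℂ) := Matrix.toLin' Pm
  have hP : ∀ a, Φ S x (P a) = ∑ v, M S x v * Φ S x a * star' S x v := by
    intro a
    obtain ⟨b, hb⟩ : ∃ b, ∑ v, M S x v * Φ S x a * star' S x v = Φ S x b := by
      refine ⟨∑ v, Φ S x (M S x v *ᵥ a) *ᵥ fun w => (gram S x)⁻¹ v w, ?_⟩
      simp only [M_mul_Φ hx, star', Φ_mul_Φ hx]
      simp only [Φ, Finset.sum_apply, Finset.sum_smul]
      exact Finset.sum_comm
    suffices P a = b by rw [this, hb]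
    funext u
    rw [← Φ_col_one S x b u, ← hb]
    simp only [P, Matrix.toLin'_apply, Matrix.mulVec, dotProduct, Pm, Matrix.of_apply, Matrix.sum_apply]
    simp only [Finset.sum_mul]
    rw [Finset.sum_comm]
    refine Finset.sum_congr rfl fun v _ => ?_
    rw [Finset.sum_comm, Matrix.mul_apply]
    refine Finset.sum_congr rfl fun w _ => ?_
    rw [star', Φ_col_one]
    simp only [Φ, Finset.mul_sum, mul_smul_comm, Matrix.sum_apply, Matrix.smul_apply, smul_eq_mul,
      Finset.sum_mul]
    exact Finset.sum_congr rfl fun y _ => by ring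
  have hproj : LinearMap.IsProj (Z S x) P := by
    refine ⟨fun a v => ?_, fun a ha => ?_⟩
    · rw [hP]
      exact (sum_commute hx hd a v).symm
    · have e : Φ S x (P a) = Φ S x a := by
        rw [hP]
        have : ∀ v, M S x v * Φ S x a = Φ S x a * M S x v := fun v => (ha v).symm
        simp only [this, mul_assoc, ← Finset.mul_sum, sum_mul_star' hx hd, mul_one]
      funext u
      rw [← Φ_col_one S x (P a) u, e, Φ_col_one]
  rw [← hproj.trace, LinearMap.trace_eq_matrix_trace ℂ (Pi.basisFun ℂ W),
    LinearMap.toMatrix_eq_toMatrix', LinearMap.toMatrix'_toLin', num, Matrix.trace, Finset.sum_mul]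
  refine Finset.sum_congr rfl fun u _ => ?_
  simp only [Matrix.diag_apply, Pm, Matrix.of_apply, Finset.sum_mul, Matrix.inv_def, Matrix.smul_apply, smul_eq_mul,
    Ring.inverse_eq_inv']
  refine Finset.sum_congr rfl fun v _ => Finset.sum_congr rfl fun w _ => ?_
  field_simp

end closed

/-! ### The parameter one -/

theorem M_at_one (v : W) :
    M S (1 : ℂ) v = Matrix.of fun u w => if u = v * w then 1 else 0 := by
  have key : ∀ l : List ι, (l.map (L S (1 : ℂ))).prod =
      Matrix.of fun u w => if u = (l.map S.s).prod * w then 1 else 0 := by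
    intro l
    induction l with
    | nil => ext u w; simp [Matrix.one_apply]
    | cons i l ih =>
      rw [List.map_cons, List.prod_cons, ih, List.map_cons, List.prod_cons]
      ext u w
      simp only [Matrix.mul_apply, Matrix.of_apply, mul_ite, mul_one, mul_zero, Finset.sum_ite_eq',
        Finset.mem_univ, if_true, L, sub_self, zero_mul, zero_add, one_mul, ← mul_assoc]
      split_ifs <;> simp
  rw [M, key, S.word_prod]

theorem Φ_at_one (a : W → ℂ) (u w : W) : Φ S (1 : ℂ) a u w = a (u * w⁻¹) := by
  simp only [Φ, Matrix.sum_apply, Matrix.smul_apply, M_at_one, Matrix.of_apply, smul_eq_mul, mul_ite, mul_one,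
    mul_zero]
  rw [Finset.sum_eq_single (u * w⁻¹)]
  · simp
  · intro b _ hb; exact if_neg fun h => hb (by rw [h, mul_inv_cancel_right])
  · simp

theorem closed_one : Closed S (1 : ℂ) := by
  intro v w
  ext a b
  simp only [Φ_at_one, Matrix.mul_apply, M_at_one, Matrix.of_apply, mul_ite, mul_one, mul_zero, Finset.sum_ite_eq',
    Finset.mem_univ, if_true]
  refine if_congr ?_ rfl rfl
  rw [mul_inv_eq_iff_eq_mul, mul_assoc]

theorem gram_det_one : (gram S (1 : ℂ)).det ≠ 0 := by
  have e : gram S (1 : ℂ) = Matrix.of fun v w => if w = v⁻¹ then (Fintype.card W : ℂ) else 0 := by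
    ext v w
    simp only [gram, Matrix.of_apply, Matrix.trace, Matrix.diag_apply, Matrix.mul_apply, M_at_one, mul_ite,
      mul_one, mul_zero, Finset.sum_ite_eq', Finset.mem_univ, if_true]
    by_cases h : w = v⁻¹
    · subst h; simp
    · rw [if_neg h]
      refine Finset.sum_eq_zero fun u _ => if_neg fun h' => h (inv_eq_of_mul_eq_one_right ?_).symm
      rw [← mul_assoc] at h'
      exact mul_eq_right.mp h'.symm
  have e2 : gram S (1 : ℂ) * gram S 1 = ((Fintype.card W : ℂ) ^ 2) • 1 := by
    rw [e]
    ext v w
    simp only [Matrix.mul_apply, Matrix.of_apply, ite_mul, zero_mul, Finset.sum_ite_eq', Finset.mem_univ, if_true,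
      inv_inv, Matrix.smul_apply, Matrix.one_apply, smul_eq_mul, mul_ite, mul_zero, mul_one]
    rw [Finset.sum_eq_single v⁻¹]
    · simp only [if_true, inv_inv, eq_comm (a := w), pow_two]
    · intro b _ hb; simp [hb]
    · simp
  intro h
  have h2 := congrArg Matrix.det e2
  rw [Matrix.det_mul, h, mul_zero, Matrix.det_smul, Matrix.det_one, mul_one] at h2
  exact pow_ne_zero _ (pow_ne_zero _ (Nat.cast_ne_zero.mpr Fintype.card_ne_zero)) h2.symm

theorem finrank_Z_one : Module.finrank ℂ (Z S (1 : ℂ)) = Nat.card (ConjClasses W) := by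
  classical
  have hmem : ∀ a : W → ℂ, a ∈ Z S (1 : ℂ) ↔ ∀ g h : W, a (h * g * h⁻¹) = a g := by
    intro a
    have e1 : ∀ v u w, (Φ S (1 : ℂ) a * M S (1 : ℂ) v) u w = a (u * (v * w)⁻¹) := by
      intro v u w
      simp [Matrix.mul_apply, M_at_one, Φ_at_one]
    have e2 : ∀ v u w, (M S (1 : ℂ) v * Φ S (1 : ℂ) a) u w = a (v⁻¹ * u * w⁻¹) := by
      intro v u w
      simp only [Matrix.mul_apply, M_at_one, Φ_at_one, Matrix.of_apply, ite_mul, one_mul, zero_mul]
      rw [Finset.sum_eq_single (v⁻¹ * u)]
      · simp
      · intro b _ hb; exact if_neg fun h => hb (by rw [h, inv_mul_cancel_left])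
      · simp
    refine ⟨fun ha g h => ?_, fun ha v => ?_⟩
    · have := congrFun (congrFun (ha h) (h * g)) 1
      rw [e1, e2] at this
      simpa using this
    · ext u w
      rw [e1, e2, ← ha (v⁻¹ * u * w⁻¹) v]
      congr 1
      group
  let e : (ConjClasses W → ℂ) ≃ₗ[ℂ] Z S (1 : ℂ) :=
    { toFun := fun f => ⟨fun g => f (ConjClasses.mk g), (hmem _).mpr fun g h => congrArg f
        (ConjClasses.mk_eq_mk_iff_isConj.mpr (isConj_iff.mpr ⟨h⁻¹, by group⟩))⟩
      map_add' := fun f f' => rfl
      map_smul' := fun c f => rfl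
      invFun := fun a c => a.1 c.exists_rep.choose
      left_inv := fun f => funext fun c => congrArg f c.exists_rep.choose_spec
      right_inv := fun a => Subtype.ext (funext fun g => by
        obtain ⟨h, hh⟩ := isConj_iff.mp (ConjClasses.mk_eq_mk_iff_isConj.mp
          (ConjClasses.mk g).exists_rep.choose_spec)
        show a.1 _ = a.1 g
        conv_rhs => rw [← hh]
        exact ((hmem _).mp a.2 _ h).symm) }
  haveI : Finite (ConjClasses W) := Finite.of_surjective ConjClasses.mk fun c => c.exists_rep
  haveI : Fintype (ConjClasses W) := Fintype.ofFinite _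
  rw [← e.finrank_eq, Module.finrank_pi, Nat.card_eq_fintype_card]

/-- The rank of the centre does not depend on the parameter. -/
theorem finrank_Z_eq {Q : Set ℂ} (hQ : Q.Infinite) (hcl : ∀ x ∈ Q, Closed S x) {q : ℂ} (hq : Closed S q)
    (hd : (gram S q).det ≠ 0) : Module.finrank ℂ (Z S q) = Nat.card (ConjClasses W) := by
  classical
  open Polynomial in
  let d : ℂ[X] := (gram S (Polynomial.X : Polynomial ℂ)).det
  let N : Polynomial ℂ := num S (Polynomial.X : Polynomial ℂ)
  have hde : ∀ x, d.eval x = (gram S x).det := by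
    intro x
    have h := (Polynomial.evalRingHom x).map_det (gram S Polynomial.X)
    rw [map_gram] at h
    simpa [d] using h
  have hNe : ∀ x, N.eval x = num S x := by
    intro x
    simpa [N] using map_num S (Polynomial.evalRingHom x) Polynomial.X
  have hd0 : d ≠ 0 := fun h => gram_det_one S (by rw [← hde, h, Polynomial.eval_zero])
  have hQ' : (Q \ {x | d.IsRoot x}).Infinite := hQ.diff (Polynomial.finite_setOfPred_isRoot hd0)
  haveI := hQ'.to_subtype
  obtain ⟨n, hn⟩ := Finite.exists_infinite_fiber fun x : ↥(Q \ {x | d.IsRoot x}) =>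
    (⟨Module.finrank ℂ (Z S (x : ℂ)), Nat.lt_succ_of_le ((Submodule.finrank_le _).trans_eq
      (Module.finrank_pi ℂ))⟩ : Fin (Fintype.card W + 1))
  have hpoly : N = (n : ℂ) • d := by
    refine Polynomial.eq_of_infinite_eval_eq _ _ (Set.Infinite.mono ?_ ((Set.infinite_coe_iff.mp hn).image
      Subtype.val_injective.injOn))
    rintro x ⟨⟨y, hy⟩, hyn, rfl⟩
    have h1 := finrank_Z (hcl y hy.1) (by rw [← hde]; exact hy.2)
    simp only [Set.mem_preimage, Set.mem_singleton_iff] at hyn
    simp only [Set.mem_setOf_eq, Polynomial.eval_smul, smul_eq_mul, hde, hNe, ← h1, ← hyn]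
  have key : ∀ x, Closed S x → (gram S x).det ≠ 0 → Module.finrank ℂ (Z S x) = n := by
    intro x hx hd
    have h1 := finrank_Z hx hd
    rw [← hNe, hpoly, Polynomial.eval_smul, smul_eq_mul, hde] at h1
    exact_mod_cast mul_right_cancel₀ hd h1
  rw [key q hq hd, ← finrank_Z_one S, key 1 (closed_one S) (gram_det_one S)]

end Cfsg.Agent.LeadWork.Hecke
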