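/-
The Hecke algebra of a finite Tits system with equal parameters: its matrices in the basis of double cosets,
its trace form, and its centre as the span of the constituents of the permutation character on the cosets of `B`.
-/
import Cfsg.Agent.LeadWork.HeckeGeneric
import Cfsg.Agent.KnownA.Steinberg.BNChar
import Cfsg.Agent.Suzuki.BNExtra
import Cfsg.Agent.Chars.Glauberman
import Cfsg.Agent.Linear.Unipotent.Orbits

set_option autoImplicit false

universe u v

namespace Cfsg.Agent.LeadWork.Hecke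

open Cfsg.Agent.Suzuki.BN Matrix
open scoped ComplexConjugate ComplexOrder

/-- A finite Tits system with an enumeration of the generators, the group `N / (B ⊓ N)`, and a common parameter. -/
structure Sys (G : Type u) [Group G] (W : Type v) [Group W] (ι : Type) where
  P : Cfsg.BNPair G
  node : ι → G
  range_node : Set.range node = P.S
  proj : ↥P.N →* W
  proj_surj : Function.Surjective proj
  proj_eq : ∀ n m : ↥P.N, proj n = proj m ↔ Sim P (n : G) m
  q : ℕ
  q_pos : 0 < q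
  card_node : ∀ i, Nat.card ↥(dc P (node i)) = q * Nat.card ↥P.B

variable {G : Type u} [Group G] {W : Type v} [Group W] {ι : Type} (Y : Sys G W ι)

namespace Sys

theorem node_mem (i : ι) : Y.node i ∈ Y.P.S := Y.range_node ▸ Set.mem_range_self i

/-- A representative. -/
noncomputable def r (w : W) : G := (Y.proj_surj w).choose

theorem r_mem (w : W) : Y.r w ∈ Y.P.N := (Y.proj_surj w).choose.2

theorem proj_r (w : W) : Y.proj ⟨Y.r w, Y.r_mem w⟩ = w := (Y.proj_surj w).choose_spec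

theorem sim_r {n : G} (hn : n ∈ Y.P.N) : Sim Y.P (Y.r (Y.proj ⟨n, hn⟩)) n :=
  (Y.proj_eq ⟨Y.r _, Y.r_mem _⟩ ⟨n, hn⟩).mp (Y.proj_r _)

/-- The generators. -/
def gen (i : ι) : W := Y.proj ⟨Y.node i, s_mem (Y.node_mem i)⟩

theorem proj_node_mul (i : ι) {n : G} (hn : n ∈ Y.P.N) :
    Y.proj ⟨Y.node i * n, mul_mem (s_mem (Y.node_mem i)) hn⟩ = Y.gen i * Y.proj ⟨n, hn⟩ :=
  map_mul Y.proj ⟨Y.node i, s_mem (Y.node_mem i)⟩ ⟨n, hn⟩

theorem sim_node_r (i : ι) (w : W) : Sim Y.P (Y.r (Y.gen i * w)) (Y.node i * Y.r w) := by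
  have h := Y.sim_r (mul_mem (s_mem (Y.node_mem i)) (Y.r_mem w))
  rwa [Y.proj_node_mul i (Y.r_mem w), Y.proj_r] at h

theorem gen_sq (i : ι) : Y.gen i * Y.gen i = 1 := by
  rw [gen, ← map_mul, ← map_one Y.proj, Y.proj_eq]
  exact ss_sim (Y.node_mem i)

theorem r_one : Y.r 1 ∈ Y.P.B := by
  have h := (Y.proj_eq ⟨Y.r 1, Y.r_mem 1⟩ 1).mp (by rw [Y.proj_r, map_one])
  exact sim_one.mp h.symm

/-- The length. -/
noncomputable def lenW (w : W) : ℕ := len Y.P (Y.r w)

theorem lenW_gen_mul (i : ι) (w : W) : Y.lenW (Y.gen i * w) = len Y.P (Y.node i * Y.r w) :=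
  len_congr (Y.sim_node_r i w)

theorem exists_word (w : W) : ∃ l : List ι, (l.map Y.gen).prod = w ∧ l.length = Y.lenW w := by
  obtain ⟨L, hL, hlen, hsim⟩ := exists_reduced (Y.r_mem w)
  rw [← Y.range_node] at hL
  obtain ⟨l, rfl⟩ : ∃ l : List ι, l.map Y.node = L := by
    clear hlen hsim
    induction L with
    | nil => exact ⟨[], rfl⟩
    | cons x L ih =>
      obtain ⟨l, rfl⟩ := ih fun y hy => hL y (List.mem_cons_of_mem _ hy)
      obtain ⟨i, rfl⟩ := hL _ List.mem_cons_self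
      exact ⟨i :: l, rfl⟩
  refine ⟨l, ?_, by rw [List.length_map] at hlen; exact hlen⟩
  have e : (l.map Y.gen).prod = Y.proj ((l.map fun i => (⟨Y.node i, s_mem (Y.node_mem i)⟩ : ↥Y.P.N)).prod) := by
    rw [map_list_prod, List.map_map]; rfl
  rw [e, ← Y.proj_r w, Y.proj_eq]
  rw [SubmonoidClass.coe_list_prod, List.map_map]
  exact hsim

/-- The combinatorial data of the Weyl group. -/
noncomputable def words : Words W ι where
  s := Y.gen
  s_sq := Y.gen_sq
  len := Y.lenW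
  len_one := len_of_mem Y.r_one
  len_le i w := by rw [lenW_gen_mul]; exact len_mul_le (Y.node_mem i) (Y.r_mem w)
  word w := (Y.exists_word w).choose
  word_prod w := (Y.exists_word w).choose_spec.1
  word_length w := (Y.exists_word w).choose_spec.2

/-- The cell of an element. -/
noncomputable def cl (g : G) : W :=
  Y.proj ⟨(exists_bruhat (P := Y.P) g).choose, (exists_bruhat (P := Y.P) g).choose_spec.1⟩

theorem cl_eq {n g : G} (hn : n ∈ Y.P.N) (hg : g ∈ dc Y.P n) : Y.cl g = Y.proj ⟨n, hn⟩ :=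
  (Y.proj_eq _ _).mpr (sim_of_mem_mem (exists_bruhat (P := Y.P) g).choose_spec.1 hn
    (exists_bruhat (P := Y.P) g).choose_spec.2 hg)

theorem mem_dc_cl (g : G) : g ∈ dc Y.P (Y.r (Y.cl g)) := by
  have h := (exists_bruhat (P := Y.P) g).choose_spec
  rw [show dc Y.P (Y.r (Y.cl g)) = dc Y.P _ from (Y.sim_r h.1).dc_eq]
  exact h.2

theorem cl_eq_iff {g : G} {w : W} : Y.cl g = w ↔ g ∈ dc Y.P (Y.r w) := by
  refine ⟨fun h => h ▸ Y.mem_dc_cl g, fun h => ?_⟩
  rw [Y.cl_eq (Y.r_mem w) h, Y.proj_r]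

theorem cl_r (w : W) : Y.cl (Y.r w) = w := Y.cl_eq_iff.mpr (mem_dc_self _)

theorem cl_mul_left {b g : G} (hb : b ∈ Y.P.B) : Y.cl (b * g) = Y.cl g :=
  Y.cl_eq_iff.mpr (mul_left_mem hb (Y.mem_dc_cl g))

theorem cl_mul_right {b g : G} (hb : b ∈ Y.P.B) : Y.cl (g * b) = Y.cl g :=
  Y.cl_eq_iff.mpr (mul_right_mem hb (Y.mem_dc_cl g))

theorem cl_eq_one_iff {g : G} : Y.cl g = 1 ↔ g ∈ Y.P.B := by
  rw [Y.cl_eq_iff, show dc Y.P (Y.r 1) = dc Y.P 1 from (sim_one.mpr Y.r_one).dc_eq.symm, mem_dc_one]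

theorem dc_gen (i : ι) : dc Y.P (Y.r (Y.gen i)) = dc Y.P (Y.node i) :=
  (Y.sim_r (s_mem (Y.node_mem i))).dc_eq

theorem cl_inv_gen {g : G} (i : ι) (h : Y.cl g = Y.gen i) : Y.cl g⁻¹ = Y.gen i := by
  rw [Y.cl_eq_iff, Y.dc_gen] at h ⊢
  rw [(s_inv_sim (Y.node_mem i)).dc_eq]
  exact inv_mem_dc h

theorem lenW_gen (i : ι) : Y.lenW (Y.gen i) = 1 :=
  (len_congr (Y.sim_r (s_mem (Y.node_mem i)))).trans (len_rep (Y.node_mem i))

theorem lenW_cases (i : ι) (w : W) :
    Y.lenW (Y.gen i * w) = Y.lenW w + 1 ∨ Y.lenW (Y.gen i * w) + 1 = Y.lenW w := by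
  rw [lenW_gen_mul]; exact len_mul_cases (Y.node_mem i) (Y.r_mem w)

end Sys

variable [Fintype G] [DecidableEq G] [Fintype W] [DecidableEq W]

/-- The matrix of a function in the regular representation. -/
def rg (f : G → ℂ) : Matrix G G ℂ := Matrix.of fun x y => f (x * y⁻¹)

/-- The convolution. -/
def cv (f h : G → ℂ) : G → ℂ := fun g => ∑ x, f x * h (x⁻¹ * g)

theorem rg_mul (f h : G → ℂ) : rg f * rg h = rg (cv f h) := by
  ext x y
  simp only [Matrix.mul_apply, rg, Matrix.of_apply, cv]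
  refine Fintype.sum_equiv ((Equiv.inv G).trans (Equiv.mulLeft x)) _ _ fun z => ?_
  simp [mul_assoc]

theorem sum_cv (f h : G → ℂ) : ∑ g, cv f h g = (∑ g, f g) * ∑ g, h g := by
  simp only [cv]
  rw [Finset.sum_comm, Finset.sum_mul]
  refine Finset.sum_congr rfl fun x _ => ?_
  rw [← Finset.mul_sum]
  congr 1
  exact Fintype.sum_equiv (Equiv.mulLeft x⁻¹) _ _ fun z => rfl

theorem rg_injective : Function.Injective (rg : (G → ℂ) → Matrix G G ℂ) := fun f f' h => funext fun g => by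
  simpa [rg] using congrFun (congrFun h g) 1

theorem rg_conjTranspose (f : G → ℂ) : (rg f)ᴴ = rg fun g => conj (f g⁻¹) := by
  ext x y
  simp [rg, Matrix.conjTranspose_apply]

/-- The permutation matrix of left multiplication. -/
def pg (g : G) : Matrix G G ℂ := rg fun x => if x = g then 1 else 0

theorem pg_mul (a b : G) : pg a * pg b = pg (a * b) := by
  rw [pg, pg, rg_mul, pg]
  congr 1
  funext g
  simp only [cv, ite_mul, one_mul, zero_mul, Finset.sum_ite_eq', Finset.mem_univ, if_true, inv_mul_eq_iff_eq_mul]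

theorem pg_one : pg (1 : G) = 1 := by
  ext x y
  simp [pg, rg, Matrix.one_apply, mul_inv_eq_one]

theorem pg_conjTranspose (g : G) : (pg g)ᴴ = pg g⁻¹ := by
  rw [pg, rg_conjTranspose, pg]
  congr 1
  funext x
  simp only [inv_eq_iff_eq_inv]
  split_ifs <;> simp

theorem pg_mul_mul_apply (g : G) (f : G → ℂ) : pg g * rg f * pg g⁻¹ = rg fun x => f (g⁻¹ * x * g) := by
  rw [pg, pg, rg_mul, rg_mul]
  congr 1
  funext x
  simp only [cv, ite_mul, one_mul, zero_mul, Finset.sum_ite_eq', Finset.mem_univ, if_true, mul_ite, mul_one,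
    mul_zero]
  rw [Finset.sum_eq_single (x * g)]
  · simp [mul_assoc]
  · intro b _ hb
    exact if_neg fun h => hb (by rw [← inv_inv g, ← h]; group)
  · simp

theorem rg_eq_sum (f : G → ℂ) : rg f = ∑ g, f g • pg g := by
  ext x y
  simp [pg, rg, Matrix.sum_apply]

theorem class_commute {f : G → ℂ} (hf : Cfsg.IsClassFunction G f) (h : G → ℂ) :
    rg f * rg h = rg h * rg f := by
  rw [rg_mul, rg_mul]
  congr 1
  funext g
  simp only [cv]
  refine Fintype.sum_equiv ((Equiv.inv G).trans (Equiv.mulRight g)) _ _ fun x => ?_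
  simp only [Equiv.trans_apply, Equiv.inv_apply, Equiv.coe_mulRight, _root_.mul_inv_rev, inv_inv]
  rw [show g⁻¹ * x * g = g⁻¹ * x * g⁻¹⁻¹ by group, hf x g⁻¹, mul_comm]

namespace Sys

/-- The number of elements in a cell. -/
noncomputable def K (w : W) : ℕ := Nat.card {g : G // Y.cl g = w}

theorem K_ne (w : W) : Y.K w ≠ 0 :=
  have : Nonempty {g : G // Y.cl g = w} := ⟨⟨Y.r w, Y.cl_r w⟩⟩
  Nat.card_pos.ne'

/-- The value of a basis element on its cell. -/
noncomputable def c (w : W) : ℂ := (Y.q : ℂ) ^ Y.lenW w / Y.K w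

theorem c_ne (w : W) : Y.c w ≠ 0 :=
  div_ne_zero (pow_ne_zero _ (Nat.cast_ne_zero.mpr Y.q_pos.ne')) (Nat.cast_ne_zero.mpr (Y.K_ne w))

theorem K_one : Y.K 1 = Nat.card ↥Y.P.B := Nat.card_congr (Equiv.subtypeEquivRight fun _ => Y.cl_eq_one_iff)

theorem K_gen (i : ι) : Y.K (Y.gen i) = Y.q * Nat.card ↥Y.P.B := by
  rw [← Y.card_node i]
  exact Nat.card_congr (Equiv.subtypeEquivRight fun g => by rw [Y.cl_eq_iff, Y.dc_gen])

theorem c_one : Y.c 1 = (Nat.card ↥Y.P.B : ℂ)⁻¹ := by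
  rw [c, Y.K_one, show Y.lenW 1 = 0 from Y.words.len_one, pow_zero, one_div]

theorem c_gen (i : ι) : Y.c (Y.gen i) = (Nat.card ↥Y.P.B : ℂ)⁻¹ := by
  rw [c, Y.K_gen, Y.lenW_gen, pow_one, Nat.cast_mul,
    div_mul_cancel_left₀ (Nat.cast_ne_zero.mpr Y.q_pos.ne')]

/-- The element with given coordinates. -/
noncomputable def τ (a : W → ℂ) : G → ℂ := fun g => a (Y.cl g) * Y.c (Y.cl g)

/-- The matrix with given coordinates. -/
noncomputable def R : (W → ℂ) →ₗ[ℂ] Matrix G G ℂ where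
  toFun a := rg (Y.τ a)
  map_add' a b := by ext x y; simp [rg, τ, add_mul]
  map_smul' c a := by ext x y; simp [rg, τ, mul_assoc]

theorem R_apply (a : W → ℂ) : Y.R a = rg (Y.τ a) := rfl

theorem R_injective : Function.Injective Y.R := fun a b h => funext fun w => by
  have := congrFun (rg_injective h) (Y.r w)
  simp only [τ, Y.cl_r] at this
  exact mul_right_cancel₀ (Y.c_ne w) this

theorem card_fibre (w : W) : ((Finset.univ.filter fun g => Y.cl g = w).card : ℂ) = Y.K w := by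
  rw [K, Nat.card_eq_fintype_card, Fintype.card_subtype]

theorem sum_cl (F : W → ℂ) : ∑ g, F (Y.cl g) = ∑ w, F w * Y.K w := by
  rw [← Finset.sum_fiberwise' Finset.univ Y.cl F]
  refine Finset.sum_congr rfl fun w _ => ?_
  rw [Finset.sum_const, nsmul_eq_mul, Y.card_fibre, mul_comm]

theorem sum_τ (a : W → ℂ) : ∑ g, Y.τ a g = ∑ w, a w * (Y.q : ℂ) ^ Y.lenW w := by
  refine (Y.sum_cl fun w => a w * Y.c w).trans ?_
  refine Finset.sum_congr rfl fun w _ => ?_
  rw [c, mul_assoc, div_mul_cancel₀ _ (Nat.cast_ne_zero.mpr (Y.K_ne w))]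

theorem sum_τ_single (w : W) : ∑ g, Y.τ (Pi.single w 1) g = (Y.q : ℂ) ^ Y.lenW w := by
  rw [Y.sum_τ]; simp [Pi.single_apply]

theorem τ_left {b g : G} (hb : b ∈ Y.P.B) (a : W → ℂ) : Y.τ a (b * g) = Y.τ a g := by
  simp [τ, Y.cl_mul_left hb]

theorem τ_right {b g : G} (hb : b ∈ Y.P.B) (a : W → ℂ) : Y.τ a (g * b) = Y.τ a g := by
  simp [τ, Y.cl_mul_right hb]

theorem exists_τ {f : G → ℂ} (hl : ∀ b ∈ Y.P.B, ∀ g, f (b * g) = f g) (hr : ∀ b ∈ Y.P.B, ∀ g, f (g * b) = f g) :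
    ∃ a, Y.τ a = f := by
  refine ⟨fun w => f (Y.r w) / Y.c w, funext fun g => ?_⟩
  rw [τ, div_mul_cancel₀ _ (Y.c_ne _)]
  obtain ⟨b, hb, b', hb', e⟩ := mem_dc.mp (Y.mem_dc_cl g)
  conv_rhs => rw [e, hr b' hb', hl b hb]

theorem exists_cv {f h : G → ℂ} (hl : ∀ b ∈ Y.P.B, ∀ g, f (b * g) = f g)
    (hr : ∀ b ∈ Y.P.B, ∀ g, h (g * b) = h g) : ∃ a, Y.τ a = cv f h := by
  refine Y.exists_τ (fun b hb g => ?_) (fun b hb g => ?_)
  · simp only [cv]
    refine Fintype.sum_equiv (Equiv.mulLeft b⁻¹) _ _ fun x => ?_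
    simp only [Equiv.coe_mulLeft]
    rw [hl b⁻¹ (inv_mem hb) x]
    congr 2
    group
  · simp only [cv]
    exact Finset.sum_congr rfl fun x _ => by rw [← mul_assoc, hr b hb]

/-- The identity of the algebra. -/
noncomputable def E : Matrix G G ℂ := Y.R (Pi.single 1 1)

theorem τ_one (g : G) :
    Y.τ (Pi.single 1 1) g = if Y.cl g = 1 then (Nat.card ↥Y.P.B : ℂ)⁻¹ else 0 := by
  simp only [τ, Pi.single_apply]
  split_ifs with h
  · rw [h, Y.c_one, one_mul]
  · rw [zero_mul]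

theorem card_B_ne : (Nat.card ↥Y.P.B : ℂ) ≠ 0 := Nat.cast_ne_zero.mpr Nat.card_pos.ne'

theorem sum_B (v : ℂ) : ∑ g, (if Y.cl g = 1 then (Nat.card ↥Y.P.B : ℂ)⁻¹ else 0) * v = v := by
  rw [← Finset.sum_mul, Finset.sum_ite, Finset.sum_const_zero, add_zero, Finset.sum_const, nsmul_eq_mul,
    Y.card_fibre, Y.K_one, mul_inv_cancel₀ Y.card_B_ne, one_mul]

theorem E_mul {f : G → ℂ} (hl : ∀ b ∈ Y.P.B, ∀ g, f (b * g) = f g) : Y.E * rg f = rg f := by
  rw [E, R_apply, rg_mul]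
  congr 1
  funext g
  conv_rhs => rw [← Y.sum_B (f g)]
  refine Finset.sum_congr rfl fun x _ => ?_
  rw [τ_one]
  split_ifs with h
  · rw [hl _ (inv_mem (Y.cl_eq_one_iff.mp h))]
  · simp

theorem mul_E {f : G → ℂ} (hr : ∀ b ∈ Y.P.B, ∀ g, f (g * b) = f g) : rg f * Y.E = rg f := by
  rw [E, R_apply, rg_mul]
  congr 1
  funext g
  conv_rhs => rw [← Y.sum_B (f g)]
  simp only [cv]
  refine Fintype.sum_equiv ((Equiv.inv G).trans (Equiv.mulRight g)) _ _ fun x => ?_
  simp only [Equiv.trans_apply, Equiv.inv_apply, Equiv.coe_mulRight, τ_one]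
  rw [mul_comm]
  split_ifs with h
  · rw [← hr _ (Y.cl_eq_one_iff.mp h) x, mul_inv_cancel_left]
  · simp

theorem E_R (a : W → ℂ) : Y.E * Y.R a = Y.R a := Y.E_mul fun b hb g => Y.τ_left hb a

theorem R_E (a : W → ℂ) : Y.R a * Y.E = Y.R a := Y.mul_E fun b hb g => Y.τ_right hb a

theorem E_E : Y.E * Y.E = Y.E := Y.E_R _

theorem E_conjTranspose : Y.Eᴴ = Y.E := by
  rw [E, R_apply, rg_conjTranspose]
  congr 1
  funext g
  change conj (Y.τ (Pi.single 1 1) g⁻¹) = Y.τ (Pi.single 1 1) g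
  rw [τ_one, τ_one]
  by_cases hg : g ∈ Y.P.B
  · simp [Y.cl_eq_one_iff.mpr hg, Y.cl_eq_one_iff.mpr (inv_mem hg)]
  · rw [if_neg (fun h => hg (by simpa using inv_mem (Y.cl_eq_one_iff.mp h))),
      if_neg (fun h => hg (Y.cl_eq_one_iff.mp h)), map_zero]

theorem exists_R_sandwich (f : G → ℂ) : ∃ a, Y.R a = Y.E * rg f * Y.E := by
  obtain ⟨a, ha⟩ := Y.exists_cv (f := cv (Y.τ (Pi.single 1 1)) f) (h := Y.τ (Pi.single 1 1))
    (fun b hb g => by
      simp only [cv]
      refine Fintype.sum_equiv (Equiv.mulLeft b⁻¹) _ _ fun x => ?_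
      simp only [Equiv.coe_mulLeft]
      rw [Y.τ_left (inv_mem hb)]
      congr 2
      group)
    (fun b hb g => Y.τ_right hb _)
  exact ⟨a, by rw [R_apply, ha, E, R_apply, rg_mul, rg_mul]⟩

/-! ### The multiplication by a generator -/

theorem cv_support (i : ι) (w : W) {g : G}
    (h : cv (Y.τ (Pi.single (Y.gen i) 1)) (Y.τ (Pi.single w 1)) g ≠ 0) :
    Y.cl g = Y.gen i * w ∨ Y.cl g = w ∧ Y.lenW (Y.gen i * w) < Y.lenW w := by
  obtain ⟨x, -, hx⟩ := Finset.exists_ne_zero_of_sum_ne_zero h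
  obtain ⟨h1, h2⟩ := mul_ne_zero_iff.mp hx
  have hx1 : Y.cl x = Y.gen i := by
    by_contra hne; exact h1 (by simp [τ, hne])
  have hx2 : Y.cl (x⁻¹ * g) = w := by
    by_contra hne; exact h2 (by simp [τ, hne])
  rw [Y.cl_eq_iff, Y.dc_gen, mem_dc] at hx1
  obtain ⟨b, hb, b', hb', rfl⟩ := hx1
  rw [Y.cl_eq_iff] at hx2
  have e : g = b * (Y.node i * (b' * ((b * Y.node i * b')⁻¹ * g))) := by group
  have hy := mul_left_mem hb' hx2
  have hi := Y.node_mem i
  have hsw := mul_mem (s_mem hi) (Y.r_mem w)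
  have up : Y.node i * (b' * ((b * Y.node i * b')⁻¹ * g)) ∈ dc Y.P (Y.node i * Y.r w) →
      Y.cl g = Y.gen i * w := by
    intro h3
    rw [e, Y.cl_mul_left hb, Y.cl_eq hsw h3, Y.proj_node_mul i (Y.r_mem w), Y.proj_r]
  rcases left_mul hi (Y.r_mem w) hy with h3 | h3
  · exact Or.inl (up h3)
  · by_cases hl : len Y.P (Y.r w) ≤ len Y.P (Y.node i * Y.r w)
    · exact Or.inl (up (left_mul_of_le hi (Y.r_mem w) hl hy))
    · refine Or.inr ⟨?_, ?_⟩
      · rw [e, Y.cl_mul_left hb, Y.cl_eq (Y.r_mem w) h3, Y.proj_r]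
      · rw [Y.lenW_gen_mul]; exact lt_of_not_ge hl

theorem gen_mul_up {i : ι} {w : W} (h : Y.lenW w < Y.lenW (Y.gen i * w)) :
    Y.R (Pi.single (Y.gen i) 1) * Y.R (Pi.single w 1) = Y.R (Pi.single (Y.gen i * w) 1) := by
  obtain ⟨a, ha⟩ := Y.exists_cv (f := Y.τ (Pi.single (Y.gen i) 1)) (h := Y.τ (Pi.single w 1))
    (fun b hb g => Y.τ_left hb _) (fun b hb g => Y.τ_right hb _)
  have hsupp : ∀ v, v ≠ Y.gen i * w → a v = 0 := by
    intro v hv
    by_contra hne
    have h0 : Y.τ a (Y.r v) ≠ 0 := by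
      simp only [τ, Y.cl_r]; exact mul_ne_zero hne (Y.c_ne v)
    rw [ha] at h0
    rcases Y.cv_support i w h0 with h1 | ⟨-, h2⟩
    · exact hv (by rw [← h1, Y.cl_r])
    · omega
  have hl : Y.lenW (Y.gen i * w) = Y.lenW w + 1 := (Y.lenW_cases i w).resolve_right (by omega)
  have hs : ∑ g, Y.τ a g = (Y.q : ℂ) ^ (Y.lenW w + 1) := by
    rw [ha, sum_cv, Y.sum_τ_single, Y.sum_τ_single, Y.lenW_gen, pow_succ']
    ring
  rw [Y.sum_τ, Finset.sum_eq_single (Y.gen i * w) (fun v _ hv => by rw [hsupp v hv, zero_mul]) (by simp), hl,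
    mul_eq_right₀ (pow_ne_zero _ (Nat.cast_ne_zero.mpr Y.q_pos.ne'))] at hs
  have hae : a = Pi.single (Y.gen i * w) 1 := by
    funext v
    by_cases hv : v = Y.gen i * w
    · subst hv; simp [hs]
    · simp [Pi.single_apply, hv, hsupp v hv]
  rw [R_apply, R_apply, rg_mul, ← ha, hae, R_apply]

theorem gen_sq_mul (i : ι) :
    Y.R (Pi.single (Y.gen i) 1) * Y.R (Pi.single (Y.gen i) 1) =
      (Y.q : ℂ) • Y.E + ((Y.q : ℂ) - 1) • Y.R (Pi.single (Y.gen i) 1) := by
  obtain ⟨a, ha⟩ := Y.exists_cv (f := Y.τ (Pi.single (Y.gen i) 1)) (h := Y.τ (Pi.single (Y.gen i) 1))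
    (fun b hb g => Y.τ_left hb _) (fun b hb g => Y.τ_right hb _)
  have hne : Y.gen i ≠ 1 := fun h => by
    have := congrArg Y.lenW h
    rw [Y.lenW_gen, show Y.lenW 1 = 0 from Y.words.len_one] at this
    omega
  have hsupp : ∀ v, v ≠ 1 → v ≠ Y.gen i → a v = 0 := by
    intro v hv hv'
    by_contra h
    have h0 : Y.τ a (Y.r v) ≠ 0 := by
      simp only [τ, Y.cl_r]; exact mul_ne_zero h (Y.c_ne v)
    rw [ha] at h0
    rcases Y.cv_support i (Y.gen i) h0 with h1 | ⟨h1, -⟩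
    · exact hv (by rw [← Y.gen_sq i, ← h1, Y.cl_r])
    · exact hv' (by rw [← h1, Y.cl_r])
  have h1 : a 1 = (Y.q : ℂ) := by
    have e : Y.τ a 1 = (Y.q : ℂ) * (Nat.card ↥Y.P.B : ℂ)⁻¹ := by
      rw [ha]
      have e1 : ∀ x, Y.τ (Pi.single (Y.gen i) 1) x * Y.τ (Pi.single (Y.gen i) 1) (x⁻¹ * 1) =
          (fun w => if w = Y.gen i then (Nat.card ↥Y.P.B : ℂ)⁻¹ * (Nat.card ↥Y.P.B : ℂ)⁻¹ else 0) (Y.cl x) := by
        intro x
        by_cases hx : Y.cl x = Y.gen i
        · simp [τ, hx, Y.cl_inv_gen i hx, Y.c_gen]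
        · simp [τ, hx]
      refine ((Finset.sum_congr rfl fun x _ => e1 x).trans (Y.sum_cl fun w => if w = Y.gen i then (Nat.card ↥Y.P.B : ℂ)⁻¹ * (Nat.card ↥Y.P.B : ℂ)⁻¹ else 0)).trans ?_
      simp only [ite_mul, zero_mul, Finset.sum_ite_eq', Finset.mem_univ, if_true, Y.K_gen, Nat.cast_mul]
      have := Y.card_B_ne
      field_simp
    rw [τ, Y.cl_eq_one_iff.mpr (one_mem _), Y.c_one] at e
    exact mul_right_cancel₀ (inv_ne_zero Y.card_B_ne) e
  have h2 : a (Y.gen i) = (Y.q : ℂ) - 1 := by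
    have hs : ∑ g, Y.τ a g = (Y.q : ℂ) * Y.q := by
      rw [ha, sum_cv, Y.sum_τ_single, Y.lenW_gen, pow_one]
    rw [Y.sum_τ, Finset.sum_eq_add (1 : W) (Y.gen i) hne.symm
      (fun v _ hv => by rw [hsupp v hv.1 hv.2, zero_mul]) (by simp) (by simp),
      show Y.lenW 1 = 0 from Y.words.len_one, Y.lenW_gen, h1, pow_zero, mul_one, pow_one] at hs
    have hq : (Y.q : ℂ) ≠ 0 := Nat.cast_ne_zero.mpr Y.q_pos.ne'
    exact mul_right_cancel₀ hq (by linear_combination hs)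
  have hae : a = (Y.q : ℂ) • Pi.single 1 1 + ((Y.q : ℂ) - 1) • Pi.single (Y.gen i) 1 := by
    funext v
    by_cases hv : v = 1
    · subst hv; simp [h1, hne.symm]
    by_cases hv' : v = Y.gen i
    · subst hv'; simp [h2, hne]
    · simp [hv, hv', hsupp v hv hv']
  rw [R_apply, rg_mul, ← ha, ← R_apply, hae, map_add, map_smul, map_smul]
  simp only [E, R_apply]

theorem gen_mul_single (i : ι) (w : W) :
    Y.R (Pi.single (Y.gen i) 1) * Y.R (Pi.single w 1) = Y.R (L Y.words (Y.q : ℂ) i *ᵥ Pi.single w 1) := by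
  rw [Matrix.mulVec_single_one]
  by_cases h : Y.lenW w < Y.lenW (Y.gen i * w)
  · rw [Y.gen_mul_up h]
    congr 1
    funext u
    change _ = L Y.words (Y.q : ℂ) i u w
    simp only [L, Matrix.of_apply, Pi.single_apply]
    rw [if_pos (show Y.words.len w < Y.words.len (Y.words.s i * w) from h)]
    rfl
  · have hv : Y.lenW (Y.gen i * w) < Y.lenW (Y.gen i * (Y.gen i * w)) := by
      rw [← mul_assoc, Y.gen_sq, one_mul]
      have := Y.lenW_cases i w
      omega
    have e := Y.gen_mul_up hv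
    rw [← mul_assoc, Y.gen_sq, one_mul] at e
    conv_lhs => rw [← e]
    rw [← mul_assoc, Y.gen_sq_mul, add_mul, smul_mul_assoc, smul_mul_assoc, Y.E_R, e, ← map_smul, ← map_smul,
      ← map_add]
    congr 1
    funext u
    change _ = L Y.words (Y.q : ℂ) i u w
    simp only [L, Matrix.of_apply, Pi.add_apply, Pi.smul_apply, smul_eq_mul, Pi.single_apply]
    rw [if_neg (show ¬ Y.words.len w < Y.words.len (Y.words.s i * w) from h), add_comm]
    rfl

theorem gen_mul (i : ι) (a : W → ℂ) :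
    Y.R (Pi.single (Y.gen i) 1) * Y.R a = Y.R (L Y.words (Y.q : ℂ) i *ᵥ a) := by
  have e : a = ∑ w, a w • (Pi.single w 1 : W → ℂ) := by
    funext u; simp [Finset.sum_apply, Pi.single_apply]
  rw [e]
  simp only [map_sum, map_smul, Matrix.mulVec_sum, Matrix.mulVec_smul, Finset.mul_sum, mul_smul_comm,
    Y.gen_mul_single]

theorem matrix_ext' {A B : Matrix W W ℂ} (h : ∀ a, Y.R (A *ᵥ a) = Y.R (B *ᵥ a)) : A = B := by
  ext u w
  have := congrFun (Y.R_injective (h (Pi.single w 1))) u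
  simpa using this

theorem R_list (l : List ι) (a : W → ℂ) : Y.R ((l.map (L Y.words (Y.q : ℂ))).prod *ᵥ a) =
    (l.map fun i => Y.R (Pi.single (Y.gen i) 1)).prod * Y.R a := by
  induction l generalizing a with
  | nil => simp
  | cons i l ih =>
    rw [List.map_cons, List.prod_cons, List.map_cons, List.prod_cons, ← Matrix.mulVec_mulVec, ← Y.gen_mul, ih,
      mul_assoc]

theorem R_red (l : List ι) (hl : Y.lenW (l.map Y.gen).prod = l.length) (a : W → ℂ) :
    Y.R ((l.map (L Y.words (Y.q : ℂ))).prod *ᵥ a) = Y.R (Pi.single (l.map Y.gen).prod 1) * Y.R a := by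
  have e : Y.R (Pi.single (l.map Y.gen).prod 1) = (l.map fun i => Y.R (Pi.single (Y.gen i) 1)).prod * Y.E := by
    have h := prod_col_one Y.words (Y.q : ℂ) l hl
    rw [show (Pi.single (l.map Y.gen).prod 1 : W → ℂ) = _ from h.symm, E, R_list]
  rw [e, R_list, mul_assoc, Y.E_R]

theorem R_M (v : W) (a : W → ℂ) :
    Y.R (M Y.words (Y.q : ℂ) v *ᵥ a) = Y.R (Pi.single v 1) * Y.R a := by
  have hp : ((Y.words.word v).map Y.gen).prod = v := Y.words.word_prod v
  have h := Y.R_red (Y.words.word v) (by rw [hp, Y.words.word_length]; rfl) a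
  rwa [hp] at h

/-- Any choice of shortest words gives the same matrices. -/
theorem M_congr (S : Words W ι) (hs : ∀ i, S.s i = Y.gen i) (hl : ∀ w, S.len w = Y.lenW w) (v : W) :
    M S (Y.q : ℂ) v = M Y.words (Y.q : ℂ) v := by
  have hL : ∀ i, L S (Y.q : ℂ) i = L Y.words (Y.q : ℂ) i := by
    intro i
    ext u w
    simp only [L, Matrix.of_apply, hs, hl]
    rfl
  have hs' : S.s = Y.gen := funext hs
  have hp : ((S.word v).map Y.gen).prod = v := by rw [← hs']; exact S.word_prod v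
  refine Y.matrix_ext' fun a => ?_
  rw [M, List.map_congr_left fun i _ => hL i, Y.R_red _ (by rw [hp, S.word_length, hl]) a, hp, Y.R_M]

theorem R_Φ (b a : W → ℂ) : Y.R (Φ Y.words (Y.q : ℂ) b *ᵥ a) = Y.R b * Y.R a := by
  have e : b = ∑ w, b w • (Pi.single w 1 : W → ℂ) := by
    funext u; simp [Finset.sum_apply, Pi.single_apply]
  conv_rhs => rw [e]
  simp only [Φ, Matrix.sum_mulVec, Matrix.smul_mulVec, map_sum, map_smul, Y.R_M, Finset.sum_mul,
    smul_mul_assoc]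

theorem closed : Closed Y.words (Y.q : ℂ) := by
  intro v w
  refine Y.matrix_ext' fun a => ?_
  rw [← Matrix.mulVec_mulVec, Y.R_M, Y.R_M, Y.R_Φ, ← mul_assoc, ← Y.R_M]
  congr 2
  rw [Matrix.mulVec_single_one]
  rfl

/-! ### The trace form is nondegenerate -/

theorem gram_det : (gram Y.words (Y.q : ℂ)).det ≠ 0 := by
  intro h0
  obtain ⟨b, hb0, hb⟩ := Matrix.exists_mulVec_eq_zero_iff.mpr h0
  set x : ℂ := (Y.q : ℂ)
  obtain ⟨b', hb'⟩ := Y.exists_τ (f := fun g => conj (Y.τ b g⁻¹))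
    (fun d hd g => by simp only [_root_.mul_inv_rev, Y.τ_right (inv_mem hd)])
    (fun d hd g => by simp only [_root_.mul_inv_rev, Y.τ_left (inv_mem hd)])
  have hstar : Y.R b' = (Y.R b)ᴴ := by rw [R_apply, R_apply, rg_conjTranspose, hb']
  have htr : (Φ Y.words x b' * Φ Y.words x b).trace = 0 := by
    have e : ∀ v, (M Y.words x v * Φ Y.words x b).trace = 0 := by
      intro v
      refine Eq.trans ?_ (congrFun hb v)
      simp [Φ, gram, Matrix.mulVec, dotProduct, Finset.mul_sum, Matrix.trace_sum, mul_comm]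
    rw [Φ, Finset.sum_mul, Matrix.trace_sum]
    simp [e]
  let d : W → ℝ := fun w => ((Y.q : ℝ) ^ Y.lenW w) ^ 2 / Y.K w
  have hd : ∀ w, 0 < d w := fun w =>
    div_pos (pow_pos (pow_pos (Nat.cast_pos.mpr Y.q_pos) _) _) (Nat.cast_pos.mpr (Nat.pos_of_ne_zero (Y.K_ne w)))
  have ip : ∀ a a' : W → ℂ, ((Y.R a)ᴴ * Y.R a') 1 1 = ∑ w, conj (a w) * a' w * (d w : ℂ) := by
    intro a a'
    have e1 : ((Y.R a)ᴴ * Y.R a') 1 1 = ∑ g, (fun w => conj (a w) * a' w * (conj (Y.c w) * Y.c w)) (Y.cl g) := by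
      simp only [Matrix.mul_apply, Matrix.conjTranspose_apply, R_apply, rg, Matrix.of_apply, inv_one, mul_one]
      refine Finset.sum_congr rfl fun g _ => ?_
      simp only [τ, Complex.star_def, map_mul]
      ring
    refine (e1.trans (Y.sum_cl fun w => conj (a w) * a' w * (conj (Y.c w) * Y.c w))).trans (Finset.sum_congr rfl fun w _ => ?_)
    have hK : (Y.K w : ℂ) ≠ 0 := Nat.cast_ne_zero.mpr (Y.K_ne w)
    simp only [c, d, map_div₀, map_pow, Complex.conj_natCast, Complex.ofReal_div, Complex.ofReal_pow,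
      Complex.ofReal_natCast]
    field_simp
  have hentry : ∀ (a : W → ℂ) (u w : W), ((Y.R (Pi.single u 1))ᴴ * (Y.R a * Y.R (Pi.single w 1))) 1 1 =
      Φ Y.words x a u w * (d u : ℂ) := by
    intro a u w
    rw [← Y.R_Φ, ip, Finset.sum_eq_single u (fun v _ hv => by simp [hv]) (by simp)]
    simp [x]
  have hadj : ∀ u w, Φ Y.words x b' u w * (d u : ℂ) = conj (Φ Y.words x b w u * (d w : ℂ)) := by
    intro u w
    rw [← hentry, ← hentry, hstar]
    have e : (Y.R (Pi.single u 1))ᴴ * ((Y.R b)ᴴ * Y.R (Pi.single w 1)) =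
        ((Y.R (Pi.single w 1))ᴴ * (Y.R b * Y.R (Pi.single u 1)))ᴴ := by
      simp [Matrix.conjTranspose_mul, Matrix.mul_assoc]
    rw [e, Matrix.conjTranspose_apply, Complex.star_def]
  have hsum : ∑ p : W × W, Complex.normSq (Φ Y.words x b p.2 p.1) * (d p.2 / d p.1) = 0 := by
    have : ((∑ p : W × W, Complex.normSq (Φ Y.words x b p.2 p.1) * (d p.2 / d p.1) : ℝ) : ℂ) = 0 := by
      rw [← htr]
      simp only [Matrix.trace, Matrix.diag_apply, Matrix.mul_apply, Fintype.sum_prod_type, Complex.ofReal_sum,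
        Complex.ofReal_mul, Complex.ofReal_div]
      refine Finset.sum_congr rfl fun u _ => Finset.sum_congr rfl fun w _ => ?_
      have hu : (d u : ℂ) ≠ 0 := Complex.ofReal_ne_zero.mpr (hd u).ne'
      have h2 := hadj u w
      rw [map_mul, Complex.conj_ofReal] at h2
      rw [Complex.normSq_eq_conj_mul_self, ← mul_div_assoc, eq_comm, eq_div_iff hu]
      linear_combination (Φ Y.words x b w u) * h2
    exact_mod_cast this
  rw [Finset.sum_eq_zero_iff_of_nonneg fun p _ =>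
    mul_nonneg (Complex.normSq_nonneg _) (div_pos (hd _) (hd _)).le] at hsum
  refine hb0 (funext fun u => ?_)
  have h2 := hsum (1, u) (Finset.mem_univ _)
  rw [mul_eq_zero, or_iff_left (div_pos (hd _) (hd _)).ne', Complex.normSq_eq_zero, Φ_col_one] at h2
  exact h2

/-! ### The centre -/

theorem mem_Z_iff (a : W → ℂ) :
    a ∈ Z Y.words (Y.q : ℂ) ↔ ∀ b, Y.R a * Y.R b = Y.R b * Y.R a := by
  refine ⟨fun h b => ?_, fun h v => Y.matrix_ext' fun e => ?_⟩
  · have e : ∀ v, Y.R a * Y.R (Pi.single v 1) = Y.R (Pi.single v 1) * Y.R a := by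
      intro v
      have := congrArg (fun A : Matrix W W ℂ => Y.R (A *ᵥ Pi.single 1 1)) (h v)
      simp only [← Matrix.mulVec_mulVec, Y.R_M, Y.R_Φ, ← E.eq_def, R_E] at this
      exact this
    rw [show b = ∑ w, b w • (Pi.single w 1 : W → ℂ) by funext u; simp [Finset.sum_apply, Pi.single_apply]]
    simp only [map_sum, map_smul, Finset.mul_sum, Finset.sum_mul, mul_smul_comm, smul_mul_assoc, e]
  · rw [← Matrix.mulVec_mulVec, ← Matrix.mulVec_mulVec, Y.R_Φ, Y.R_M, Y.R_M, Y.R_Φ, ← mul_assoc, h, mul_assoc]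

/-- The operator averaging the idempotent over its conjugates. -/
noncomputable def C : Matrix G G ℂ := ∑ g, pg g * Y.E * pg g⁻¹

theorem C_central (f : G → ℂ) : Y.C * rg f = rg f * Y.C := by
  rw [rg_eq_sum]
  simp only [Finset.mul_sum, Finset.sum_mul, mul_smul_comm, smul_mul_assoc]
  refine Finset.sum_congr rfl fun h _ => congrArg (f h • ·) ?_
  simp only [C, Finset.sum_mul, Finset.mul_sum]
  refine Fintype.sum_equiv (Equiv.mulLeft h⁻¹) _ _ fun g => ?_
  simp only [Equiv.coe_mulLeft, _root_.mul_inv_rev, inv_inv]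
  simp only [← mul_assoc, pg_mul, mul_inv_cancel_left]
  simp only [mul_assoc, pg_mul, mul_inv_cancel_left, _root_.mul_inv_rev, inv_inv]

/-- The projection of an irreducible character to the algebra. -/
noncomputable def Kc (χ : G → ℂ) : Matrix G G ℂ := Y.E * rg χ

/-- An irreducible character is a constituent of the permutation character. -/
def Con (χ : Cfsg.IrrCharacter G) : Prop :=
  Cfsg.classInner (Cfsg.fixedPointCharacter Y.P.B) (χ : G → ℂ) ≠ 0

theorem trace_Kc (χ : Cfsg.IrrCharacter G) : (Y.Kc (χ : G → ℂ)).trace =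
    (Nat.card G : ℂ) * Cfsg.classInner (Cfsg.fixedPointCharacter Y.P.B) (χ : G → ℂ) := by
  classical
  have hχ := Chars.irr_isCharacter χ
  have hcj : Cfsg.IsClassFunction G fun g => conj ((χ : G → ℂ) g) := fun g h => by
    simp only [Chars.isClassFunction_irr χ g h]
  have h1 := Cfsg.Agent.KnownA.Steinberg.sum_mul_fixed hcj Y.P.B
  rw [Kc, E, R_apply, rg_mul, Matrix.trace]
  simp only [Matrix.diag_apply, rg, Matrix.of_apply, mul_inv_cancel, Finset.sum_const, Finset.card_univ,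
    nsmul_eq_mul, cv, mul_one]
  rw [← Nat.card_eq_fintype_card, Cfsg.Agent.Chars.classInner_def]
  congr 1
  simp only [mul_comm (Cfsg.fixedPointCharacter Y.P.B _), h1, τ_one, Chars.char_inv_eq_conj hχ]
  rw [← Subgroup.card_mul_index Y.P.B, Nat.cast_mul, mul_inv, mul_assoc,
    inv_mul_cancel_left₀ (Nat.cast_ne_zero.mpr Subgroup.index_ne_zero_of_finite), Finset.mul_sum]
  simp only [Y.cl_eq_one_iff, ite_mul, zero_mul]
  rw [← Finset.sum_filter, Finset.sum_subtype (p := fun g => g ∈ Y.P.B) _ (fun g => by simp)]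

theorem irr_mul (χ ψ : Cfsg.IrrCharacter G) : Y.Kc (χ : G → ℂ) * Y.Kc (ψ : G → ℂ) =
    ((Nat.card G : ℂ) / (ψ : G → ℂ) 1 * Cfsg.classInner (χ : G → ℂ) (ψ : G → ℂ)) • Y.Kc (ψ : G → ℂ) := by
  have hc : rg (χ : G → ℂ) * Y.E = Y.E * rg (χ : G → ℂ) := class_commute (Chars.isClassFunction_irr χ) _
  have e : rg (χ : G → ℂ) * rg (ψ : G → ℂ) =
      ((Nat.card G : ℂ) / (ψ : G → ℂ) 1 * Cfsg.classInner (χ : G → ℂ) (ψ : G → ℂ)) • rg (ψ : G → ℂ) := by
    rw [rg_mul]
    ext x y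
    simp only [rg, Matrix.of_apply, Matrix.smul_apply, smul_eq_mul, cv]
    exact Chars.irr_conv χ.2 ψ.2 _
  rw [Kc, Kc, ← mul_assoc, mul_assoc Y.E _ Y.E, hc, ← mul_assoc, Y.E_E, mul_assoc, e, mul_smul_comm]

theorem Kc_eq_zero {χ : Cfsg.IrrCharacter G} (h : ¬ Y.Con χ) : Y.Kc (χ : G → ℂ) = 0 := by
  have hH : (Y.Kc (χ : G → ℂ))ᴴ = Y.Kc (χ : G → ℂ) := by
    rw [Kc, Matrix.conjTranspose_mul, Y.E_conjTranspose, rg_conjTranspose]
    have e : (fun g => conj ((χ : G → ℂ) g⁻¹)) = (χ : G → ℂ) := funext fun g => by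
      rw [Chars.char_inv_eq_conj (Chars.irr_isCharacter χ), Complex.conj_conj]
    rw [e]
    exact class_commute (Chars.isClassFunction_irr χ) _
  rw [← Matrix.trace_conjTranspose_mul_self_eq_zero_iff, hH, irr_mul, Matrix.trace_smul, trace_Kc,
    not_not.mp h]
  simp

theorem Kc_ne_zero {χ : Cfsg.IrrCharacter G} (h : Y.Con χ) : Y.Kc (χ : G → ℂ) ≠ 0 := fun h0 => by
  have e := Y.trace_Kc χ
  rw [h0, Matrix.trace_zero, eq_comm, mul_eq_zero] at e
  exact e.elim (Nat.cast_ne_zero.mpr Nat.card_pos.ne') h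

theorem Kc_mem_Z (χ : Cfsg.IrrCharacter G) :
    Y.Kc (χ : G → ℂ) ∈ (Z Y.words (Y.q : ℂ)).map Y.R := by
  have hc : ∀ h, rg (χ : G → ℂ) * rg h = rg h * rg (χ : G → ℂ) := class_commute (Chars.isClassFunction_irr χ)
  have hE : rg (χ : G → ℂ) * Y.E = Y.E * rg (χ : G → ℂ) := hc _
  obtain ⟨a, ha⟩ := Y.exists_R_sandwich (χ : G → ℂ)
  rw [mul_assoc, hE, ← mul_assoc, Y.E_E] at ha
  refine ⟨a, (Y.mem_Z_iff a).mpr fun b => ?_, ha⟩
  have hb : rg (χ : G → ℂ) * Y.R b = Y.R b * rg (χ : G → ℂ) := hc _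
  rw [ha, mul_assoc, hb, ← mul_assoc, Y.E_R, ← mul_assoc, Y.R_E]

/-- The constituents span the centre and are independent. -/
theorem card_constituents :
    Nat.card {χ : Cfsg.IrrCharacter G // Y.Con χ} = Module.finrank ℂ (Z Y.words (Y.q : ℂ)) := by
  classical
  let v : {χ : Cfsg.IrrCharacter G // Y.Con χ} → Matrix G G ℂ := fun χ => Y.Kc (χ.1 : G → ℂ)
  have hli : LinearIndependent ℂ v := by
    rw [linearIndependent_iff']
    intro s c hc χ hχ
    have h := congrArg (· * Y.Kc (χ.1 : G → ℂ)) hc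
    simp only [Finset.sum_mul, zero_mul, v, smul_mul_assoc, irr_mul] at h
    rw [Finset.sum_eq_single χ] at h
    · rw [Chars.classInner_self_irr χ.1.2, mul_one, smul_smul, smul_eq_zero, mul_eq_zero] at h
      rcases h with (h | h) | h
      · exact h
      · exact absurd h (div_ne_zero (Nat.cast_ne_zero.mpr Nat.card_pos.ne')
          (Chars.irr_apply_one_ne_zero χ.1.2))
      · exact absurd h (Y.Kc_ne_zero χ.2)
    · intro ψ _ hψ
      rw [Chars.classInner_irr_of_ne ψ.1.2 χ.1.2 (fun e => hψ (Subtype.ext (Subtype.ext e)))]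
      simp
    · exact fun h' => absurd hχ h'
  set S := Submodule.span ℂ (Set.range v)
  set T := (Z Y.words (Y.q : ℂ)).map Y.R
  have hST : S ≤ T := Submodule.span_le.mpr (Set.range_subset_iff.mpr fun χ => Y.Kc_mem_Z χ.1)
  have himg : ∀ X ∈ T, X * (Y.E * Y.C) ∈ S := by
    rintro _ ⟨a, ha, rfl⟩
    have hcomm := (Y.mem_Z_iff a).mp ha
    have hC : Y.E * Y.C = Y.C * Y.E := (Y.C_central _).symm
    have e1 : Y.R a * (Y.E * Y.C) = Y.E * ∑ g, pg g * Y.R a * pg g⁻¹ := by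
      have hsand : ∀ g, Y.E * pg g * Y.R a * pg g⁻¹ * Y.E = Y.R a * (pg g * Y.E * pg g⁻¹) * Y.E := by
        intro g
        obtain ⟨b, hb⟩ := Y.exists_R_sandwich (fun x => if x = g then (1 : ℂ) else 0)
        change Y.R b = Y.E * pg g * Y.E at hb
        have h1 := hcomm b
        rw [hb] at h1
        calc Y.E * pg g * Y.R a * pg g⁻¹ * Y.E = Y.E * pg g * (Y.E * Y.R a) * pg g⁻¹ * Y.E := by rw [Y.E_R]
          _ = (Y.E * pg g * Y.E * Y.R a) * pg g⁻¹ * Y.E := by simp only [mul_assoc]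
          _ = (Y.R a * Y.E) * pg g * Y.E * pg g⁻¹ * Y.E := by rw [← h1]; simp only [mul_assoc]
          _ = _ := by rw [Y.R_E]; simp only [mul_assoc]
      have hcen : (∑ g, pg g * Y.R a * pg g⁻¹) * Y.E = Y.E * ∑ g, pg g * Y.R a * pg g⁻¹ := by
        simp only [E, R_apply, pg_mul_mul_apply]
        rw [← rg_sum']
        exact class_commute (classSum _) _
      calc Y.R a * (Y.E * Y.C) = Y.R a * (Y.C * Y.E) := by rw [hC]
        _ = ∑ g, Y.R a * (pg g * Y.E * pg g⁻¹) * Y.E := by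
          simp only [C, Finset.sum_mul, Finset.mul_sum, mul_assoc]
        _ = (Y.E * ∑ g, pg g * Y.R a * pg g⁻¹) * Y.E := by
          rw [Finset.mul_sum, Finset.sum_mul]
          refine Finset.sum_congr rfl fun g _ => ?_
          rw [← hsand g]
          simp only [mul_assoc]
        _ = _ := by rw [mul_assoc, hcen, ← mul_assoc, Y.E_E]
    rw [e1]
    simp only [R_apply, pg_mul_mul_apply, ← rg_sum']
    rw [Chars.eq_sum_classInner (classSum (Y.τ a)), rg_sum', Finset.mul_sum]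
    refine Submodule.sum_mem _ fun χ _ => ?_
    rw [show rg (Cfsg.classInner _ (χ : G → ℂ) • (χ : G → ℂ)) =
        Cfsg.classInner _ (χ : G → ℂ) • rg (χ : G → ℂ) from rfl, mul_smul_comm]
    refine Submodule.smul_mem _ _ ?_
    by_cases hχ : Y.Con χ
    · exact Submodule.subset_span ⟨⟨χ, hχ⟩, rfl⟩
    · rw [show Y.E * rg (χ : G → ℂ) = 0 from Y.Kc_eq_zero hχ]; exact S.zero_mem
  let f : T →ₗ[ℂ] S :=
    { toFun := fun X => ⟨X.1 * (Y.E * Y.C), himg _ X.2⟩
      map_add' := fun X X' => Subtype.ext (add_mul _ _ _)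
      map_smul' := fun c X => Subtype.ext (smul_mul_assoc _ _ _) }
  have hf : Function.Injective f := by
    rw [injective_iff_map_eq_zero]
    rintro ⟨_, a, ha, rfl⟩ h
    replace h : Y.R a * (Y.E * Y.C) = 0 := congrArg Subtype.val h
    rw [← mul_assoc, Y.R_E, C, Finset.mul_sum] at h
    have h2 := congrArg (fun A => (A * (Y.R a)ᴴ).trace) h
    simp only [Finset.sum_mul, Matrix.trace_sum, zero_mul, Matrix.trace_zero] at h2
    have e : ∀ g, Y.R a * (pg g * Y.E * pg g⁻¹) * (Y.R a)ᴴ =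
        (Y.R a * pg g * Y.E) * (Y.R a * pg g * Y.E)ᴴ := by
      intro g
      simp only [Matrix.conjTranspose_mul, Y.E_conjTranspose, pg_conjTranspose, mul_assoc]
      rw [← mul_assoc Y.E Y.E, Y.E_E]
    simp only [e] at h2
    have h3 := Finset.sum_eq_zero_iff_of_nonneg (fun g _ =>
      (Matrix.posSemidef_self_mul_conjTranspose (Y.R a * pg g * Y.E)).trace_nonneg) |>.mp h2 1 (Finset.mem_univ _)
    rw [Matrix.trace_mul_conjTranspose_self_eq_zero_iff, pg_one, mul_one, Y.R_E] at h3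
    exact Subtype.ext h3
  have h1 : Module.finrank ℂ S = Nat.card {χ : Cfsg.IrrCharacter G // Y.Con χ} := by
    rw [finrank_span_eq_card hli, Nat.card_eq_fintype_card]
  have h2 : Module.finrank ℂ T = Module.finrank ℂ (Z Y.words (Y.q : ℂ)) :=
    (Submodule.equivMapOfInjective Y.R Y.R_injective _).finrank_eq.symm
  rw [← h1, ← h2]
  exact le_antisymm (Submodule.finrank_mono hST) (LinearMap.finrank_le_finrank_of_injective hf)
where
  rg_sum' {κ : Type _} [Fintype κ] (h : κ → G → ℂ) : rg (∑ g, h g) = ∑ g, rg (h g) := by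
    ext x y; simp [rg, Matrix.sum_apply]
  classSum (h : G → ℂ) : Cfsg.IsClassFunction G (∑ g : G, fun x => h (g⁻¹ * x * g)) := by
    intro x y
    simp only [Finset.sum_apply]
    refine Fintype.sum_equiv (Equiv.mulLeft y⁻¹) _ _ fun g => ?_
    simp [mul_assoc]

end Sys

end Cfsg.Agent.LeadWork.Hecke
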