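/-
The number of constituents of the permutation character on the cosets of `B` of a tabulated Chevalley group is
the class number of the Weyl group.
-/
import Cfsg.Agent.LeadWork.HeckeGroup
import Cfsg.Agent.KnownA.Steinberg.Chev
import Cfsg.Agent.Chev.Orders
import Mathlib.FieldTheory.Finite.GaloisField
import Mathlib.GroupTheory.Coxeter.Length

set_option autoImplicit false

universe u

namespace Cfsg.Agent.LeadWork.HeckeChev

open Cfsg.Lie Cfsg.Agent.Chev Cfsg.Agent.Suzuki.BN Cfsg.Agent.KnownA.Steinberg Cfsg.Agent.LeadWork.Hecke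

variable {D : ChevalleyDatum} {F : Type u} [Field F] (C : Cert.{u} D)
include C

theorem nu_simple_decomp {i : ℕ} (hi : i < D.rank) {g : GL D.Idx F}
    (hg : InCell D F (C.nu (D.simple i) 1) g) :
    ∃ b ∈ D.borelSubgroup F, ∃ t : F, g = b * C.nu (D.simple i) 1 * C.xu (D.simple i) t := by
  set p := D.simple i
  set s := C.nu p (1 : F) with hs
  obtain ⟨x, hx, y, hy, rfl⟩ := hg
  obtain ⟨u, hu, h, hh, rfl⟩ := C.mem_borel.mp hy
  obtain ⟨a, ha, t, rfl⟩ := C.exists_except_mul hi hu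
  obtain ⟨c, hc, ec⟩ := C.diagonal_conj_xu (inv_mem hh) (C.simple_lt i hi)
  rw [inv_inv] at ec
  have ha' : s * a * s⁻¹ ∈ D.borelSubgroup F :=
    C.pos_le_borel (C.span_mono (fun r hr => hr.1)
      ((Subgroup.mem_normalizer_iff.mp (C.nu_normalises_except hi) a).mp ha))
  have hh' : s * h * s⁻¹ ∈ D.borelSubgroup F :=
    C.diagonal_le_borel (C.monomial_conj_diagonal (C.nu_mem_monomial hi) hh)
  refine ⟨x * (s * a * s⁻¹) * (s * h * s⁻¹), mul_mem (mul_mem hx ha') hh', c * t, ?_⟩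
  rw [← ec]
  group

theorem natCard_cell [Fintype F] {i : ℕ} (hi : i < D.rank) {P : Cfsg.BNPair ↥(D.group F)}
    (hB : P.B = (D.borelSubgroup F).subgroupOf (D.group F)) {n : ↥(D.group F)}
    (hn : (n : GL D.Idx F) = C.nu (D.simple i) 1) :
    Nat.card ↥(dc P n) = Fintype.card F * Nat.card ↥P.B := by
  have hp := C.simple_lt i hi
  have hxB : ∀ t : F, C.xu (D.simple i) t ∈ D.borelSubgroup F := fun t =>
    C.pos_le_borel (C.xu_mem_pos (C.pos_simple hi) t)
  let f : ↥P.B × F → ↥(dc P n) := fun z => ⟨z.1 * n * ⟨C.xu (D.simple i) z.2, C.xu_mem_group _ _⟩,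
    mem_dc.mpr ⟨_, z.1.2, _, (SetLike.ext_iff.mp hB _).mpr (hxB z.2), rfl⟩⟩
  have hf : Function.Bijective f := by
    refine ⟨?_, ?_⟩
    · rintro ⟨⟨b, hb⟩, t⟩ ⟨⟨b', hb'⟩, t'⟩ e
      have e1 := congrArg (fun z : ↥(dc P n) => ((z : ↥(D.group F)) : GL D.Idx F)) e
      simp only [f, Subgroup.coe_mul, hn] at e1
      have hb1 : ((b'⁻¹ * b : ↥(D.group F)) : GL D.Idx F) ∈ D.borelSubgroup F := by
        have := mul_mem (inv_mem hb') hb
        rwa [hB] at this
      set s := C.nu (D.simple i) (1 : F) with hs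
      have e2 : s * (C.xu (D.simple i) t' * (C.xu (D.simple i) t)⁻¹) * s⁻¹ ∈ D.borelSubgroup F := by
        have h3 : s * (C.xu (D.simple i) t' * (C.xu (D.simple i) t)⁻¹) * s⁻¹ =
            (b' : GL D.Idx F)⁻¹ * b := by
          calc s * (C.xu (D.simple i) t' * (C.xu (D.simple i) t)⁻¹) * s⁻¹
              = (b' : GL D.Idx F)⁻¹ * ((b' : GL D.Idx F) * s * C.xu (D.simple i) t') *
                  (C.xu (D.simple i) t)⁻¹ * s⁻¹ := by group
            _ = _ := by rw [← e1]; group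
        rw [h3]
        simpa using hb1
      rw [C.xu_inv, C.xu_add] at e2
      rw [C.nu_simple_xu hi, mul_inv_cancel_right] at e2
      have h3 : C.xu (D.neg (D.simple i)) (-(t' + -t)) ∈ (⊥ : Subgroup (GL D.Idx F)) := by
        rw [← C.borel_inf_neg]
        exact Subgroup.mem_inf.mpr ⟨e2, C.xu_mem_neg (C.negRoot_neg (C.pos_simple hi)) _⟩
      have ht := C.xu_eq_one (C.neg_lt _ hp) (Subgroup.mem_bot.mp h3)
      have htt : t = t' := by linear_combination ht
      subst htt
      have hbb : (b : GL D.Idx F) = b' := mul_right_cancel (mul_right_cancel e1)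
      rw [Prod.mk.injEq]
      exact ⟨Subtype.ext (Subtype.ext hbb), rfl⟩
    · rintro ⟨g, hg⟩
      obtain ⟨x, hx, y, hy, rfl⟩ := mem_dc.mp hg
      rw [hB] at hx hy
      obtain ⟨b, hb, t, e⟩ := nu_simple_decomp C hi (F := F) (g := ((x * n * y : ↥(D.group F)) : GL D.Idx F))
        ⟨_, hx, _, hy, by simp [hn]⟩
      exact ⟨(⟨⟨b, C.borel_le_group hb⟩, by rw [hB]; exact hb⟩, t),
        Subtype.ext (Subtype.ext (by simp only [f, Subgroup.coe_mul, hn] at e ⊢; exact e.symm))⟩
  rw [← Nat.card_congr (Equiv.ofBijective f hf), Nat.card_prod, mul_comm, Nat.card_eq_fintype_card (α := F)]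

theorem exists_sys [Fintype F] {M : CoxeterMatrix (Fin D.rank)} (hM : CoxOK D M) :
    ∃ Y : Sys ↥(D.group F) M.Group (Fin D.rank), Y.q = Fintype.card F ∧ (∀ i, Y.gen i = M.simple i) ∧
      Y.P.B = (D.borelSubgroup F).subgroupOf (D.group F) := by
  obtain ⟨P, hB, hN, hS⟩ := C.exists_bnPair (F := F) hM
  obtain ⟨φ, hsurj, hker, hgen⟩ := C.exists_weylHom (F := F) hM
  let ψ : ↥P.N →* ↥(D.monomialSubgroup F) :=
    { toFun := fun n => ⟨(n : ↥(D.group F)), (SetLike.ext_iff.mp hN _).mp n.2⟩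
      map_one' := rfl
      map_mul' := fun _ _ => rfl }
  have hψ : Function.Surjective ψ := fun n =>
    ⟨⟨⟨n, C.monomial_le_group n.2⟩, (SetLike.ext_iff.mp hN _).mpr n.2⟩, rfl⟩
  refine ⟨⟨P, node C, (hS.trans (range_node C).symm).symm, φ.comp ψ, hsurj.comp hψ, fun n m => ?_,
    Fintype.card F, Fintype.card_pos, fun i => natCard_cell C i.isLt hB rfl⟩, rfl, fun i => ?_, hB⟩
  · rw [MonoidHom.comp_apply, MonoidHom.comp_apply, ← inv_mul_eq_one, ← map_inv, ← map_mul, ← MonoidHom.mem_ker,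
      hker, Subgroup.mem_subgroupOf, ← C.borel_inf_monomial hM, Subgroup.mem_inf, Sim]
    conv_rhs => rw [hB, Subgroup.mem_subgroupOf]
    exact ⟨fun h => h.1, fun h => ⟨h, SetLike.coe_mem _⟩⟩
  · exact hgen i _ (C.coe_nu _ _)

omit C

/-- Shortest words in a Coxeter group. -/
noncomputable def coxWords {n : ℕ} (M : CoxeterMatrix (Fin n)) : Words M.Group (Fin n) where
  s := M.toCoxeterSystem.simple
  s_sq := M.toCoxeterSystem.simple_mul_simple_self
  len := M.toCoxeterSystem.length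
  len_one := M.toCoxeterSystem.length_one
  len_le i w := by
    have := M.toCoxeterSystem.length_mul_le (M.toCoxeterSystem.simple i) w
    rw [M.toCoxeterSystem.length_simple] at this
    omega
  word w := (M.toCoxeterSystem.exists_isReduced w).choose
  word_prod w := (M.toCoxeterSystem.exists_isReduced w).choose_spec.2.symm
  word_length w := by
    have h := (M.toCoxeterSystem.exists_isReduced w).choose_spec
    exact h.1.symm.trans (congrArg _ h.2.symm)

theorem lenW_eq {G : Type u} [Group G] {n : ℕ} {M : CoxeterMatrix (Fin n)} [Fintype M.Group]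
    [DecidableEq M.Group] (Y : Sys G M.Group (Fin n))
    (hg : ∀ i, Y.gen i = M.simple i) (w : M.Group) : (coxWords M).len w = Y.lenW w := by
  have hg' : Y.gen = (coxWords M).s := funext fun i => by
    rw [hg]; exact (congrFun (CoxeterMatrix.toCoxeterSystem_simple M) i).symm
  refine le_antisymm ?_ ?_
  · obtain ⟨l, hl, hll⟩ := Y.exists_word w
    rw [← hll, ← hl, hg']
    exact len_prod_le (coxWords M) l
  · have h := len_prod_le Y.words ((coxWords M).word w)
    rw [show Y.words.s = (coxWords M).s from hg', (coxWords M).word_prod, (coxWords M).word_length] at h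
    exact h

theorem sys_facts {G : Type u} [Group G] [Fintype G] {n : ℕ} {M : CoxeterMatrix (Fin n)} [Fintype M.Group]
    [DecidableEq M.Group] (Y : Sys G M.Group (Fin n)) (hg : ∀ i, Y.gen i = M.simple i) :
    Closed (coxWords M) (Y.q : ℂ) ∧ (gram (coxWords M) (Y.q : ℂ)).det ≠ 0 ∧
      Nat.card {χ : Cfsg.IrrCharacter G // Y.Con χ} = Module.finrank ℂ (Z (coxWords M) (Y.q : ℂ)) := by
  classical
  have hM := Y.M_congr (coxWords M) (fun i => by rw [hg]; exact (congrFun (CoxeterMatrix.toCoxeterSystem_simple M) i))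
    (lenW_eq Y hg)
  have hΦ : ∀ a, Φ (coxWords M) (Y.q : ℂ) a = Φ Y.words (Y.q : ℂ) a := fun a => by simp [Φ, hM]
  refine ⟨fun v w => ?_, ?_, ?_⟩
  · simp only [hM, hΦ]
    exact Y.closed v w
  · rw [show gram (coxWords M) (Y.q : ℂ) = gram Y.words (Y.q : ℂ) by ext v w; simp [gram, hM]]
    exact Y.gram_det
  · rw [Y.card_constituents, show Z (coxWords M) (Y.q : ℂ) = Z Y.words (Y.q : ℂ) from
      Submodule.ext fun a => by simp only [Z, Submodule.mem_mk, AddSubmonoid.mem_mk, AddSubsemigroup.mem_mk,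
        hΦ, hM]]

theorem constituent_iff {G : Type u} [Group G] [Fintype G] (H : Subgroup G) (χ : Cfsg.IrrCharacter G) :
    (∃ φ : G → ℂ, Cfsg.IsCharacter G φ ∧ Cfsg.fixedPointCharacter H = (χ : G → ℂ) + φ) ↔
      Cfsg.classInner (Cfsg.fixedPointCharacter H) (χ : G → ℂ) ≠ 0 := by
  classical
  have hπ := Cfsg.Agent.Linear.Unipotent.isCharacter_fixedPointCharacter H
  obtain ⟨m, hm, -⟩ := Chars.exists_eq_sum_nsmul hπ
  constructor
  · rintro ⟨φ, hφ, e⟩
    obtain ⟨k, hk⟩ := Chars.exists_classInner_eq_nat hφ (Chars.irr_isCharacter χ)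
    rw [e, Chars.classInner_add_left, Chars.classInner_self_irr χ.2, hk]
    norm_cast
    omega
  · intro h
    refine ⟨Cfsg.fixedPointCharacter H - (χ : G → ℂ), ?_, (add_sub_cancel _ _).symm⟩
    refine Chars.isCharacter_of_classInner_nat (Chars.isClassFunction_sub
      (Chars.isClassFunction_of_isCharacter hπ) (Chars.isClassFunction_irr χ)) fun ψ hψ => ?_
    rw [Chars.classInner_sub_left, hm ⟨ψ, hψ⟩, Chars.classInner_irr χ.2 hψ]
    split_ifs with hc
    · refine ⟨m ⟨ψ, hψ⟩ - 1, ?_⟩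
      have he : χ = ⟨ψ, hψ⟩ := Subtype.ext hc
      have h1 : m ⟨ψ, hψ⟩ ≠ 0 := by
        intro h0
        exact h (by rw [he, hm, h0, Nat.cast_zero])
      rw [Nat.cast_sub (Nat.one_le_iff_ne_zero.mpr h1), Nat.cast_one]
    · exact ⟨m ⟨ψ, hψ⟩, by rw [sub_zero]⟩

theorem card_constituents {F : Type u} [Field F] [Fintype F] {D : ChevalleyDatum}
    (C : Cert.{u} D) (C0 : Cert.{0} D) {M : CoxeterMatrix (Fin D.rank)} (hM : CoxOK D M) :
    Nat.card {χ : Cfsg.IrrCharacter ↥(D.group F) //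
      ∃ φ : ↥(D.group F) → ℂ, Cfsg.IsCharacter ↥(D.group F) φ ∧
        Cfsg.fixedPointCharacter ((D.borelSubgroup F).subgroupOf (D.group F)) = (χ : ↥(D.group F) → ℂ) + φ} =
      Nat.card (ConjClasses M.Group) := by
  classical
  obtain ⟨Y, hq, hg, hB⟩ := exists_sys C (F := F) hM
  haveI : Finite M.Group := Finite.of_surjective _ Y.proj_surj
  haveI := Fintype.ofFinite M.Group
  haveI := Fintype.ofFinite ↥(D.group F)
  obtain ⟨h1, h2, h3⟩ := sys_facts Y hg
  have hQ : (Set.range fun k : ℕ => ((2 ^ (k + 1) : ℕ) : ℂ)).Infinite := by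
    refine Set.infinite_range_of_injective fun a b e => ?_
    have := Nat.pow_right_injective (le_refl 2) (Nat.cast_injective e)
    omega
  rw [← finrank_Z_eq (coxWords M) hQ ?_ h1 h2, ← h3]
  · refine Nat.card_congr (Equiv.subtypeEquivRight fun χ => ?_)
    rw [Sys.Con, hB]
    exact constituent_iff _ χ
  · rintro _ ⟨k, rfl⟩
    haveI : Fact (Nat.Prime 2) := ⟨Nat.prime_two⟩
    haveI := Fintype.ofFinite (GaloisField 2 (k + 1))
    obtain ⟨Y', hq', hg', -⟩ := exists_sys C0 (F := GaloisField 2 (k + 1)) hM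
    haveI := Fintype.ofFinite ↥(D.group (GaloisField 2 (k + 1)))
    have h := (sys_facts Y' hg').1
    rwa [hq', ← Nat.card_eq_fintype_card, GaloisField.card 2 (k + 1) k.succ_ne_zero] at h

end Cfsg.Agent.LeadWork.HeckeChev
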