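/-
Automorphisms of the large Ree groups normalising two opposite unipotent subgroups preserve the root groups.
-/
import Cfsg.Agent.LeadWork.ReeOutBase

set_option autoImplicit false
set_option maxRecDepth 100000

universe u

namespace Cfsg.Agent.LeadWork.ReeOut

open Cfsg.Lie Cfsg.Agent.Chev Cfsg.Agent.Chev.Ree4

variable {K : Type u} [Field K] {m : ℕ}

open Classical in
/-- An automorphism read on matrices. -/
noncomputable def ap (θ : MulAut ↥(tw K m)) (g : GL chevF4.Idx K) : GL chevF4.Idx K :=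
  if hg : g ∈ tw K m then (θ ⟨g, hg⟩ : GL chevF4.Idx K) else 1

theorem ap_eq (θ : MulAut ↥(tw K m)) {g : GL chevF4.Idx K} (hg : g ∈ tw K m) :
    ap θ g = (θ ⟨g, hg⟩ : GL chevF4.Idx K) := dif_pos hg

theorem ap_mem (θ : MulAut ↥(tw K m)) (g : GL chevF4.Idx K) : ap θ g ∈ tw K m := by
  unfold ap; split
  · exact (θ _).2
  · exact one_mem _

theorem ap_mul (θ : MulAut ↥(tw K m)) {g g' : GL chevF4.Idx K} (hg : g ∈ tw K m) (hg' : g' ∈ tw K m) :
    ap θ (g * g') = ap θ g * ap θ g' := by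
  rw [ap_eq θ (mul_mem hg hg'), ap_eq θ hg, ap_eq θ hg']
  exact congrArg Subtype.val (map_mul θ ⟨g, hg⟩ ⟨g', hg'⟩)

theorem ap_inv (θ : MulAut ↥(tw K m)) {g : GL chevF4.Idx K} (hg : g ∈ tw K m) : ap θ g⁻¹ = (ap θ g)⁻¹ := by
  rw [ap_eq θ (inv_mem hg), ap_eq θ hg]
  exact congrArg Subtype.val (map_inv θ ⟨g, hg⟩)

theorem ap_one (θ : MulAut ↥(tw K m)) : ap θ (1 : GL chevF4.Idx K) = 1 := by
  rw [ap_eq θ (one_mem _)]
  exact congrArg Subtype.val (map_one θ)

theorem ap_ap (θ ψ : MulAut ↥(tw K m)) {g : GL chevF4.Idx K} (hg : g ∈ tw K m) :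
    ap θ (ap ψ g) = ap (θ * ψ) g := by
  rw [ap_eq ψ hg, ap_eq θ (ψ ⟨g, hg⟩).2, ap_eq (θ * ψ) hg]
  rfl

theorem ap_id {g : GL chevF4.Idx K} (hg : g ∈ tw K m) : ap (1 : MulAut ↥(tw K m)) g = g := by
  rw [ap_eq _ hg]; rfl

theorem ap_symm (θ : MulAut ↥(tw K m)) {g : GL chevF4.Idx K} (hg : g ∈ tw K m) : ap θ⁻¹ (ap θ g) = g := by
  rw [ap_ap _ _ hg, inv_mul_cancel, ap_id hg]

theorem ap_symm' (θ : MulAut ↥(tw K m)) {g : GL chevF4.Idx K} (hg : g ∈ tw K m) : ap θ (ap θ⁻¹ g) = g := by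
  rw [ap_ap _ _ hg, mul_inv_cancel, ap_id hg]

theorem ap_inner (w : ↥(tw K m)) {g : GL chevF4.Idx K} (hg : g ∈ tw K m) :
    ap (MulAut.conj w) g = (w : GL chevF4.Idx K) * g * (w : GL chevF4.Idx K)⁻¹ := by
  rw [ap_eq _ hg]
  simp

/-- The automorphism preserves a subgroup. -/
def Stable (θ : MulAut ↥(tw K m)) (A : Subgroup (GL chevF4.Idx K)) : Prop :=
  ∀ g ∈ tw K m, (ap θ g ∈ A ↔ g ∈ A)

theorem stable_of (θ : MulAut ↥(tw K m)) {A : Subgroup (GL chevF4.Idx K)} (hA : A ≤ tw K m)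
    (h1 : ∀ g ∈ A, ap θ g ∈ A) [Finite K] : Stable θ A := by
  classical
  intro g hg
  refine ⟨fun h => ?_, h1 g⟩
  let f : ↥A → ↥A := fun a => ⟨ap θ a, h1 _ a.2⟩
  have hf : Function.Injective f := fun a a' e => Subtype.ext (by
    rw [← ap_symm θ (hA a.2), ← ap_symm θ (hA a'.2), show ap θ (a : GL chevF4.Idx K) = ap θ (a' : GL chevF4.Idx K) from congrArg Subtype.val e])
  obtain ⟨a, ha⟩ := (Finite.injective_iff_surjective.mp hf) ⟨_, h⟩
  have e : ap θ (a : GL chevF4.Idx K) = ap θ g := congrArg Subtype.val ha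
  have := congrArg (ap θ⁻¹) e
  rw [ap_symm θ (hA a.2), ap_symm θ hg] at this
  exact this ▸ a.2

theorem Stable.inf {θ : MulAut ↥(tw K m)} {A B : Subgroup (GL chevF4.Idx K)} (hA : Stable θ A) (hB : Stable θ B) :
    Stable θ (A ⊓ B) := fun g hg => by rw [Subgroup.mem_inf, Subgroup.mem_inf, hA g hg, hB g hg]

variable (h : Ctx K m)
include h

theorem bE_zero_one_ne : bE m 27 25 28 30 (0 : K) 1 ≠ 1 := by
  have := h.char
  intro e
  have h3 : bE m 27 25 28 30 (0 : K) 1 = cF.xu 28 1 * cF.xu 30 1 := by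
    simp [bE, Cert.xu_zero, zero_pow]
  rw [h3] at e
  have hd := congrArg (fun g => g * cF.xu 30 1) e
  simp only [mul_assoc, cF.xu_add, CharTwo.add_self_eq_zero, Cert.xu_zero, mul_one, one_mul] at hd
  obtain ⟨e1, -⟩ := coord_unique (K := K) (Q := {30}) (r := 28) (p := 1) (p' := cF.xu 30 1) (t := 1) (t' := 0)
    (by unfold ChevalleyDatum.IsPosRoot; decide +kernel)
    (closedSet_few {30} (by decide +kernel) (by decide +kernel)) (by simp) (one_mem _)
    ((cF.{u}).xu_mem_span (P := fun s => s ∈ ({30} : Finset ℕ)) (by simp) 1)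
    (by rw [one_mul, Cert.xu_zero, mul_one]; exact hd)
  exact one_ne_zero (cF.{u}.xu_eq_one (by decide : 30 < chevF4.nroots) e1.symm)

theorem pE_zero : pE m 33 24 (0 : K) = 1 := by
  simp [pE, zero_pow, Cert.xu_zero]

theorem pE_eq_one {t : K} (e : pE m 33 24 t = 1) : t = 0 := by
  have := h.char
  have := h.finite
  by_contra ht
  obtain ⟨x, hx⟩ : ∃ x : K, x ^ 2 = t⁻¹ :=
    (Finite.injective_iff_surjective.mp fun a b (hab : a ^ 2 = b ^ 2) => CharTwo.sq_injective hab) t⁻¹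
  have hx0 : x ≠ 0 := fun h0 => by rw [h0, zero_pow two_ne_zero] at hx; exact inv_ne_zero ht hx.symm
  have h1 := tHom_conj_pE m (Units.mk0 x hx0) t
  rw [e, mul_one, mul_inv_cancel, Units.val_mk0, hx, inv_mul_cancel₀ ht] at h1
  exact (base_ne_one h).1 h1.symm

theorem pE_inj {t s : K} (e : pE m 33 24 t = pE m 33 24 s) : t = s := by
  have := h.char
  have h1 : pE m 33 24 (t + s) = 1 := by
    rw [← pE_add h, e, pE_add h, CharTwo.add_self_eq_zero, pE_zero h]
  exact CharTwo.add_eq_zero.mp (pE_eq_one h h1)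

theorem bE_eq_one {t u : K} (e : bE m 27 25 28 30 t u = 1) : t = 0 ∧ u = 0 := by
  have := h.char
  have key : ∀ v : K, bE m 27 25 28 30 0 v = 1 → v = 0 := by
    intro v hv
    by_contra hv0
    have h1 := tHom_conj_bE h (Units.mk0 v⁻¹ (inv_ne_zero hv0)) (0 : K) v
    rw [hv, mul_one, mul_inv_cancel, mul_zero, Units.val_mk0, inv_mul_cancel₀ hv0] at h1
    exact bE_zero_one_ne h h1.symm
  have h2 := bE_mul h t t u u
  rw [e, one_mul, CharTwo.add_self_eq_zero, add_assoc, CharTwo.add_self_eq_zero, add_zero] at h2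
  have h3 := key _ h2.symm
  rw [← pow_succ] at h3
  obtain rfl := eq_zero_of_pow_eq_zero h3
  exact ⟨rfl, key u e⟩

theorem bE_inj {t u s v : K} (e : bE m 27 25 28 30 t u = bE m 27 25 28 30 s v) : t = s ∧ u = v := by
  have := h.char
  have h1 : bE m 27 25 28 30 s v * bE m 27 25 28 30 s (s ^ 2 ^ m * s + v) = 1 := by
    rw [bE_mul h, CharTwo.add_self_eq_zero, show s ^ 2 ^ m * s + v + (s ^ 2 ^ m * s + v) = 0 from
      CharTwo.add_self_eq_zero _, bE_zero]
  have h2 := h1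
  rw [← e, bE_mul h] at h2
  obtain ⟨e1, e2⟩ := bE_eq_one h h2
  obtain rfl := CharTwo.add_eq_zero.mp e1
  rw [show t ^ 2 ^ m * t + u + (t ^ 2 ^ m * t + v) = (t ^ 2 ^ m * t + t ^ 2 ^ m * t) + (u + v) by ring,
    CharTwo.add_self_eq_zero, zero_add] at e2
  exact ⟨rfl, CharTwo.add_eq_zero.mp e2⟩

theorem pE_mem_xg (t : K) : pE m 33 24 t ∈ Xg K m 1 := by
  have := h.char
  have hi : ∀ r ∈ [33, 24], posT tabF4 r = true ∧ posT tabF4 (actT tabF4 (wdF 1) r) = false := by decide +kernel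
  refine Subgroup.mem_inf.mpr ⟨?_, pE_pos_mem m t⟩
  exact mul_mem (cF.{u}.xu_mem_span (P := Inverts chevF4 K (nk K 1)) ((inverts_nk 1).mpr ⟨by norm_num, hi 33 (by decide)⟩) _)
    (cF.{u}.xu_mem_span (P := Inverts chevF4 K (nk K 1)) ((inverts_nk 1).mpr ⟨by norm_num, hi 24 (by decide)⟩) _)

theorem bE_mem_xg (t u : K) : bE m 27 25 28 30 t u ∈ Xg K m 2 := by
  have := h.char
  have hi : ∀ r ∈ [27, 25, 28, 30], posT tabF4 r = true ∧ posT tabF4 (actT tabF4 (wdF 2) r) = false := by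
    decide +kernel
  have hx : ∀ r ∈ [27, 25, 28, 30], ∀ s : K, cF.xu r s ∈ spanGroup chevF4 K (Inverts chevF4 K (nk K 2)) :=
    fun r hr s => cF.{u}.xu_mem_span (P := Inverts chevF4 K (nk K 2))
      ((inverts_nk 2).mpr ⟨(by decide : ∀ r ∈ [27, 25, 28, 30], r < 48) r hr, hi r hr⟩) s
  exact Subgroup.mem_inf.mpr ⟨mul_mem (mul_mem (mul_mem (hx 27 (by decide) _) (hx 25 (by decide) _))
    (hx 28 (by decide) _)) (hx 30 (by decide) _), bE_pos_mem m t u⟩

theorem mem_xg_one {x : GL chevF4.Idx K} (hx : x ∈ Xg K m 1) : ∃ t, x = pE m 33 24 t := by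
  have := h.finite
  let f : K → ↥(Xg K m 1) := fun t => ⟨_, pE_mem_xg h t⟩
  have hf : Function.Injective f := fun t s e => pE_inj h (congrArg Subtype.val e)
  have hb := (Nat.bijective_iff_injective_and_card f).mpr ⟨hf, by
    rw [card_xg h (by norm_num), h.card]; simp [depF]⟩
  obtain ⟨t, ht⟩ := hb.2 ⟨x, hx⟩
  exact ⟨t, (congrArg Subtype.val ht).symm⟩

theorem mem_xg_two {x : GL chevF4.Idx K} (hx : x ∈ Xg K m 2) : ∃ t u, x = bE m 27 25 28 30 t u := by
  have := h.finite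
  let f : K × K → ↥(Xg K m 2) := fun p => ⟨_, bE_mem_xg h p.1 p.2⟩
  have hf : Function.Injective f := fun p p' e => by
    obtain ⟨e1, e2⟩ := bE_inj h (congrArg Subtype.val e)
    exact Prod.ext e1 e2
  have hb := (Nat.bijective_iff_injective_and_card f).mpr ⟨hf, by
    rw [card_xg h (by norm_num), Nat.card_prod, h.card]; simp [depF, sq]⟩
  obtain ⟨p, hp⟩ := hb.2 ⟨x, hx⟩
  exact ⟨p.1, p.2, (congrArg Subtype.val hp).symm⟩

theorem longest_conj {j : ℕ} (hj : j < 2) {x : GL chevF4.Idx K} (hx : x ∈ Xg K m (j + 1)) :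
    nk K 15 * x * (nk K 15)⁻¹ = nk K (j + 1) * x * (nk K (j + 1))⁻¹ := by
  have := h.char
  have hact : ∀ r ∈ [33, 24], act chevF4 (wdF 15) r = act chevF4 (wdF 1) r := by decide +kernel
  have hact2 : ∀ r ∈ [27, 25, 28, 30], act chevF4 (wdF 15) r = act chevF4 (wdF 2) r := by decide +kernel
  have key : ∀ k r, r < 48 → act chevF4 (wdF 15) r = act chevF4 (wdF k) r → ∀ s : K,
      nk K 15 * cF.xu r s * (nk K 15)⁻¹ = nk K k * cF.xu r s * (nk K k)⁻¹ := fun k r hr e s => by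
    rw [show nk K 15 = cF.nWordElt K (wdF 15) from rfl, show nk K k = cF.nWordElt K (wdF k) from rfl,
      cF.{u}.conj_xu_two (nk_lt _) hr, cF.{u}.conj_xu_two (nk_lt _) hr, e]
  interval_cases j
  · obtain ⟨t, rfl⟩ := mem_xg_one h hx
    simp only [pE, ← conj_mul, key 1 33 (by norm_num) (hact 33 (by decide)),
      key 1 24 (by norm_num) (hact 24 (by decide))]
  · obtain ⟨t, u, rfl⟩ := mem_xg_two h hx
    simp only [bE, ← conj_mul, key 2 27 (by norm_num) (hact2 27 (by decide)),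
      key 2 25 (by norm_num) (hact2 25 (by decide)), key 2 28 (by norm_num) (hact2 28 (by decide)),
      key 2 30 (by norm_num) (hact2 30 (by decide))]

theorem neg_root_group {j : ℕ} (hj : j < 2) :
    Vt K m ⊓ par h j hj = cj (nk K 15) (Xg K m (j + 1)) := by
  have e : cj (nk K (j + 1)) (Xg K m (j + 1)) = cj (nk K 15) (Xg K m (j + 1)) := by
    refine le_antisymm ?_ ?_
    · rintro _ ⟨x, hx, rfl⟩
      exact ⟨x, hx, longest_conj h hj hx⟩
    · rintro _ ⟨x, hx, rfl⟩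
      exact ⟨x, hx, (longest_conj h hj hx).symm⟩
  rw [vt_inf_par h hj (e ▸ Subgroup.map_mono (xg_le_ut m (j + 1))), e]

variable {θ : MulAut ↥(tw K m)} (hU : Stable θ (Ut K m)) (hV : Stable θ (Vt K m))
include hU

theorem stable_bt : Stable θ (Bt K m) := by
  have key : ∀ ψ : MulAut ↥(tw K m), Stable ψ (Ut K m) → ∀ g ∈ Bt K m, ap ψ g ∈ Bt K m := by
    intro ψ hψ g hg
    refine normaliser_ut h (ap_mem _ _) fun x hx => ?_
    have hx' : ap ψ⁻¹ x ∈ Ut K m := by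
      rw [← hψ _ (ap_mem _ _), ap_symm' ψ hx.2]; exact hx
    have := (hψ _ (mul_mem (mul_mem hg.2 hx'.2) (inv_mem hg.2))).mpr (conj_mem_ut hg hx')
    rwa [ap_mul ψ (mul_mem hg.2 hx'.2) (inv_mem hg.2), ap_mul ψ hg.2 hx'.2, ap_inv ψ hg.2, ap_symm' ψ hx.2] at this
  have := h.finite
  exact stable_of θ inf_le_right (key θ hU)

theorem nk_cell {j : ℕ} (hj : j < 2) : Cell m (j + 1) (ap θ (nk K (j + 1))) := by
  have := h.char
  have := h.finite
  have hB := stable_bt h hU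
  have hn := nk_mem (K := K) m (j + 1)
  obtain ⟨k, hk, hc⟩ := cell_split h (ap_mem θ (nk K (j + 1)))
  suffices e : k = j + 1 by exact e ▸ hc
  have hmap : ∀ g ∈ tw K m, Cell m (j + 1) g ↔ Cell m k (ap θ g) := by
    intro g hg
    obtain ⟨c, hcB, c', hc'B, ec⟩ := (cell_iff h).mp hc
    constructor
    · intro hgc
      obtain ⟨b, hb, b', hb', rfl⟩ := (cell_iff h).mp hgc
      refine (cell_iff h).mpr ⟨ap θ b * c, mul_mem ((hB b hb.2).mpr hb) hcB, c' * ap θ b',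
        mul_mem hc'B ((hB b' hb'.2).mpr hb'), ?_⟩
      rw [ap_mul θ (mul_mem hb.2 hn) hb'.2, ap_mul θ hb.2 hn, ec]; group
    · intro hgc
      obtain ⟨b, hb, b', hb', eg⟩ := (cell_iff h).mp hgc
      have hinv : ∀ x ∈ Bt K m, ap θ⁻¹ x ∈ Bt K m := fun x hx =>
        (hB _ (ap_mem _ _)).mp (by rw [ap_symm' θ hx.2]; exact hx)
      have hl := mul_mem hb (inv_mem hcB)
      have hr := mul_mem (inv_mem hc'B) hb'
      refine (cell_iff h).mpr ⟨ap θ⁻¹ (b * c⁻¹), hinv _ hl, ap θ⁻¹ (c'⁻¹ * b'), hinv _ hr, ?_⟩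
      have e1 : ap θ g = (b * c⁻¹) * ap θ (nk K (j + 1)) * (c'⁻¹ * b') := by rw [eg, ec]; group
      have e2 := congrArg (ap θ⁻¹) e1
      rwa [ap_symm θ hg, ap_mul θ⁻¹ (mul_mem hl.2 (ap_mem _ _)) hr.2, ap_mul θ⁻¹ hl.2 (ap_mem _ _),
        ap_symm θ hn] at e2
  have hcelltw : ∀ {i : ℕ} {g : GL chevF4.Idx K}, Cell m i g → g ∈ tw K m := fun hg => by
    obtain ⟨b, hb, u, hu, rfl⟩ := hg
    exact mul_mem (mul_mem hb.2 (nk_mem m _)) hu.2
  let e : {g : GL chevF4.Idx K // Cell m (j + 1) g} ≃ {g : GL chevF4.Idx K // Cell m k g} :=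
    { toFun := fun g => ⟨ap θ g, (hmap _ (hcelltw g.2)).mp g.2⟩
      invFun := fun g => ⟨ap θ⁻¹ g, (hmap _ (ap_mem _ _)).mpr (by rw [ap_symm' θ (hcelltw g.2)]; exact g.2)⟩
      left_inv := fun g => Subtype.ext (ap_symm θ (hcelltw g.2))
      right_inv := fun g => Subtype.ext (ap_symm' θ (hcelltw g.2)) }
  have he := Nat.card_congr e
  rw [card_cell h (by omega), card_cell h hk] at he
  have hpos : 0 < Nat.card ↥(Bt K m) := Nat.card_pos
  exact dep_inj hk hj (Nat.pow_right_injective (Nat.le_self_pow (by omega) 2)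
    (Nat.eq_of_mul_eq_mul_left hpos he)).symm

theorem stable_par {j : ℕ} (hj : j < 2) : Stable θ (par h j hj) := by
  have := h.char
  have := h.finite
  have hB := stable_bt h hU
  have hn := nk_mem (K := K) m (j + 1)
  have hle : par h j hj ≤ tw K m := by
    rintro g (hg | ⟨b, hb, u, hu, rfl⟩)
    · exact hg.2
    · exact mul_mem (mul_mem hb.2 hn) hu.2
  refine stable_of θ hle ?_
  rintro g (hg | hg)
  · exact Or.inl ((hB g hg.2).mpr hg)
  · obtain ⟨b, hb, b', hb', rfl⟩ := (cell_iff h).mp hg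
    obtain ⟨c, hc, c', hc', ec⟩ := (cell_iff h).mp (nk_cell h hU hj)
    refine Or.inr ((cell_iff h).mpr ⟨ap θ b * c, mul_mem ((hB b hb.2).mpr hb) hc, c' * ap θ b',
      mul_mem hc' ((hB b' hb'.2).mpr hb'), ?_⟩)
    rw [ap_mul θ (mul_mem hb.2 hn) hb'.2, ap_mul θ hb.2 hn, ec]; group

include hV

theorem stable_negRoot {j : ℕ} (hj : j < 2) : Stable θ (cj (nk K 15) (Xg K m (j + 1))) := by
  rw [← neg_root_group h hj]
  exact hV.inf (stable_par h hU hj)

theorem stable_posRoot {j : ℕ} (hj : j < 2) : Stable θ (Xg K m (j + 1)) := by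
  have := h.char
  set w : ↥(tw K m) := ⟨nk K 15, nk_mem m 15⟩
  set ψ := MulAut.conj w * θ * MulAut.conj w
  have hinv : (nk K 15)⁻¹ = (nk K 15 : GL chevF4.Idx K) := inv_eq_of_mul_eq_one_right (longest_sq h)
  have hψ : ∀ g ∈ tw K m, ap ψ g = nk K 15 * ap θ (nk K 15 * g * nk K 15) * nk K 15 := by
    intro g hg
    rw [← ap_ap _ _ hg, ap_inner w hg, hinv, ← ap_ap _ _ (mul_mem (mul_mem (nk_mem m 15) hg) (nk_mem m 15)),
      ap_inner w (ap_mem _ _), hinv]
  have hflip : ∀ (A : Subgroup (GL chevF4.Idx K)) (g : GL chevF4.Idx K),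
      nk K 15 * g * nk K 15 ∈ cj (nk K 15) A ↔ g ∈ A := by
    intro A g
    rw [mem_cj, show (nk K 15)⁻¹ * (nk K 15 * g * nk K 15) * nk K 15 = g * (nk K 15 * nk K 15) by group,
      longest_sq h, mul_one]
  have hflip' : ∀ (A : Subgroup (GL chevF4.Idx K)) (g : GL chevF4.Idx K),
      nk K 15 * g * nk K 15 ∈ A ↔ g ∈ cj (nk K 15) A := by
    intro A g
    rw [mem_cj, hinv]
  have hm : ∀ g ∈ tw K m, nk K 15 * g * nk K 15 ∈ tw K m := fun g hg =>
    mul_mem (mul_mem (nk_mem m 15) hg) (nk_mem m 15)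
  have hψU : Stable ψ (Ut K m) := fun g hg => by
    rw [hψ g hg, hflip', hV _ (hm g hg), hflip]
  have hψV : Stable ψ (Vt K m) := fun g hg => by
    rw [hψ g hg, hflip, hU _ (hm g hg), hflip']
  have hs := stable_negRoot h hψU hψV hj
  intro g hg
  have := hs _ (hm g hg)
  rw [hψ _ (hm g hg), hflip, hflip, show nk K 15 * (nk K 15 * g * nk K 15) * nk K 15 =
    (nk K 15 * nk K 15) * g * (nk K 15 * nk K 15) by group, longest_sq h, one_mul, mul_one] at this
  exact this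

theorem stable_torus : Stable θ (tHom (K := K) m).range := by
  have := h.char
  set w : ↥(tw K m) := ⟨nk K 15, nk_mem m 15⟩
  have hinv : (nk K 15)⁻¹ = (nk K 15 : GL chevF4.Idx K) := inv_eq_of_mul_eq_one_right (longest_sq h)
  set ψ := MulAut.conj w * θ * MulAut.conj w
  have hψ : ∀ g ∈ tw K m, ap ψ g = nk K 15 * ap θ (nk K 15 * g * nk K 15) * nk K 15 := by
    intro g hg
    rw [← ap_ap _ _ hg, ap_inner w hg, hinv, ← ap_ap _ _ (mul_mem (mul_mem (nk_mem m 15) hg) (nk_mem m 15)),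
      ap_inner w (ap_mem _ _), hinv]
  have hm : ∀ g ∈ tw K m, nk K 15 * g * nk K 15 ∈ tw K m := fun g hg =>
    mul_mem (mul_mem (nk_mem m 15) hg) (nk_mem m 15)
  have hflip' : ∀ (A : Subgroup (GL chevF4.Idx K)) (g : GL chevF4.Idx K),
      g ∈ cj (nk K 15) A ↔ nk K 15 * g * nk K 15 ∈ A := by
    intro A g
    rw [mem_cj, hinv]
  have hψU : Stable ψ (Ut K m) := fun g hg => by
    rw [hψ g hg, ← hflip', hV _ (hm g hg), hflip', show nk K 15 * (nk K 15 * g * nk K 15) * nk K 15 =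
      (nk K 15 * nk K 15) * g * (nk K 15 * nk K 15) by group, longest_sq h, one_mul, mul_one]
  have hB' : Stable θ (cj (nk K 15) (Bt K m)) := fun g hg => by
    have := (stable_bt h hψU) _ (hm g hg)
    rw [hψ _ (hm g hg), show nk K 15 * (nk K 15 * g * nk K 15) * nk K 15 =
      (nk K 15 * nk K 15) * g * (nk K 15 * nk K 15) by group, longest_sq h, one_mul, mul_one] at this
    rw [hflip', hflip', this]
  have e : (tHom (K := K) m).range = Bt K m ⊓ cj (nk K 15) (Bt K m) := by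
    rw [range_tHom h]
    refine le_antisymm ?_ ?_
    · intro g hg
      obtain ⟨hd, hgT⟩ := Subgroup.mem_inf.mp hg
      refine Subgroup.mem_inf.mpr ⟨Subgroup.mem_inf.mpr ⟨cF.{u}.diagonal_le_borel hd, hgT⟩, ?_⟩
      rw [hflip']
      refine Subgroup.mem_inf.mpr ⟨cF.{u}.diagonal_le_borel ?_, hm g hgT⟩
      have := cF.{u}.monomial_conj_diagonal (nk_monomial (K := K) 15) hd
      rwa [hinv] at this
    · intro g hg
      obtain ⟨⟨hgB, hgT⟩, hg2⟩ := Subgroup.mem_inf.mp hg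
      rw [hflip'] at hg2
      refine Subgroup.mem_inf.mpr ⟨?_, hgT⟩
      obtain ⟨a, ha, d, hd, e⟩ := cF.{u}.mem_borel.mp hg2.1
      rw [← cF.{u}.borel_inf_negBorel]
      refine Subgroup.mem_inf.mpr ⟨hgB, ?_⟩
      have hge : g = (nk K 15 * a * (nk K 15)⁻¹) * (nk K 15 * d * (nk K 15)⁻¹) := by
        calc g = (nk K 15 * nk K 15) * g * (nk K 15 * nk K 15) := by rw [longest_sq h, one_mul, mul_one]
          _ = nk K 15 * (nk K 15 * g * nk K 15) * nk K 15 := by group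
          _ = nk K 15 * (a * d) * (nk K 15)⁻¹ := by rw [← e, hinv]
          _ = _ := by group
      rw [hge]
      exact mul_mem (Subgroup.mem_sup_left (longest_to_neg h ha))
        (Subgroup.mem_sup_right (cF.{u}.monomial_conj_diagonal (nk_monomial (K := K) 15) hd))
  rw [e]
  exact (stable_bt h hU).inf hB'

end Cfsg.Agent.LeadWork.ReeOut
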