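/-
The outer automorphism group of the large Ree groups.
-/
import Cfsg.Agent.LeadWork.ReeOutMaps
import Cfsg.Agent.LeadWork.ChevFieldAut
import Cfsg.Agent.Suzuki.SzAut
import Cfsg.Prelude.Def_KGroupFacts

set_option autoImplicit false
set_option maxRecDepth 100000

universe u

namespace Cfsg.Agent.LeadWork.ReeOut

open Cfsg.Lie Cfsg.Agent.Chev Cfsg.Agent.Chev.Ree4 Cfsg.Agent.LeadWork

variable {K : Type u} [Field K] {m : ℕ}

/-- The action of the torus on the orthogonal pair class. -/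
noncomputable def chP (p : Kˣ × Kˣ) : Kˣ := p.1 ^ 2 * p.2⁻¹

/-- The action of the torus on the centre of the other class. -/
noncomputable def chU (m : ℕ) (p : Kˣ × Kˣ) : Kˣ := p.2 * (p.1 ^ (2 ^ m + 1))⁻¹

variable (h : Ctx K m)
include h

theorem finite_tw : Finite ↥(tw K m) := by
  have := h.finite
  infer_instance

theorem units_pow_q (x : Kˣ) : x ^ 2 ^ (2 * m + 1) = x :=
  Units.ext (by rw [Units.val_pow_eq_pow_val]; exact pow_q h (x : K))

theorem cop_sub (hm : 1 ≤ m) : (Nat.card Kˣ).Coprime (2 ^ m + 1) ∧ (Nat.card Kˣ).Coprime (2 ^ m - 1) := by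
  have := h.finite
  let := Fintype.ofFinite K
  have he : 2 ≤ 2 ^ m := Nat.le_self_pow (by omega) 2
  rw [Nat.card_units, h.card, show 2 ^ (2 * m + 1) = 2 * 2 ^ m * 2 ^ m by ring]
  have hsq : 4 ≤ 2 * 2 ^ m * 2 ^ m := by nlinarith
  constructor
  · have h2 := cop (2 ^ m) (by omega)
    exact h2.coprime_dvd_right ⟨2, by ring⟩
  · refine Nat.coprime_of_dvd fun p hp h1 h2 => ?_
    have h3 : p ∣ 2 * ((2 ^ m - 1) * (2 ^ m + 1)) := Dvd.dvd.mul_left (h2.mul_right _) 2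
    have e : 2 * 2 ^ m * 2 ^ m - 1 = 2 * ((2 ^ m - 1) * (2 ^ m + 1)) + 1 := by
      obtain ⟨e, he'⟩ : ∃ e, 2 ^ m = e + 1 := ⟨2 ^ m - 1, by omega⟩
      rw [he', Nat.add_sub_cancel]
      have : 2 * (e + 1) * (e + 1) = 2 * (e * (e + 1 + 1)) + 2 := by ring
      omega
    rw [e] at h1
    exact hp.one_lt.ne' (Nat.dvd_one.mp ((Nat.dvd_add_right h3).mp h1))

theorem tHom_pE (p : Kˣ × Kˣ) (t : K) :
    tHom m p * pE m 33 24 t * (tHom m p)⁻¹ = pE m 33 24 ((chP p : Kˣ) * t) := by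
  obtain ⟨x, y⟩ := p
  have hy : (y : K) ≠ 0 := y.ne_zero
  have hp : pairInt chevF4 27 33 = -1 ∧ pairInt chevF4 25 33 = 0 ∧ pairInt chevF4 27 24 = 0 ∧
      pairInt chevF4 25 24 = -1 := by decide +kernel
  obtain ⟨p1, p2, p3, p4⟩ := hp
  have key : ∀ r < 48, ∀ v : K, tHom m (1, y) * cF.xu r v * (tHom m (1, y))⁻¹ =
      cF.xu r (pairChar chevF4 27 ((y : K) ^ 2 ^ m) r * (pairChar chevF4 25 (y : K) r * v)) := by
    intro r hr v
    rw [mul_inv_eq_iff_eq_mul, tHom_snd, mul_assoc, cF.hu_conj_xu (by decide) hr hy, ← mul_assoc,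
      cF.hu_conj_xu (by decide) hr (pow_ne_zero _ hy), mul_assoc]
  have h1 : tHom m (1, y) * pE m 33 24 t * (tHom m (1, y))⁻¹ = pE m 33 24 ((y : K)⁻¹ * t) := by
    rw [pE, pE, ← conj_mul, key 33 (by norm_num), key 24 (by norm_num)]
    simp only [pairChar, p1, p2, p3, p4, one_mul, zpow_neg_one, zpow_zero]
    rw [mul_pow, inv_pow]
  rw [show ((x, y) : Kˣ × Kˣ) = (x, 1) * (1, y) by simp, map_mul,
    show tHom m (x, 1) * tHom m (1, y) * pE m 33 24 t * (tHom m (x, 1) * tHom m (1, y))⁻¹ =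
      tHom m (x, 1) * (tHom m (1, y) * pE m 33 24 t * (tHom m (1, y))⁻¹) * (tHom m (x, 1))⁻¹ by group,
    h1, tHom_conj_pE]
  simp [chP, mul_assoc]

theorem tHom_bE_zero (p : Kˣ × Kˣ) (u : K) :
    tHom m p * bE m 27 25 28 30 0 u * (tHom m p)⁻¹ = bE m 27 25 28 30 0 ((chU m p : Kˣ) * u) := by
  obtain ⟨x, y⟩ := p
  have hx : (x : K) ≠ 0 := x.ne_zero
  have hp : pairInt chevF4 33 28 = -1 ∧ pairInt chevF4 24 28 = -1 ∧ pairInt chevF4 33 30 = -2 ∧
      pairInt chevF4 24 30 = -1 := by decide +kernel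
  obtain ⟨p1, p2, p3, p4⟩ := hp
  have key : ∀ r < 48, ∀ v : K, tHom m (x, 1) * cF.xu r v * (tHom m (x, 1))⁻¹ =
      cF.xu r (pairChar chevF4 33 ((x : K) ^ 2 ^ m) r * (pairChar chevF4 24 (x : K) r * v)) := by
    intro r hr v
    rw [mul_inv_eq_iff_eq_mul, tHom_fst, mul_assoc, cF.hu_conj_xu (by decide) hr hx, ← mul_assoc,
      cF.hu_conj_xu (by decide) hr (pow_ne_zero _ hx), mul_assoc]
  have h2 : ∀ v : K, bE m 27 25 28 30 0 v = cF.xu 28 v * cF.xu 30 (v ^ (2 * 2 ^ m)) := fun v => by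
    simp [bE, zero_pow, Cert.xu_zero]
  have h1 : ∀ v : K, tHom m (x, 1) * bE m 27 25 28 30 0 v * (tHom m (x, 1))⁻¹ =
      bE m 27 25 28 30 0 (((x : K) ^ (2 ^ m + 1))⁻¹ * v) := by
    intro v
    rw [h2, h2, ← conj_mul, key 28 (by norm_num), key 30 (by norm_num)]
    simp only [pairChar, p1, p2, p3, p4, one_mul, zpow_neg_one, zpow_neg, zpow_ofNat]
    have hxq : ((x : K) ^ 2 ^ m) ^ (2 * 2 ^ m) = x := pow_ee' h (x : K)
    congr 2
    · field_simp; ring
    · have hx2 : ((x : K) ^ (2 ^ m + 1)) ^ (2 * 2 ^ m) = (x : K) * ((x : K) ^ 2 ^ m) ^ 2 := by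
        rw [pow_succ, mul_pow, hxq, mul_comm 2 (2 ^ m), pow_mul]
      rw [mul_pow, inv_pow, hx2]
      field_simp
  rw [show ((x, y) : Kˣ × Kˣ) = (x, 1) * (1, y) by simp, map_mul,
    show tHom m (x, 1) * tHom m (1, y) * bE m 27 25 28 30 0 u * (tHom m (x, 1) * tHom m (1, y))⁻¹ =
      tHom m (x, 1) * (tHom m (1, y) * bE m 27 25 28 30 0 u * (tHom m (1, y))⁻¹) * (tHom m (x, 1))⁻¹ by group,
    tHom_conj_bE h, mul_zero, h1]
  simp only [chU, map_mul, Units.val_mul, Units.val_inv_eq_inv_val, Units.val_pow_eq_pow_val, Prod.fst_mul,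
    Prod.snd_mul, mul_one, one_mul]
  congr 1
  ring

theorem nk_one_tHom (p : Kˣ × Kˣ) :
    nk K 1 * tHom m p * (nk K 1)⁻¹ = tHom m (p.1⁻¹ * p.2, p.2) := by
  have := h.char
  obtain ⟨x, y⟩ := p
  have hW : ∀ a ∈ [0, 3], a < chevF4.rank := by decide
  have hact : act chevF4 [0, 3] 33 = 14 ∧ act chevF4 [0, 3] 24 = 23 ∧ act chevF4 [0, 3] 27 = 34 ∧
      act chevF4 [0, 3] 25 = 26 := by decide +kernel
  obtain ⟨a1, a2, a3, a4⟩ := hact
  rw [show ((x, y) : Kˣ × Kˣ) = (x, 1) * (1, y) by simp, map_mul, tHom_fst, tHom_snd, ← conj_mul, ← conj_mul,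
    ← conj_mul, nk_one, cF.conj_hu_two hW (by decide), cF.conj_hu_two hW (by decide),
    cF.conj_hu_two hW (by decide), cF.conj_hu_two hW (by decide), a1, a2, a3, a4,
    ← Units.val_pow_eq_pow_val, ← Units.val_pow_eq_pow_val, hu_eq_torusHom (by norm_num),
    hu_eq_torusHom (by norm_num), hu_eq_torusHom (by norm_num), hu_eq_torusHom (by norm_num), ← map_mul,
    ← map_mul, ← map_mul]
  refine congrArg cF.torusHom (funext fun k => ?_)
  have hc : corootC chevF4 14 0 = -1 ∧ corootC chevF4 14 1 = 0 ∧ corootC chevF4 14 2 = 0 ∧ corootC chevF4 14 3 = 0 ∧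
      corootC chevF4 23 0 = 0 ∧ corootC chevF4 23 1 = 0 ∧ corootC chevF4 23 2 = 0 ∧ corootC chevF4 23 3 = -1 ∧
      corootC chevF4 34 0 = 1 ∧ corootC chevF4 34 1 = 1 ∧ corootC chevF4 34 2 = 0 ∧ corootC chevF4 34 3 = 0 ∧
      corootC chevF4 26 0 = 0 ∧ corootC chevF4 26 1 = 0 ∧ corootC chevF4 26 2 = 1 ∧ corootC chevF4 26 3 = 1 := by
    decide +kernel
  obtain ⟨b0, b1, b2, b3, c0, c1, c2, c3, d0, d1, d2, d3, e0, e1, e2, e3⟩ := hc
  obtain ⟨k, hk⟩ := k
  have hk : k < 4 := hk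
  interval_cases k <;> simp [b0, b1, b2, b3, c0, c1, c2, c3, d0, d1, d2, d3, e0, e1, e2, e3, mul_pow]

theorem chP_surj (hm : 1 ≤ m) (a b : Kˣ) : ∃ p : Kˣ × Kˣ, chP p = a ∧ chU m p = b := by
  have := h.finite
  have he : 2 ≤ 2 ^ m := Nat.le_self_pow (by omega) 2
  obtain ⟨x, hx⟩ := (powCoprime (cop_sub h hm).2).surjective (b * a)⁻¹
  rw [powCoprime_apply] at hx
  refine ⟨(x, x ^ 2 * a⁻¹), by simp [chP], ?_⟩
  show x ^ 2 * a⁻¹ * (x ^ (2 ^ m + 1))⁻¹ = b
  have hb : b = (x ^ (2 ^ m - 1))⁻¹ * a⁻¹ := by rw [hx, inv_inv, mul_assoc, mul_inv_cancel, mul_one]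
  rw [hb, show 2 ^ m + 1 = (2 ^ m - 1) + 2 by omega, pow_add, mul_inv_rev]
  simp [mul_comm, mul_left_comm, mul_assoc]

theorem ch_inj (hm : 1 ≤ m) {p p' : Kˣ × Kˣ} (e1 : chP p = chP p') (e2 : chU m p = chU m p') : p = p' := by
  have := h.finite
  have he : 2 ≤ 2 ^ m := Nat.le_self_pow (by omega) 2
  have key : ∀ q : Kˣ × Kˣ, q.1 ^ (2 ^ m - 1) = (chP q * chU m q)⁻¹ := fun q => by
    rw [chP, chU, show 2 ^ m + 1 = (2 ^ m - 1) + 2 by omega, pow_add, mul_inv_rev]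
    simp [mul_comm, mul_left_comm, mul_assoc]
  have hx : p.1 = p'.1 := (powCoprime (cop_sub h hm).2).injective (by
    rw [powCoprime_apply, powCoprime_apply, key, key, e1, e2])
  refine Prod.ext hx ?_
  rw [chP, chP, hx] at e1
  exact inv_injective (mul_left_cancel e1)

theorem nk_one_pE : nk K 1 = pE m 33 24 (1 : K) * pE m 14 23 1 * pE m 33 24 1 := by
  have := h.char
  obtain ⟨⟨-, -, a3⟩, ⟨-, -, b3⟩, -, -, n1, n2, -, -, -, n6, -, -, c1, c2⟩ := base_facts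
  have hs : chevF4.simple 0 = 33 ∧ chevF4.simple 3 = 24 := by decide +kernel
  have ab : Commute (cF.xu 33 (1 : K)) (cF.xu 24 1) :=
    xu_commute (by norm_num) (by norm_num) (by norm_num) (by rw [n1]; norm_num) a3 _ _
  have ab' : Commute (cF.xu 33 (1 : K)) (cF.xu 23 1) :=
    xu_commute (by norm_num) (by norm_num) (by norm_num) (by rw [n1]; norm_num) c1 _ _
  have a'b : Commute (cF.xu 14 (1 : K)) (cF.xu 24 1) :=
    xu_commute (by norm_num) (by norm_num) (by norm_num) (by rw [n6]; norm_num) c2 _ _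
  rw [nk_one]
  simp only [Cert.nWordElt, List.map_cons, List.map_nil, List.prod_cons, List.prod_nil, mul_one, hs.1, hs.2]
  rw [cF.nu_eq, cF.nu_eq, n1, n2, inv_one, CharTwo.neg_eq, pE, pE, one_pow]
  set A := cF.xu 33 (1 : K)
  set B := cF.xu 24 (1 : K)
  set A' := cF.xu 14 (1 : K)
  set B' := cF.xu 23 (1 : K)
  calc A * A' * A * (B * B' * B) = A * A' * (A * B) * (B' * B) := by group
    _ = A * (A' * B) * (A * B') * B := by rw [ab.eq]; group
    _ = A * B * (A' * B') * (A * B) := by rw [a'b.eq, ab'.eq]; group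

theorem exists_normal_form (θ : MulAut ↥(tw K m)) :
    ∃ w : ↥(tw K m), Stable (MulAut.conj w * θ) (Ut K m) ∧ Stable (MulAut.conj w * θ) (Vt K m) := by
  have := h.char
  have := h.finite
  have := finite_tw h
  have : Fact (Nat.Prime 2) := ⟨Nat.prime_two⟩
  set q := 2 ^ (2 * m + 1) with hq
  have hle : Ut K m ≤ tw K m := inf_le_right
  have hcard : Nat.card ↥((Ut K m).subgroupOf (tw K m)) = 2 ^ ((2 * m + 1) * 12) := by
    rw [Nat.card_congr (Subgroup.subgroupOfEquivOfLe hle).toEquiv, card_pos_tw h, pow_mul]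
  have hTc : (Nat.card ↥(tw K m)).factorization 2 = (2 * m + 1) * 12 := by
    rw [natCard_tw h, ← pow_mul]
    have hodd : ∀ a : ℕ, 1 ≤ a → ((2 ^ (2 * m + 1)) ^ a - 1) % 2 = 1 ∧ ((2 ^ (2 * m + 1)) ^ a + 1) % 2 = 1 := by
      intro a ha
      have hev : (2 ^ (2 * m + 1)) ^ a % 2 = 0 := by
        rw [← pow_mul, Nat.pow_mod]
        simp [zero_pow (show (2 * m + 1) * a ≠ 0 by positivity)]
      have := Nat.one_le_pow a _ (Nat.two_pow_pos (2 * m + 1))
      omega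
    have h1 := (hodd 1 le_rfl).1
    rw [pow_one] at h1
    have h3 := (hodd 3 (by norm_num)).2
    have h4 := (hodd 4 (by norm_num)).1
    have h6 := (hodd 6 (by norm_num)).2
    set A := 2 ^ (2 * m + 1)
    rw [mul_assoc, mul_assoc, mul_assoc, Nat.factorization_mul (by positivity) (by
      intro h0
      simp only [mul_eq_zero] at h0
      omega), Nat.factorization_pow, Finsupp.add_apply, Finsupp.smul_apply, Nat.Prime.factorization_self Nat.prime_two,
      Nat.factorization_eq_zero_of_not_dvd (fun hd => by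
        simp only [Nat.prime_two.dvd_mul] at hd
        omega)]
    simp
  let P : Sylow 2 ↥(tw K m) := Sylow.ofCard ((Ut K m).subgroupOf (tw K m)) (by rw [hcard, hTc])
  let Q : Sylow 2 ↥(tw K m) := Sylow.ofCard (((Ut K m).subgroupOf (tw K m)).map θ.toMonoidHom) (by
    rw [Subgroup.card_map_of_injective θ.injective, hcard, hTc])
  obtain ⟨c, hc⟩ := MulAction.exists_smul_eq ↥(tw K m) Q P
  have hU1 : Stable (MulAut.conj c * θ) (Ut K m) := by
    refine stable_of _ hle fun g hg => ?_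
    rw [← ap_ap _ _ hg.2, ap_eq θ hg.2, ap_inner c (θ _).2]
    have h1 : c * θ ⟨g, hg.2⟩ * c⁻¹ ∈ ((c • Q : Sylow 2 ↥(tw K m)) : Subgroup ↥(tw K m)) := by
      rw [Sylow.coe_subgroup_smul, Subgroup.mem_pointwise_smul_iff_inv_smul_mem]
      have h2 : θ ⟨g, hg.2⟩ ∈ ((Ut K m).subgroupOf (tw K m)).map θ.toMonoidHom :=
        ⟨⟨g, hg.2⟩, Subgroup.mem_subgroupOf.mpr hg, rfl⟩
      simpa [MulAut.smul_def, mul_assoc] using (show θ ⟨g, hg.2⟩ ∈ (Q : Subgroup ↥(tw K m)) from h2)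
    rw [hc] at h1
    exact Subgroup.mem_subgroupOf.mp (show c * θ ⟨g, hg.2⟩ * c⁻¹ ∈ (Ut K m).subgroupOf (tw K m) from h1)
  set φ := MulAut.conj c * θ
  set g₀ := ap φ (nk K 15)
  have hg₀ : g₀ ∈ tw K m := ap_mem _ _
  have himg : ∀ x ∈ Vt K m, ap φ x ∈ cj g₀ (Ut K m) := by
    rintro _ ⟨x, hx, rfl⟩
    refine ⟨ap φ x, (hU1 x hx.2).mpr hx, ?_⟩
    show g₀ * ap φ x * g₀⁻¹ = ap φ (nk K 15 * x * (nk K 15)⁻¹)
    rw [ap_mul φ (mul_mem (nk_mem m 15) hx.2) (inv_mem (nk_mem m 15)), ap_mul φ (nk_mem m 15) hx.2,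
      ap_inv φ (nk_mem m 15)]
  have hn : ∀ x ∈ cj g₀ (Ut K m), x ∈ Ut K m → x = 1 := by
    rintro _ ⟨y, hy, rfl⟩ hxU
    simp only [MulEquiv.coe_toMonoidHom, MulAut.conj_apply] at hxU ⊢
    have hy' : ap φ⁻¹ y ∈ Ut K m := by rw [← hU1 _ (ap_mem _ _), ap_symm' φ hy.2]; exact hy
    have e : ap φ⁻¹ (g₀ * y * g₀⁻¹) = nk K 15 * ap φ⁻¹ y * (nk K 15)⁻¹ := by
      rw [ap_mul φ⁻¹ (mul_mem hg₀ hy.2) (inv_mem hg₀), ap_mul φ⁻¹ hg₀ hy.2, ap_inv φ⁻¹ hg₀,
        show ap φ⁻¹ g₀ = nk K 15 from ap_symm φ (nk_mem m 15)]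
    have h1 : ap φ⁻¹ (g₀ * y * g₀⁻¹) ∈ Ut K m := by
      rw [← hU1 _ (ap_mem _ _), ap_symm' φ hxU.2]; exact hxU
    have h2 : ap φ⁻¹ (g₀ * y * g₀⁻¹) ∈ Vt K m := by rw [e]; exact ⟨_, hy', rfl⟩
    have h3 := congrArg (ap φ) (bt_inf_vt h _ (ut_le_bt m h1) h2)
    rwa [ap_symm' φ hxU.2, ap_one] at h3
  obtain ⟨b, hb, eb⟩ := opposite_of_inf_bot h hg₀ hn
  refine ⟨⟨b⁻¹, inv_mem hb.2⟩ * c, ?_⟩
  rw [map_mul, mul_assoc]
  constructor
  · refine stable_of _ hle fun g hg => ?_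
    rw [← ap_ap _ _ hg.2, ap_inner _ (ap_mem _ _)]
    exact conj_mem_ut (inv_mem hb) ((hU1 g hg.2).mpr hg)
  · refine stable_of _ ?_ fun g hg => ?_
    · rintro _ ⟨x, hx, rfl⟩
      exact mul_mem (mul_mem (nk_mem m 15) hx.2) (inv_mem (nk_mem m 15))
    · have hgT : g ∈ tw K m := by
        obtain ⟨x, hx, rfl⟩ := hg
        exact mul_mem (mul_mem (nk_mem m 15) hx.2) (inv_mem (nk_mem m 15))
      have h1 := himg g hg
      rw [eb, mem_cj] at h1
      rw [← ap_ap _ _ hgT, ap_inner _ (ap_mem _ _)]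
      simpa using h1

theorem nk_torus {j : ℕ} (hj : j < 2) {t : GL chevF4.Idx K} (ht : t ∈ (tHom (K := K) m).range) :
    nk K (j + 1) * t * (nk K (j + 1))⁻¹ ∈ (tHom (K := K) m).range := by
  have := h.char
  rw [range_tHom h] at ht ⊢
  refine Subgroup.mem_inf.mpr ?_
  exact ⟨cF.{u}.monomial_conj_diagonal (nk_monomial _) ht.1,
    mul_mem (mul_mem (nk_mem m _) ht.2) (inv_mem (nk_mem m _))⟩

theorem torus_fpf (hm : 1 ≤ m) {j : ℕ} (hj : j < 2) {x : GL chevF4.Idx K} (hx : x ∈ Xg K m (j + 1))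
    (hfix : ∀ t ∈ (tHom (K := K) m).range, t * x * t⁻¹ = x) : x = 1 := by
  have := h.char
  have := h.finite
  obtain ⟨a, ha⟩ : ∃ a : Kˣ, a ≠ 1 := by
    by_contra hall
    push Not at hall
    have h1 : Nat.card Kˣ = 1 := Nat.card_eq_one_iff_unique.mpr ⟨⟨fun a b => by rw [hall a, hall b]⟩, ⟨1⟩⟩
    rw [Nat.card_units, h.card] at h1
    have : 2 ^ 3 ≤ 2 ^ (2 * m + 1) := Nat.pow_le_pow_right (by norm_num) (by omega)
    omega
  have ha1 : (a : K) ≠ 1 := fun e => ha (Units.ext e)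
  obtain ⟨p, hp1, hp2⟩ := chP_surj h hm a a
  have e := hfix _ ⟨p, rfl⟩
  have kill : ∀ t : K, (a : K) * t = t → t = 0 := fun t ht => by
    by_contra ht0
    exact ha1 (mul_right_cancel₀ ht0 (ht.trans (one_mul t).symm))
  interval_cases j
  · obtain ⟨t, rfl⟩ := mem_xg_one h hx
    rw [tHom_pE h, hp1] at e
    rw [kill t (pE_inj h e), pE_zero h]
  · obtain ⟨t, u, rfl⟩ := mem_xg_two h hx
    have h2 := congrArg (fun g => g * g) e
    simp only [conj_mul] at h2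
    rw [bE_mul h, CharTwo.add_self_eq_zero, add_assoc, CharTwo.add_self_eq_zero, add_zero, tHom_bE_zero h, hp2] at h2
    have h3 := kill _ (bE_inj h h2).2
    rw [← pow_succ] at h3
    obtain rfl := eq_zero_of_pow_eq_zero h3
    rw [tHom_bE_zero h, hp2] at e
    rw [kill u (bE_inj h e).2, bE_zero]

variable {θ : MulAut ↥(tw K m)} (hU : Stable θ (Ut K m)) (hV : Stable θ (Vt K m))
include hU hV

theorem nk_image (hm : 1 ≤ m) {j : ℕ} (hj : j < 2) :
    ∃ b ∈ Bt K m, ap θ (nk K (j + 1)) = nk K (j + 1) * b := by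
  have := h.char
  have hH := stable_torus h hU hV
  have hn := nk_mem (K := K) m (j + 1)
  set n := nk K (j + 1)
  obtain ⟨b, hb, u, hu, e⟩ := nk_cell h hU hj
  have htw : ∀ t ∈ (tHom (K := K) m).range, t ∈ tw K m := by rintro _ ⟨p, rfl⟩; exact tHom_mem h p
  have htb : ∀ t ∈ (tHom (K := K) m).range, t ∈ Bt K m := fun t ht => by
    rw [range_tHom h] at ht
    exact ⟨cF.{u}.diagonal_le_borel ht.1, ht.2⟩
  have hu1 : u = 1 := torus_fpf h hm hj hu fun t ht => by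
    set s := ap θ⁻¹ t
    have hs : s ∈ (tHom (K := K) m).range := by
      rw [← hH _ (ap_mem _ _), ap_symm' θ (htw t ht)]; exact ht
    have hns : n * s * n⁻¹ ∈ (tHom (K := K) m).range := nk_torus h hj hs
    set t' := ap θ (n * s * n⁻¹)
    have ht' : t' ∈ (tHom (K := K) m).range := (hH _ (htw _ hns)).mpr hns
    have e1 : ap θ n * t = t' * ap θ n := by
      rw [← ap_mul θ (htw _ hns) hn, show n * s * n⁻¹ * n = n * s by group, ap_mul θ hn (ap_mem _ _),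
        ap_symm' θ (htw t ht)]
    rw [e] at e1
    have hnt : n * t * n⁻¹ ∈ Bt K m := htb _ (nk_torus h hj ht)
    have hX : t⁻¹ * u * t ∈ Xg K m (j + 1) := by
      refine Subgroup.mem_inf.mpr ⟨?_, mul_mem (mul_mem (inv_mem (htw t ht)) hu.2) (htw t ht)⟩
      have hd : t⁻¹ ∈ chevF4.diagonalSubgroup K := by
        rw [range_tHom h] at ht; exact inv_mem ht.1
      have := (Subgroup.mem_normalizer_iff.mp
        (cF.{u}.diag_normalises (Inverts chevF4 K n) (fun _ hr => hr.1.1) hd) u).mp hu.1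
      rwa [inv_inv] at this
    obtain ⟨-, e2⟩ := cF.{u}.canonical_unique (n := n) (mul_mem hb hnt).1 (mul_mem (htb _ ht') hb).1 hX.1 hu.1 (by
      rw [show b * (n * t * n⁻¹) * n * (t⁻¹ * u * t) = b * n * u * t by group, e1]
      simp only [n, mul_assoc])
    calc t * u * t⁻¹ = t * (t⁻¹ * u * t) * t⁻¹ := by rw [e2]
      _ = u := by group
  rw [hu1, mul_one] at e
  refine ⟨b⁻¹, inv_mem hb, ?_⟩
  have h2 : ap θ n * ap θ n = 1 := by rw [← ap_mul θ hn hn, nk_mul_self hj, ap_one]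
  calc ap θ n = (ap θ n)⁻¹ := (inv_eq_of_mul_eq_one_right h2).symm
    _ = (b * n)⁻¹ := by rw [e]
    _ = n * b⁻¹ := by rw [mul_inv_rev, inv_eq_of_mul_eq_one_right (nk_mul_self hj)]

theorem fix_negRoot (hm : 1 ≤ m) {j : ℕ} (hj : j < 2) (hfix : ∀ x ∈ Xg K m (j + 1), ap θ x = x)
    {y : GL chevF4.Idx K} (hy : y ∈ cj (nk K 15) (Xg K m (j + 1))) : ap θ y = y := by
  by_cases hy1 : y = 1
  · rw [hy1, ap_one]
  have hyS := hy
  rw [← neg_root_group h hj] at hyS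
  obtain ⟨hyV, hyP⟩ := Subgroup.mem_inf.mp hyS
  have hyP' := inv_mem hyP
  rcases hyP' with hB | hc
  · exact absurd (inv_eq_one.mp (bt_inf_vt h _ hB (inv_mem hyV))) hy1
  obtain ⟨b, hb, u, hu, e⟩ := hc
  have := h.char
  set n := nk K (j + 1)
  have hn := nk_mem (K := K) m (j + 1)
  have ey : y = u⁻¹ * n * b⁻¹ := by
    rw [← inv_inv y, e, mul_inv_rev, mul_inv_rev, inv_eq_of_mul_eq_one_right (nk_mul_self hj), mul_assoc]
  obtain ⟨c, hc', ec⟩ := nk_image h hU hV hm hj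
  have hB := stable_bt h hU
  have hbi : ap θ b⁻¹ ∈ Bt K m := (hB _ (inv_mem hb.2)).mpr (inv_mem hb)
  have ey' : ap θ y = u⁻¹ * n * (c * ap θ b⁻¹) := by
    rw [ey, ap_mul θ (mul_mem (inv_mem hu.2) hn) (inv_mem hb.2), ap_mul θ (inv_mem hu.2) hn,
      hfix _ (inv_mem hu), ec]
    simp only [n, mul_assoc]
  have hyT : y ∈ tw K m := by
    rw [ey]; exact mul_mem (mul_mem (inv_mem hu.2) hn) (inv_mem hb.2)
  have h1 : y⁻¹ * ap θ y ∈ Bt K m := by
    rw [ey', ey, show (u⁻¹ * n * b⁻¹)⁻¹ * (u⁻¹ * n * (c * ap θ b⁻¹)) = b * (c * ap θ b⁻¹) by group]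
    exact mul_mem hb (mul_mem hc' hbi)
  have h2 : ap θ y ∈ Vt K m := (hV y hyT).mpr hyV
  exact (inv_mul_eq_one.mp (bt_inf_vt h _ h1 (mul_mem (inv_mem hyV) h2))).symm

theorem exists_field : ∃ f : K → K, (∀ a b, f (a + b) = f a + f b) ∧ Function.Bijective f ∧
    (∀ t, ap θ (pE m 33 24 t) = pE m 33 24 (f t)) ∧ (f 1 = 1 → ∀ a b, f (a * b) = f a * f b) := by
  have := h.char
  have := h.finite
  have hX := stable_posRoot h hU hV (show 0 < 2 by norm_num)
  have hH := stable_torus h hU hV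
  choose f hf using fun t => mem_xg_one h ((hX _ (pE_pos_mem m t)).mpr (pE_mem_xg h t))
  have hadd : ∀ a b, f (a + b) = f a + f b := fun a b => pE_inj h (by
    rw [← hf, ← pE_add h, ← pE_add h, ap_mul θ (pE_pos_mem m a) (pE_pos_mem m b), hf, hf])
  have hinj : Function.Injective f := fun a b e => pE_inj h (by
    rw [← ap_symm θ (pE_pos_mem m a), hf, e, ← hf, ap_symm θ (pE_pos_mem m b)])
  refine ⟨f, hadd, ⟨hinj, Finite.injective_iff_surjective.mp hinj⟩, hf, fun h1 a b => ?_⟩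
  by_cases ha : a = 0
  · have h0 : f 0 = 0 := by simpa using hadd 0 0
    rw [ha, zero_mul, h0, zero_mul]
  obtain ⟨x, hx⟩ : ∃ x : K, x ^ 2 = a :=
    (Finite.injective_iff_surjective.mp fun p q (hpq : p ^ 2 = q ^ 2) => CharTwo.sq_injective hpq) a
  have hx0 : x ≠ 0 := fun e => ha (by rw [← hx, e, zero_pow two_ne_zero])
  set p : Kˣ × Kˣ := (Units.mk0 x hx0, 1)
  have hp : (chP p : K) = a := by simp [chP, p, hx]
  obtain ⟨p', hp'⟩ := (hH _ (tHom_mem h p)).mpr ⟨p, rfl⟩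
  have key : ∀ s, f (a * s) = (chP p' : Kˣ) * f s := fun s => pE_inj h (by
    rw [← hf, ← hp, ← tHom_pE h, ap_mul θ (mul_mem (tHom_mem h p) (pE_pos_mem m s)) (inv_mem (tHom_mem h p)),
      ap_mul θ (tHom_mem h p) (pE_pos_mem m s), ap_inv θ (tHom_mem h p), ← hp', hf, tHom_pE h])
  have h2 := key 1
  rw [mul_one, h1, mul_one] at h2
  rw [key b, h2]

/-- An automorphism normalised on the two base classes is trivial. -/
theorem eq_one_of_fix (hm : 1 ≤ m) (hP : ∀ t, ap θ (pE m 33 24 t) = pE m 33 24 t)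
    (hu1 : ap θ (bE m 27 25 28 30 0 1) = bE m 27 25 28 30 0 1) : θ = 1 := by
  have := h.char
  have := h.finite
  let := Fintype.ofFinite K
  have hH := stable_torus h hU hV
  have hX2 := stable_posRoot h hU hV (show 1 < 2 by norm_num)
  have fix1 : ∀ x ∈ Xg K m 1, ap θ x = x := fun x hx => by
    obtain ⟨t, rfl⟩ := mem_xg_one h hx; exact hP t
  have hneg1 : ∀ t, ap θ (pE m 14 23 t) = pE m 14 23 t := fun t => by
    refine fix_negRoot h hU hV hm (show 0 < 2 by norm_num) fix1 ⟨_, pE_mem_xg h t, ?_⟩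
    exact (longest_conj h (show 0 < 2 by norm_num) (pE_mem_xg h t)).trans (conj_pE m t)
  have hn1 : ap θ (nk K 1) = nk K 1 := by
    rw [nk_one_pE h, ap_mul θ (mul_mem (pE_pos_mem m 1) (pE_neg_mem m 1)) (pE_pos_mem m 1),
      ap_mul θ (pE_pos_mem m 1) (pE_neg_mem m 1), hP, hneg1]
  choose τ hτ using fun p => (hH _ (tHom_mem h p)).mpr ⟨p, rfl⟩
  have hτP : ∀ p, chP (τ p) = chP p := fun p => by
    have e1 := congrArg (ap θ) (tHom_pE h p 1)
    rw [ap_mul θ (mul_mem (tHom_mem h p) (pE_pos_mem m 1)) (inv_mem (tHom_mem h p)),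
      ap_mul θ (tHom_mem h p) (pE_pos_mem m 1), ap_inv θ (tHom_mem h p), ← hτ, hP, hP, tHom_pE h] at e1
    exact Units.ext (by simpa using pE_inj h e1)
  have hτU : ∀ p, ap θ (bE m 27 25 28 30 0 ((chU m p : Kˣ) : K)) = bE m 27 25 28 30 0 ((chU m (τ p) : Kˣ) : K) := fun p => by
    have e1 := congrArg (ap θ) (tHom_bE_zero h p 1)
    rw [ap_mul θ (mul_mem (tHom_mem h p) (bE_pos_mem m 0 1)) (inv_mem (tHom_mem h p)),
      ap_mul θ (tHom_mem h p) (bE_pos_mem m 0 1), ap_inv θ (tHom_mem h p), ← hτ, hu1, tHom_bE_zero h, mul_one,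
      mul_one] at e1
    exact e1.symm
  have hwell : ∀ p p', chU m p = chU m p' → chU m (τ p) = chU m (τ p') := fun p p' e => by
    have h1 := hτU p
    rw [e, hτU p'] at h1
    exact (Units.ext (bE_inj h h1).2).symm
  have hmul : ∀ p p', τ (p * p') = τ p * τ p' := fun p p' => tHom_inj m (by
    rw [map_mul, hτ, hτ, hτ, map_mul, ap_mul θ (tHom_mem h p) (tHom_mem h p')])
  have hw : ∀ p : Kˣ × Kˣ, τ (p.1⁻¹ * p.2, p.2) = ((τ p).1⁻¹ * (τ p).2, (τ p).2) := fun p => tHom_inj m (by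
    rw [← nk_one_tHom h, hτ, hτ, ← nk_one_tHom h, ap_mul θ (mul_mem (nk_mem m 1) (tHom_mem h p)) (inv_mem (nk_mem m 1)),
      ap_mul θ (nk_mem m 1) (tHom_mem h p), ap_inv θ (nk_mem m 1), hn1])
  have hU' : ∀ p : Kˣ × Kˣ, chU m (p.1⁻¹ * p.2, p.2) = chU m p * chP p ^ (2 ^ m + 1) := by
    rintro ⟨x, y⟩
    simp only [chU, chP, mul_pow, inv_pow, ← pow_mul, mul_inv_rev, inv_inv]
    rw [mul_comm 2, pow_mul, pow_two]
    simp [mul_comm, mul_left_comm, mul_assoc]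
  have hτu : ∀ p, chU m (τ p) = chU m p := by
    intro p
    obtain ⟨z, hz⟩ := (powCoprime (cop_sub h hm).1).surjective (chU m p)
    rw [powCoprime_apply] at hz
    obtain ⟨r, hr1, hr2⟩ := chP_surj h hm z 1
    have hτ1 : τ 1 = 1 := tHom_inj m (by rw [hτ, map_one, ap_one])
    have e1 : chU m (τ (r.1⁻¹ * r.2, r.2)) = chU m p := by
      rw [hw, hU', hτP, hr1, hz, hwell r 1 (by rw [hr2]; simp [chU]), hτ1]
      simp [chU]
    rw [← e1]
    exact hwell p _ (by rw [hU', hr1, hr2, one_mul, hz])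
  have hτid : ∀ p, τ p = p := fun p => ch_inj h hm (hτP p) (hτu p)
  have hH1 : ∀ p, ap θ (tHom m p) = tHom m p := fun p => by rw [← hτ, hτid]
  have hB0 : ∀ u, ap θ (bE m 27 25 28 30 0 u) = bE m 27 25 28 30 0 u := by
    intro u
    by_cases hu : u = 0
    · rw [hu, bE_zero, ap_one]
    obtain ⟨p, -, hp⟩ := chP_surj h hm 1 (Units.mk0 u hu)
    have := hτU p
    rwa [hτu, hp] at this
  choose c w hc using fun t => mem_xg_two h ((hX2 _ (bE_pos_mem m t 0)).mpr (bE_mem_xg h t 0))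
  have powinj : ∀ a b : K, a ^ (2 ^ m + 1) = b ^ (2 ^ m + 1) → a = b := by
    intro a b e
    by_cases ha : a = 0
    · subst ha
      rw [zero_pow (Nat.succ_ne_zero _)] at e
      exact (eq_zero_of_pow_eq_zero e.symm).symm
    have hb : b ≠ 0 := fun hb => ha (eq_zero_of_pow_eq_zero (by rw [e, hb, zero_pow (Nat.succ_ne_zero _)]))
    have := (powCoprime (cop_sub h hm).1).injective (a₁ := Units.mk0 a ha) (a₂ := Units.mk0 b hb)
      (Units.ext (by simpa using e))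
    simpa using congrArg Units.val this
  have hct : ∀ t, c t = t := fun t => by
    have e1 := congrArg (ap θ) (bE_mul h t t 0 0)
    rw [CharTwo.add_self_eq_zero, hB0, ap_mul θ (bE_pos_mem m t 0) (bE_pos_mem m t 0), hc, bE_mul h,
      CharTwo.add_self_eq_zero, add_assoc, CharTwo.add_self_eq_zero, add_zero, add_zero, add_zero, ← pow_succ,
      ← pow_succ] at e1
    exact powinj _ _ (bE_inj h e1).2
  have hbt : ∀ t, ap θ (bE m 27 25 28 30 t 0) = bE m 27 25 28 30 t (w t) := fun t => by rw [hc, hct]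
  have wadd : ∀ t s, w (t + s) = w t + w s := by
    intro t s
    have e1 := congrArg (ap θ) (bE_mul h t s 0 0)
    rw [add_zero, add_zero, ap_mul θ (bE_pos_mem m t 0) (bE_pos_mem m s 0), hbt, hbt, bE_mul h] at e1
    have e2 : bE m 27 25 28 30 (t + s) (t ^ 2 ^ m * s) = bE m 27 25 28 30 0 (t ^ 2 ^ m * s) *
        bE m 27 25 28 30 (t + s) 0 := by
      rw [bE_mul h, zero_add, zero_pow (by positivity), zero_mul, zero_add, add_zero]
    rw [e2, ap_mul θ (bE_pos_mem m _ _) (bE_pos_mem m _ _), hB0, hbt, bE_mul h, zero_add,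
      zero_pow (by positivity), zero_mul, zero_add, add_assoc] at e1
    exact (add_left_cancel (bE_inj h e1).2).symm
  have wscale : ∀ s : K, w s = s ^ (2 ^ m + 1) * w 1 := by
    intro s
    by_cases hs : s = 0
    · have h0 : w 0 = 0 := by simpa using wadd 0 0
      rw [hs, h0, zero_pow (Nat.succ_ne_zero _), zero_mul]
    set y : Kˣ := Units.mk0 s hs ^ (2 ^ m + 1)
    have hy : (y : K) = s ^ (2 ^ m + 1) := by simp [y]
    set a := (y : K) ^ 2 * ((y : K) ^ (2 * 2 ^ m))⁻¹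
    have h1 := tHom_conj_bE h y (1 : K) 0
    rw [mul_one, mul_zero] at h1
    have h3 := congrArg (fun g => g * g) h1
    simp only [conj_mul] at h3
    rw [bE_mul h, bE_mul h, CharTwo.add_self_eq_zero, CharTwo.add_self_eq_zero, one_pow, one_mul, add_zero,
      add_zero, add_zero, tHom_bE_zero h, ← pow_succ] at h3
    have ha : a = s := powinj _ _ (by
      have := (bE_inj h h3).2.symm
      simpa [chU, hy, a] using this)
    rw [show (y : K) ^ 2 * ((y : K) ^ (2 * 2 ^ m))⁻¹ = a from rfl, ha] at h1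
    have h2 := congrArg (ap θ) h1
    rw [ap_mul θ (mul_mem (tHom_mem h _) (bE_pos_mem m 1 0)) (inv_mem (tHom_mem h _)),
      ap_mul θ (tHom_mem h _) (bE_pos_mem m 1 0), ap_inv θ (tHom_mem h _), hH1, hbt, hbt,
      tHom_conj_bE h] at h2
    rw [← (bE_inj h h2).2, hy]
  have hw1 : w 1 = 0 := by
    obtain ⟨g, hg⟩ := IsCyclic.exists_generator (α := Kˣ)
    by_contra hw1
    have e := wadd (g : K) 1
    rw [wscale (g : K), wscale ((g : K) + 1), ← add_one_mul] at e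
    have e2 := mul_right_cancel₀ hw1 e
    rw [pow_succ ((g : K) + 1), add_pow_e h, one_pow, pow_succ (g : K)] at e2
    have e3 : (g : K) ^ 2 ^ m + (g : K) = 0 := by linear_combination e2
    have e4 : g ^ (2 ^ m - 1) = 1 := by
      have he : 2 ≤ 2 ^ m := Nat.le_self_pow (by omega) 2
      have h5 : g ^ (2 ^ m - 1) * g = 1 * g := by
        rw [one_mul, ← pow_succ, Nat.sub_add_cancel (by omega)]
        exact Units.ext (by push_cast; exact CharTwo.add_eq_zero.mp e3)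
      exact mul_right_cancel h5
    have e5 : g = 1 := (powCoprime (cop_sub h hm).2).injective (by rw [powCoprime_apply, powCoprime_apply, e4, one_pow])
    have h6 : Nat.card Kˣ = 1 := by
      rw [← orderOf_eq_card_of_forall_mem_zpowers hg, e5, orderOf_one]
    rw [Nat.card_units, h.card] at h6
    have : 2 ^ 3 ≤ 2 ^ (2 * m + 1) := Nat.pow_le_pow_right (by norm_num) (by omega)
    omega
  have hBall : ∀ t u, ap θ (bE m 27 25 28 30 t u) = bE m 27 25 28 30 t u := by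
    intro t u
    have e : bE m 27 25 28 30 t u = bE m 27 25 28 30 0 u * bE m 27 25 28 30 t 0 := by
      rw [bE_mul h]; simp
    rw [e, ap_mul θ (bE_pos_mem m _ _) (bE_pos_mem m _ _), hB0, hbt, wscale, hw1, mul_zero]
  have fix2 : ∀ x ∈ Xg K m 2, ap θ x = x := fun x hx => by
    obtain ⟨t, u, rfl⟩ := mem_xg_two h hx; exact hBall t u
  have hneg2 : ∀ t u, ap θ (bE m 20 22 19 17 t u) = bE m 20 22 19 17 t u := fun t u => by
    refine fix_negRoot h hU hV hm (show 1 < 2 by norm_num) fix2 ⟨_, bE_mem_xg h t u, ?_⟩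
    exact (longest_conj h (show 1 < 2 by norm_num) (bE_mem_xg h t u)).trans (conj_bE m t u)
  let S : Subgroup (GL chevF4.Idx K) :=
    { carrier := {g | g ∈ tw K m ∧ ap θ g = g}
      one_mem' := ⟨one_mem _, ap_one θ⟩
      mul_mem' := fun {a b} ha hb => ⟨mul_mem ha.1 hb.1, by rw [ap_mul θ ha.1 hb.1, ha.2, hb.2]⟩
      inv_mem' := fun {a} ha => ⟨inv_mem ha.1, by rw [ap_inv θ ha.1, ha.2]⟩ }
  have hle : tw K m ≤ S := tw_le (fun t => ⟨⟨pE_pos_mem m t, hP t⟩, ⟨pE_neg_mem m t, hneg1 t⟩⟩)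
    fun t u => ⟨⟨bE_pos_mem m t u, hBall t u⟩, ⟨bE_neg_mem m t u, hneg2 t u⟩⟩
  refine MulEquiv.ext fun g => Subtype.ext ?_
  have := (hle g.2).2
  rwa [ap_eq θ g.2] at this

end Cfsg.Agent.LeadWork.ReeOut
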