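/-
Only field automorphisms are outer for the large Ree groups.
-/
import Cfsg.Agent.LeadWork.ReeOutAut

set_option autoImplicit false
set_option maxRecDepth 100000

universe u

namespace Cfsg.Agent.LeadWork.ReeOut

open Cfsg.Lie Cfsg.Agent.Chev Cfsg.Agent.Chev.Ree4 Cfsg.Agent.LeadWork

variable {K : Type u} [Field K] {m : ℕ}

theorem glMap_pE (f : K →+* K) (r r' : ℕ) (t : K) :
    ChevField.glMap chevF4 f (pE m r r' t) = pE m r r' (f t) := by
  rw [pE, pE, map_mul, ChevField.glMap_xu, ChevField.glMap_xu, map_pow]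

theorem glMap_bE (f : K →+* K) (a b ab aab : ℕ) (t u : K) :
    ChevField.glMap chevF4 f (bE m a b ab aab t u) = bE m a b ab aab (f t) (f u) := by
  simp only [bE, map_mul, ChevField.glMap_xu, map_add, map_pow]

theorem glMap_mem (f : K →+* K) {g : GL chevF4.Idx K} (hg : g ∈ tw K m) :
    ChevField.glMap chevF4 f g ∈ tw K m := by
  have hle : tw K m ≤ (tw K m).comap (ChevField.glMap chevF4 f) := by
    refine tw_le (fun t => ⟨?_, ?_⟩) fun t u => ⟨?_, ?_⟩
    · rw [Subgroup.mem_comap, glMap_pE]; exact pE_pos_mem m _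
    · rw [Subgroup.mem_comap, glMap_pE]; exact pE_neg_mem m _
    · rw [Subgroup.mem_comap, glMap_bE]; exact bE_pos_mem m _ _
    · rw [Subgroup.mem_comap, glMap_bE]; exact bE_neg_mem m _ _
  exact hle hg

/-- The action of a field endomorphism on the twisted group. -/
noncomputable def twMap (f : K →+* K) : ↥(tw K m) →* ↥(tw K m) :=
  ((ChevField.glMap chevF4 f).comp (tw K m).subtype).codRestrict _ fun g => glMap_mem f g.2

/-- The field automorphisms of the twisted group. -/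
noncomputable def fieldAut : (K ≃+* K) →* MulAut ↥(tw K m) :=
  MonoidHom.mk' (fun σ => MonoidHom.toMulEquiv (twMap σ.toRingHom) (twMap σ.symm.toRingHom)
    (MonoidHom.ext fun g => Subtype.ext (Units.ext (Matrix.ext fun i j => σ.symm_apply_apply _)))
    (MonoidHom.ext fun g => Subtype.ext (Units.ext (Matrix.ext fun i j => σ.apply_symm_apply _))))
    fun _ _ => MulEquiv.ext fun _ => Subtype.ext (Units.ext (Matrix.ext fun _ _ => rfl))

theorem ap_fieldAut (σ : K ≃+* K) {g : GL chevF4.Idx K} (hg : g ∈ tw K m) :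
    ap (fieldAut (m := m) σ) g = ChevField.glMap chevF4 σ.toRingHom g := by
  rw [ap_eq _ hg]; rfl

variable (h : Ctx K m)
include h

theorem field_stable (σ : K ≃+* K) :
    Stable (fieldAut (m := m) σ) (Ut K m) ∧ Stable (fieldAut (m := m) σ) (Vt K m) := by
  have := h.finite
  have hpos : ∀ g ∈ Ut K m, ChevField.glMap chevF4 σ.toRingHom g ∈ Ut K m := by
    intro g hg
    refine Subgroup.mem_inf.mpr ⟨?_, glMap_mem _ hg.2⟩
    have hle : chevF4.posUnipotent K ≤ (chevF4.posUnipotent K).comap (ChevField.glMap chevF4 σ.toRingHom) := by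
      refine (Subgroup.closure_le _).mpr ?_
      rintro x ⟨r, t, hr, e⟩
      rw [SetLike.mem_coe, Subgroup.mem_comap, show x = cF.xu r t from Units.ext (e.trans (Cert.coe_xu _ _ _).symm),
        ChevField.glMap_xu]
      exact Subgroup.subset_closure ⟨r, _, hr, Cert.coe_xu _ _ _⟩
    exact hle hg.1
  constructor
  · exact stable_of _ inf_le_right fun g hg => by rw [ap_fieldAut σ hg.2]; exact hpos g hg
  · refine stable_of _ ?_ ?_
    · rintro _ ⟨x, hx, rfl⟩
      exact mul_mem (mul_mem ((haveI := h.char; nk_mem (K := K) m 15)) hx.2) (inv_mem ((haveI := h.char; nk_mem (K := K) m 15)))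
    · have := h.char
      rintro _ ⟨x, hx, rfl⟩
      have hT : nk K 15 * x * (nk K 15)⁻¹ ∈ tw K m :=
        mul_mem (mul_mem (nk_mem m 15) hx.2) (inv_mem (nk_mem m 15))
      show ap _ (nk K 15 * x * (nk K 15)⁻¹) ∈ _
      rw [ap_fieldAut σ hT, map_mul, map_mul, map_inv,
        show nk K 15 = cF.nWordElt K (wdF 15) from rfl, ChevField.glMap_nWordElt]
      exact ⟨_, hpos x hx, rfl⟩

theorem field_eq_one (hm : 1 ≤ m) {σ : K ≃+* K}
    (hinn : fieldAut (m := m) σ ∈ Cfsg.Inn ↥(tw K m)) : σ = 1 := by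
  have := h.char
  have := h.finite
  obtain ⟨x, hx⟩ := hinn
  obtain ⟨hU, hV⟩ := field_stable h σ
  rw [← hx] at hU hV
  have hxT := x.2
  have hB : (x : GL chevF4.Idx K) ∈ Bt K m := normaliser_ut h hxT fun u hu => by
    rw [← ap_inner x hu.2]; exact (hU u hu.2).mpr hu
  set n := nk K 15
  have hn : n ∈ tw K m := nk_mem m 15
  have hinv : n⁻¹ = n := inv_eq_of_mul_eq_one_right (longest_sq h)
  have hB' : n * (x : GL chevF4.Idx K) * n ∈ Bt K m := normaliser_ut h (mul_mem (mul_mem hn hxT) hn) fun u hu => by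
    have h1 : n * u * n⁻¹ ∈ Vt K m := ⟨u, hu, rfl⟩
    have hT : n * u * n⁻¹ ∈ tw K m := mul_mem (mul_mem hn hu.2) (inv_mem hn)
    have h2 := (hV _ hT).mpr h1
    rw [ap_inner x hT, mem_cj] at h2
    rw [mul_inv_rev, mul_inv_rev, hinv]
    rw [hinv] at h2
    convert h2 using 1
    simp only [n]
    group
  obtain ⟨p, hp⟩ : (x : GL chevF4.Idx K) ∈ (tHom (K := K) m).range := by
    rw [range_tHom h]
    refine Subgroup.mem_inf.mpr ⟨?_, hxT⟩
    obtain ⟨a, ha, d, hd, e⟩ := cF.{u}.mem_borel.mp hB'.1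
    rw [← cF.{u}.borel_inf_negBorel]
    refine Subgroup.mem_inf.mpr ⟨hB.1, ?_⟩
    have hxe : (x : GL chevF4.Idx K) = (n * a * n⁻¹) * (n * d * n⁻¹) := by
      calc (x : GL chevF4.Idx K) = (n * n) * x * (n * n) := by rw [longest_sq h, one_mul, mul_one]
        _ = n * (n * x * n) * n := by group
        _ = n * (a * d) * n⁻¹ := by rw [← e, hinv]
        _ = _ := by group
    rw [hxe]
    exact mul_mem (Subgroup.mem_sup_left (longest_to_neg h ha))
      (Subgroup.mem_sup_right (cF.{u}.monomial_conj_diagonal (nk_monomial (K := K) 15) hd))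
  have key : ∀ t, σ t = (chP p : Kˣ) * t := fun t => pE_inj h (by
    have e1 : ap (fieldAut (m := m) σ) (pE m 33 24 t) = ap (MulAut.conj x) (pE m 33 24 t) := by rw [hx]
    rw [ap_fieldAut σ (pE_pos_mem m t), glMap_pE, ap_inner x (pE_pos_mem m t), ← hp, tHom_pE h] at e1
    exact e1)
  refine RingEquiv.ext fun t => ?_
  have h1 := key 1
  rw [map_one, mul_one] at h1
  rw [key t, ← h1, one_mul]
  rfl

theorem exists_field_aut (hm : 1 ≤ m) (θ : MulAut ↥(tw K m)) :
    ∃ σ : K ≃+* K, (fieldAut (m := m) σ)⁻¹ * θ ∈ Cfsg.Inn ↥(tw K m) := by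
  have := h.char
  have := h.finite
  obtain ⟨w, hU, hV⟩ := exists_normal_form h θ
  obtain ⟨f, -, hf, hpE, -⟩ := exists_field h hU hV
  have hf1 : f 1 ≠ 0 := fun e => by
    have h0 : f 0 = 0 := by
      have := hpE 0
      rw [pE_zero h, ap_one] at this
      exact pE_eq_one h this.symm
    exact one_ne_zero (hf.1 (e.trans h0.symm))
  obtain ⟨u₀, hu₀⟩ : ∃ u₀ : K, u₀ ≠ 0 ∧
      ap (MulAut.conj w * θ) (bE m 27 25 28 30 0 1) = bE m 27 25 28 30 0 u₀ := by
    have hX := stable_posRoot h hU hV (show 1 < 2 by norm_num)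
    obtain ⟨t, u, e⟩ := mem_xg_two h ((hX _ (bE_pos_mem m (0 : K) 1)).mpr (bE_mem_xg h 0 1))
    have h1 := congrArg (fun g => g * g) e
    simp only [← ap_mul _ (bE_pos_mem m (0 : K) 1) (bE_pos_mem m (0 : K) 1), bE_mul h,
      CharTwo.add_self_eq_zero, add_assoc, add_zero, zero_pow (show 2 ^ m ≠ 0 by positivity), zero_mul, zero_add,
      bE_zero, ap_one] at h1
    obtain ⟨-, h2⟩ := bE_eq_one h h1.symm
    rw [← pow_succ] at h2
    obtain rfl := eq_zero_of_pow_eq_zero h2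
    refine ⟨u, fun hu => ?_, e⟩
    rw [hu, bE_zero] at e
    have := congrArg (ap (MulAut.conj w * θ)⁻¹) e
    rw [ap_symm _ (bE_pos_mem m (0 : K) 1), ap_one] at this
    exact bE_zero_one_ne h this
  obtain ⟨p, hp1, hp2⟩ := chP_surj h hm (Units.mk0 (f 1) hf1)⁻¹ (Units.mk0 u₀ hu₀.1)⁻¹
  set t₀ : ↥(tw K m) := ⟨tHom m p, tHom_mem h p⟩
  set φ := MulAut.conj t₀ * (MulAut.conj w * θ)
  have hnormT : ∀ g ∈ Ut K m, tHom m p * g * (tHom m p)⁻¹ ∈ Ut K m := fun g hg => by
    have : tHom m p ∈ Bt K m := by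
      have h1 : tHom m p ∈ chevF4.diagonalSubgroup K ⊓ tw K m := by rw [← range_tHom h]; exact ⟨p, rfl⟩
      exact ⟨cF.{u}.diagonal_le_borel h1.1, h1.2⟩
    exact conj_mem_ut this hg
  have := finite_tw h
  have hφU : Stable φ (Ut K m) := stable_of _ inf_le_right fun g hg => by
    rw [← ap_ap _ _ hg.2, ap_inner t₀ (ap_mem _ _)]
    exact hnormT _ ((hU g hg.2).mpr hg)
  have hVle : Vt K m ≤ tw K m := by
    rintro _ ⟨x, hx, rfl⟩
    exact mul_mem (mul_mem (nk_mem m 15) hx.2) (inv_mem (nk_mem m 15))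
  have hφV : Stable φ (Vt K m) := stable_of _ hVle fun g hg => by
    rw [← ap_ap _ _ (hVle hg), ap_inner t₀ (ap_mem _ _), mem_cj]
    have h1 := (hV g (hVle hg)).mpr hg
    rw [mem_cj] at h1
    have hd : (nk K 15)⁻¹ * tHom m p * nk K 15 ∈ Bt K m := by
      have h1 : tHom m p ∈ chevF4.diagonalSubgroup K ⊓ tw K m := by rw [← range_tHom h]; exact ⟨p, rfl⟩
      refine Subgroup.mem_inf.mpr ⟨cF.{u}.diagonal_le_borel ?_, mul_mem (mul_mem (inv_mem (nk_mem m 15)) h1.2) (nk_mem m 15)⟩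
      have := cF.{u}.monomial_conj_diagonal (inv_mem (nk_monomial (K := K) 15)) h1.1
      rwa [inv_inv] at this
    have h2 := conj_mem_ut hd h1
    convert h2 using 1
    simp only [t₀]
    group
  obtain ⟨f', hf'add, hf'bij, hf'pE, hf'mul⟩ := exists_field h hφU hφV
  have hf'1 : f' 1 = 1 := pE_inj h (by
    rw [← hf'pE, ← ap_ap _ _ (pE_pos_mem m 1), ap_inner t₀ (ap_mem _ _), hpE, tHom_pE h, hp1]
    simp [hf1])
  let σ : K ≃+* K := { Equiv.ofBijective f' hf'bij with map_mul' := hf'mul hf'1, map_add' := hf'add }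
  obtain ⟨hσU, hσV⟩ := field_stable h σ
  have hcomp : ∀ A, Stable (fieldAut (m := m) σ) A → Stable φ A → A ≤ tw K m →
      Stable ((fieldAut (m := m) σ)⁻¹ * φ) A := by
    intro A hA hB hle g hg
    rw [← ap_ap _ _ hg, ← hB g hg]
    conv_rhs => rw [← ap_symm' (fieldAut (m := m) σ) (ap_mem φ g)]
    exact (hA _ (ap_mem _ _)).symm
  have hone : (fieldAut (m := m) σ)⁻¹ * φ = 1 := by
    refine eq_one_of_fix h (hcomp _ hσU hφU inf_le_right) (hcomp _ hσV hφV hVle) hm (fun t => ?_) ?_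
    · have e : ap φ (pE m 33 24 t) = ap (fieldAut (m := m) σ) (pE m 33 24 t) := by
        rw [hf'pE, ap_fieldAut σ (pE_pos_mem m t), glMap_pE]; rfl
      rw [← ap_ap _ _ (pE_pos_mem m t), e, ap_symm _ (pE_pos_mem m t)]
    · have e : ap φ (bE m 27 25 28 30 0 1) = bE m 27 25 28 30 0 (1 : K) := by
        rw [← ap_ap _ _ (bE_pos_mem m 0 1), ap_inner t₀ (ap_mem _ _), hu₀.2, tHom_bE_zero h, hp2]
        simp [hu₀.1]
      have e2 : ap (fieldAut (m := m) σ) (bE m 27 25 28 30 0 (1 : K)) = bE m 27 25 28 30 0 1 := by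
        rw [ap_fieldAut σ (bE_pos_mem m 0 1), glMap_bE, map_zero, map_one]
      rw [← ap_ap _ _ (bE_pos_mem m 0 1), e]
      conv_lhs => rw [← e2]
      exact ap_symm _ (bE_pos_mem m 0 1)
  refine ⟨σ, ?_⟩
  have hσ : fieldAut (m := m) σ = φ := inv_mul_eq_one.mp hone
  have e : θ = (MulAut.conj (t₀ * w))⁻¹ * fieldAut (m := m) σ := by
    rw [hσ, map_mul]; simp only [φ]; group
  rw [e, ← mul_assoc]
  have hn := (inferInstance : (Cfsg.Inn ↥(tw K m)).Normal).conj_mem _
    (inv_mem (show MulAut.conj (t₀ * w) ∈ Cfsg.Inn ↥(tw K m) from ⟨_, rfl⟩)) (fieldAut (m := m) σ)⁻¹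
  simpa [mul_assoc] using hn

/-- The order of the outer automorphism group. -/
theorem card_out (hm : 1 ≤ m) : Nat.card (Cfsg.Out ↥(tw K m)) = 2 * m + 1 := by
  have := h.finite
  have : Fact (Nat.Prime 2) := ⟨Nat.prime_two⟩
  let F : (K ≃+* K) →* Cfsg.Out ↥(tw K m) := (QuotientGroup.mk' _).comp (fieldAut (m := m))
  have hinj : Function.Injective F := by
    rw [injective_iff_map_eq_one]
    exact fun σ hσ => field_eq_one h hm ((QuotientGroup.eq_one_iff _).mp hσ)
  have hsurj : Function.Surjective F := by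
    intro q
    obtain ⟨θ, rfl⟩ := QuotientGroup.mk'_surjective _ q
    obtain ⟨σ, hσ⟩ := exists_field_aut h hm θ
    exact ⟨σ, QuotientGroup.eq.mpr hσ⟩
  rw [← Nat.card_congr (Equiv.ofBijective F ⟨hinj, hsurj⟩), Cfsg.Agent.Suzuki.card_ringEquiv h.card]

end Cfsg.Agent.LeadWork.ReeOut
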