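/-
Automorphisms of a Chevalley group: normalisation to one fixing the positive and negative unipotent
subgroups, and the action on fundamental root subgroups.
-/
import Cfsg.Agent.LeadWork.ChevFieldInvolution
import Cfsg.Agent.Chev.BNPairChev
set_option autoImplicit false

universe u

namespace Cfsg.Agent.LeadWork.Steinberg

open Cfsg.Lie Cfsg.Agent.Chev
open scoped Matrix MatrixGroups

variable {D : ChevalleyDatum} {F : Type u} [Field F]

open Classical in
/-- An automorphism of the group read on matrices. -/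
noncomputable def apG (θ : ↥(D.group F) ≃* ↥(D.group F)) (g : GL D.Idx F) : GL D.Idx F :=
  if h : g ∈ D.group F then (θ ⟨g, h⟩ : GL D.Idx F) else 1

variable (θ : ↥(D.group F) ≃* ↥(D.group F))

theorem apG_eq {g : GL D.Idx F} (h : g ∈ D.group F) : apG θ g = (θ ⟨g, h⟩ : GL D.Idx F) := dif_pos h

theorem apG_mem (g : GL D.Idx F) : apG θ g ∈ D.group F := by
  unfold apG; split
  · exact (θ _).2
  · exact one_mem _

theorem apG_one : apG θ (1 : GL D.Idx F) = 1 := by
  rw [apG_eq θ (one_mem _)]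
  exact congrArg Subtype.val (map_one θ)

theorem apG_mul {g h : GL D.Idx F} (hg : g ∈ D.group F) (hh : h ∈ D.group F) :
    apG θ (g * h) = apG θ g * apG θ h := by
  rw [apG_eq θ (mul_mem hg hh), apG_eq θ hg, apG_eq θ hh]
  exact congrArg Subtype.val (map_mul θ ⟨g, hg⟩ ⟨h, hh⟩)

theorem apG_inv {g : GL D.Idx F} (hg : g ∈ D.group F) : apG θ g⁻¹ = (apG θ g)⁻¹ := by
  rw [apG_eq θ (inv_mem hg), apG_eq θ hg]
  exact congrArg Subtype.val (map_inv θ ⟨g, hg⟩)

theorem apG_conj {g h : GL D.Idx F} (hg : g ∈ D.group F) (hh : h ∈ D.group F) :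
    apG θ (g * h * g⁻¹) = apG θ g * apG θ h * (apG θ g)⁻¹ := by
  rw [apG_mul θ (mul_mem hg hh) (inv_mem hg), apG_mul θ hg hh, apG_inv θ hg]

theorem apG_symm {g : GL D.Idx F} (hg : g ∈ D.group F) : apG θ.symm (apG θ g) = g := by
  rw [apG_eq θ.symm (apG_mem θ g)]
  have : (⟨apG θ g, apG_mem θ g⟩ : ↥(D.group F)) = θ ⟨g, hg⟩ := Subtype.ext (apG_eq θ hg)
  rw [this, MulEquiv.symm_apply_apply]

theorem apG_symm' {g : GL D.Idx F} (hg : g ∈ D.group F) : apG θ (apG θ.symm g) = g :=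
  apG_symm θ.symm hg

theorem apG_inj {g h : GL D.Idx F} (hg : g ∈ D.group F) (hh : h ∈ D.group F)
    (e : apG θ g = apG θ h) : g = h := by rw [← apG_symm θ hg, e, apG_symm θ hh]

/-- `θ` carries `K` onto `L`. -/
def Maps (θ : ↥(D.group F) ≃* ↥(D.group F)) (K L : Subgroup (GL D.Idx F)) : Prop :=
  ∀ g ∈ D.group F, g ∈ K ↔ apG θ g ∈ L

variable {θ}

theorem Maps.symm {K L : Subgroup (GL D.Idx F)} (h : Maps θ K L) : Maps θ.symm L K := fun g hg => by
  have := h _ (apG_mem θ.symm g)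
  rw [apG_symm' θ hg] at this
  exact this.symm

theorem Maps.inf {K L K' L' : Subgroup (GL D.Idx F)} (h : Maps θ K L) (h' : Maps θ K' L') :
    Maps θ (K ⊓ K') (L ⊓ L') := fun g hg => by
  rw [Subgroup.mem_inf, Subgroup.mem_inf, h g hg, h' g hg]

theorem maps_of_le {K L : Subgroup (GL D.Idx F)} (hK : K ≤ D.group F)
    (h₁ : ∀ g ∈ K, apG θ g ∈ L) (h₂ : ∀ g ∈ L, apG θ.symm g ∈ K) : Maps θ K L :=
  fun g hg => ⟨h₁ g, fun h => by
    have := h₂ _ h
    rwa [apG_symm θ hg] at this⟩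

theorem apG_sup_le {K K' M : Subgroup (GL D.Idx F)} (hK : K ≤ D.group F) (hK' : K' ≤ D.group F)
    (h : ∀ g ∈ K, apG θ g ∈ M) (h' : ∀ g ∈ K', apG θ g ∈ M) {g : GL D.Idx F} (hg : g ∈ K ⊔ K') :
    apG θ g ∈ M := by
  suffices key : g ∈ D.group F ∧ apG θ g ∈ M from key.2
  rw [Subgroup.sup_eq_closure] at hg
  induction hg using Subgroup.closure_induction with
  | mem x hx =>
    rcases hx with hx | hx
    · exact ⟨hK hx, h x hx⟩
    · exact ⟨hK' hx, h' x hx⟩
  | one => exact ⟨one_mem _, by rw [apG_one]; exact one_mem _⟩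
  | mul x y _ _ hx hy => exact ⟨mul_mem hx.1 hy.1, by rw [apG_mul θ hx.1 hy.1]; exact mul_mem hx.2 hy.2⟩
  | inv x _ hx => exact ⟨inv_mem hx.1, by rw [apG_inv θ hx.1]; exact inv_mem hx.2⟩

theorem apG_closure_le {S : Set (GL D.Idx F)} {M : Subgroup (GL D.Idx F)}
    (hS : ∀ g ∈ S, g ∈ D.group F ∧ apG θ g ∈ M) {g : GL D.Idx F} (hg : g ∈ Subgroup.closure S) :
    apG θ g ∈ M := by
  suffices key : g ∈ D.group F ∧ apG θ g ∈ M from key.2
  induction hg using Subgroup.closure_induction with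
  | mem x hx => exact hS x hx
  | one => exact ⟨one_mem _, by rw [apG_one]; exact one_mem _⟩
  | mul x y _ _ hx hy => exact ⟨mul_mem hx.1 hy.1, by rw [apG_mul θ hx.1 hy.1]; exact mul_mem hx.2 hy.2⟩
  | inv x _ hx => exact ⟨inv_mem hx.1, by rw [apG_inv θ hx.1]; exact inv_mem hx.2⟩

theorem Maps.sup {K L K' L' : Subgroup (GL D.Idx F)} (h : Maps θ K L) (h' : Maps θ K' L')
    (hK : K ≤ D.group F) (hK' : K' ≤ D.group F) (hL : L ≤ D.group F) (hL' : L' ≤ D.group F) :
    Maps θ (K ⊔ K') (L ⊔ L') := by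
  refine maps_of_le (sup_le hK hK') (fun g hg => ?_) fun g hg => ?_
  · exact apG_sup_le hK hK' (fun x hx => Subgroup.mem_sup_left ((h x (hK hx)).mp hx))
      (fun x hx => Subgroup.mem_sup_right ((h' x (hK' hx)).mp hx)) hg
  · exact apG_sup_le hL hL' (fun x hx => Subgroup.mem_sup_left ((h.symm x (hL hx)).mp hx))
      (fun x hx => Subgroup.mem_sup_right ((h'.symm x (hL' hx)).mp hx)) hg

variable (C : Cert.{u} D)
include C

theorem pos_le_group : D.posUnipotent F ≤ D.group F := C.pos_le_borel.trans C.borel_le_group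

theorem neg_le_group : D.negUnipotent F ≤ D.group F := C.span_le_group D.IsNegRoot

theorem rootSubgroup_le_group (r : ℕ) : D.rootSubgroup F r ≤ D.group F := fun x hx => by
  obtain ⟨t, rfl⟩ := C.mem_rootSubgroup.mp hx
  exact C.xu_mem_group r t

theorem mem_pos_of_p_element (p : ℕ) [Fact p.Prime] [CharP F p] {g : GL D.Idx F}
    (hg : g ∈ D.borelSubgroup F) {k : ℕ} (hk : g ^ p ^ k = 1) : g ∈ D.posUnipotent F := by
  obtain ⟨v, hv, d, hd, rfl⟩ := C.mem_borel.mp hg
  have key : ∀ m : ℕ, ∃ w ∈ D.posUnipotent F, (v * d) ^ m = w * d ^ m := by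
    intro m
    induction m with
    | zero => exact ⟨1, one_mem _, by simp⟩
    | succ m ih =>
      obtain ⟨w, hw, e⟩ := ih
      refine ⟨w * (d ^ m * v * (d ^ m)⁻¹), mul_mem hw
        ((Subgroup.mem_normalizer_iff.mp (C.posUnipotent_normalised (pow_mem hd m)) v).mp hv), ?_⟩
      rw [pow_succ, e, pow_succ]; group
  obtain ⟨w, hw, e⟩ := key (p ^ k)
  rw [hk] at e
  have hd1 : d ^ p ^ k = 1 := by
    have h1 : d ^ p ^ k ∈ D.posUnipotent F ⊓ D.diagonalSubgroup F :=
      Subgroup.mem_inf.mpr ⟨by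
        have := eq_inv_of_mul_eq_one_right e.symm
        rw [this]; exact inv_mem hw, pow_mem hd _⟩
    rwa [C.posUnipotent_inf_diagonal, Subgroup.mem_bot] at h1
  obtain ⟨χ, -, -, hχ⟩ := C.diagonal_char hd
  have hpow : ∀ m : ℕ, ((d ^ m : GL D.Idx F) : Matrix D.Idx D.Idx F) = dMat D (χ ^ m) := by
    intro m
    induction m with
    | zero => rw [pow_zero, pow_zero, Units.val_one, dMat_one]
    | succ m ih => rw [pow_succ, pow_succ, Units.val_mul, ih, hχ, dMat_mul]
  have hd' : d = 1 := by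
    apply Units.ext
    rw [hχ, Units.val_one, ← dMat_one]
    refine dMat_congr fun s hs => ?_
    have h2 := congrFun (congrFun ((hpow (p ^ k)).symm.trans (by rw [hd1, Units.val_one]))
      (Sum.inr ⟨s, hs⟩)) (Sum.inr ⟨s, hs⟩)
    simp [dMat] at h2
    have h3 : (χ s - 1) ^ p ^ k = 0 := by
      rw [sub_pow_char_pow, h2, one_pow, sub_self]
    exact sub_eq_zero.mp (eq_zero_of_pow_eq_zero h3)
  rw [hd', mul_one]
  exact hv

/-- The positive unipotent subgroup is a Sylow subgroup. -/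
theorem exists_sylow {M : CoxeterMatrix (Fin D.rank)} (hM : CoxOK D M) (p : ℕ) [Fact p.Prime] [CharP F p]
    [Fintype F] : ∃ P : Sylow p ↥(D.group F),
      (P : Subgroup ↥(D.group F)) = (D.posUnipotent F).subgroupOf (D.group F) := by
  let G := D.group F
  haveI : Finite (GL D.Idx F) := inferInstance
  let U : Subgroup G := (D.posUnipotent F).subgroupOf G
  have hUG : D.posUnipotent F ≤ G := pos_le_group C
  have hUp : IsPGroup p U := (ChevField.isPGroup_pos C p).of_equiv (Subgroup.subgroupOfEquivOfLe hUG).symm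
  refine ⟨⟨U, hUp, fun {Q} hQ hle => ?_⟩, rfl⟩
  by_contra hne
  have hlt : U.subgroupOf Q < ⊤ := by
    rw [lt_top_iff_ne_top, Ne, Subgroup.subgroupOf_eq_top]
    exact fun h => hne (le_antisymm h hle)
  haveI : Group.IsNilpotent Q := hQ.isNilpotent
  obtain ⟨x, hx, hxU⟩ := SetLike.exists_of_lt ((normalizerCondition_of_isNilpotent) _ hlt)
  have hxn : (x : GL D.Idx F) ∈ Subgroup.normalizer (D.posUnipotent F : Set (GL D.Idx F)) := by
    refine Subgroup.mem_normalizer_iff.mpr fun y => ⟨fun hy => ?_, fun hy => ?_⟩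
    · exact ((Subgroup.mem_normalizer_iff.mp hx) ⟨⟨y, hUG hy⟩, hle (show (⟨y, hUG hy⟩ : G) ∈ U from hy)⟩).mp hy
    · have hy' := ((Subgroup.mem_normalizer_iff.mp (inv_mem hx))
        ⟨⟨_, hUG hy⟩, hle (show (⟨_, hUG hy⟩ : G) ∈ U from hy)⟩).mp hy
      simpa [Subgroup.mem_subgroupOf, U, mul_assoc] using hy'
  obtain ⟨k, hk⟩ := hQ x
  exact hxU (mem_pos_of_p_element C p (ChevField.normalizer_pos C hM (x : G).2 hxn) (k := k)
    (by simpa using congrArg (fun z : Q => ((z : G) : GL D.Idx F)) hk))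

theorem neg_normal_of_conj {g : GL D.Idx F} (h : ∀ x ∈ D.posUnipotent F, g * x * g⁻¹ ∈ D.negUnipotent F)
    {x : GL D.Idx F} (hx : x ∈ D.posUnipotent F) (hg : g * x * g⁻¹ ∈ D.borelSubgroup F) : x = 1 := by
  have : g * x * g⁻¹ ∈ D.borelSubgroup F ⊓ D.negUnipotent F := Subgroup.mem_inf.mpr ⟨hg, h x hx⟩
  rw [C.borel_inf_neg, Subgroup.mem_bot] at this
  exact conj_eq_one_iff.mp this

/-- A longest element exchanges the two unipotent subgroups, in both senses. -/
theorem exists_opposition {M : CoxeterMatrix (Fin D.rank)} (hM : CoxOK D M) :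
    ∃ n ∈ D.monomialSubgroup F, (∀ x, x ∈ D.posUnipotent F ↔ n * x * n⁻¹ ∈ D.negUnipotent F) ∧
      (∀ x, x ∈ D.negUnipotent F ↔ n * x * n⁻¹ ∈ D.posUnipotent F) ∧
      (∀ i < D.rank, ∃ j < D.rank, ∀ x, x ∈ D.rootSubgroup F (D.neg (D.simple i)) ↔
        n * x * n⁻¹ ∈ D.rootSubgroup F (D.simple j)) ∧
      ∀ j < D.rank, ∃ i < D.rank, ∀ x, x ∈ D.rootSubgroup F (D.neg (D.simple i)) ↔
        n * x * n⁻¹ ∈ D.rootSubgroup F (D.simple j) := by
  obtain ⟨n, hn, hinv⟩ := C.exists_longest (F := F) hM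
  obtain ⟨L, -, hmap⟩ := C.monomial_map hM hn
  have hL := C.fin_word_lt L
  set w := act D (L.map Fin.val) with hw
  have hwlt : ∀ r < D.nroots, w r < D.nroots := fun r hr => C.act_lt hL hr
  have hwpos : ∀ r, D.IsPosRoot r → D.IsNegRoot (w r) := fun r hr =>
    (C.inverts_iff hr (hwlt r hr.1) (hmap r hr.1)).mp (hinv r hr)
  have hwneg : ∀ r, D.IsNegRoot r → D.IsPosRoot (w r) := fun r hr => by
    have h1 := C.posRoot_neg (hwpos _ (C.posRoot_neg hr))
    rwa [hw, C.act_neg hL hr.1, C.neg_neg _ (hwlt r hr.1)] at h1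
  set L' := (L.map Fin.val).reverse with hL'
  have hL'lt : ∀ a ∈ L', a < D.rank := fun a ha => hL a (List.mem_reverse.mp ha)
  have hback : ∀ r < D.nroots, w (act D L' r) = r := fun r hr => act_reverse_right C hL hr
  have hwneg' : ∀ r, D.IsPosRoot r → D.IsNegRoot (act D L' r) := fun r hr => by
    rcases C.posRoot_or_negRoot (C.act_lt hL'lt hr.1) with h | h
    · exact absurd (hback r hr.1 ▸ hwpos _ h) (C.not_pos_and_neg hr)
    · exact h
  have hwpos' : ∀ r, D.IsNegRoot r → D.IsPosRoot (act D L' r) := fun r hr => by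
    rcases C.posRoot_or_negRoot (C.act_lt hL'lt hr.1) with h | h
    · exact h
    · exact absurd hr (C.not_pos_and_neg (hback r hr.1 ▸ hwneg _ h))
  have hconj : ∀ r < D.nroots, ∀ x, x ∈ D.rootSubgroup F r ↔ n * x * n⁻¹ ∈ D.rootSubgroup F (w r) := by
    intro r hr x
    rw [hw, ← hmap r hr]
    exact ⟨fun h => ⟨x, h, rfl⟩, fun ⟨y, hy, e⟩ => by
      have e' : n * y * n⁻¹ = n * x * n⁻¹ := e
      rwa [← mul_left_cancel (mul_right_cancel e')]⟩
  have hspan : ∀ (P Q : ℕ → Prop), (∀ r, P r → r < D.nroots) → (∀ r, P r → Q (w r)) →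
      spanGroup D F P ≤ (spanGroup D F Q).comap (MulAut.conj n).toMonoidHom := by
    intro P Q hP hPQ
    refine C.span_le fun r hr t => ?_
    obtain ⟨v, hv⟩ := C.mem_rootSubgroup.mp ((hconj r (hP r hr) _).mp (C.mem_rootSubgroup.mpr ⟨t, rfl⟩))
    show n * C.xu r t * n⁻¹ ∈ spanGroup D F Q
    rw [hv]
    exact C.xu_mem_span (hPQ r hr) v
  have hspan' : ∀ (P Q : ℕ → Prop), (∀ r, P r → r < D.nroots) → (∀ r, P r → Q (act D L' r)) →
      spanGroup D F P ≤ (spanGroup D F Q).map (MulAut.conj n).toMonoidHom := by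
    intro P Q hP hPQ
    refine C.span_le fun r hr t => ?_
    have hlt := C.act_lt hL'lt (hP r hr)
    have h1 : C.xu r t ∈ (D.rootSubgroup F (act D L' r)).map (MulAut.conj n).toMonoidHom := by
      rw [hmap _ hlt]
      exact C.mem_rootSubgroup.mpr ⟨t, congrArg (fun s => C.xu s t) (hback r (hP r hr)).symm⟩
    obtain ⟨y, hy, e⟩ := h1
    obtain ⟨v, rfl⟩ := C.mem_rootSubgroup.mp hy
    exact ⟨_, C.xu_mem_span (hPQ r hr) v, e⟩
  refine ⟨n, hn, fun (x : GL D.Idx F) => ⟨fun h => hspan D.IsPosRoot D.IsNegRoot (fun r h => h.1) hwpos h, fun h => ?_⟩,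
    fun (x : GL D.Idx F) => ⟨fun h => hspan D.IsNegRoot D.IsPosRoot (fun r h => h.1) hwneg h, fun h => ?_⟩, ?_⟩
  · obtain ⟨y, hy, e⟩ := hspan' D.IsNegRoot D.IsPosRoot (fun r h => h.1) hwpos' h
    have e' : n * y * n⁻¹ = n * x * n⁻¹ := e
    rwa [← mul_left_cancel (mul_right_cancel e')]
  · obtain ⟨y, hy, e⟩ := hspan' D.IsPosRoot D.IsNegRoot (fun r h => h.1) hwneg' h
    have e' : n * y * n⁻¹ = n * x * n⁻¹ := e
    rwa [← mul_left_cancel (mul_right_cancel e')]
  -- the images of the negatives of the fundamental roots are the fundamental roots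
  have hsimp : ∀ j < D.rank, ∃ i < D.rank, w (D.neg (D.simple i)) = D.simple j := by
    intro j hj
    have hp := C.simple_lt j hj
    set q := act D L' (D.neg (D.simple j)) with hq
    have hqpos : D.IsPosRoot q := hwpos' _ (C.negRoot_neg (C.pos_simple hj))
    have hqw : w q = D.neg (D.simple j) := hback _ (C.neg_lt _ hp)
    obtain ⟨i, hi, hne⟩ : ∃ i < D.rank, C.coef q i ≠ 0 := by
      obtain ⟨i, hi, -, hne⟩ := C.exists_descend_supp hqpos
      exact ⟨i, hi, hne⟩
    refine ⟨i, hi, ?_⟩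
    have hk : ∀ k < D.rank, k ≠ j → C.coef (w (D.simple i)) k = 0 := by
      intro k hk hkj
      have h0 := C.act_coef hL hqpos.1 k hk
      rw [← hw, hqw, C.coef_neg _ hp k hk, C.coef_simple j hj k hk, if_neg hkj, neg_zero] at h0
      have hle : ∀ m ∈ Finset.range D.rank, C.coef q m * C.coef (w (D.simple m)) k ≤ 0 := fun m hm => by
        have hm' := Finset.mem_range.mp hm
        have hn' := hwpos _ (C.pos_simple hm')
        exact mul_nonpos_of_nonneg_of_nonpos ((C.pos_iff q hqpos.1).mp hqpos m hm')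
          ((C.negRoot_iff _ hn'.1).mp hn' k hk)
      have := (Finset.sum_eq_zero_iff_of_nonpos hle).mp h0.symm i (Finset.mem_range.mpr hi)
      exact (mul_eq_zero.mp this).resolve_left hne
    have hn' := hwpos _ (C.pos_simple hi)
    have hpn := C.posRoot_neg hn'
    have hsup : D.neg (w (D.simple i)) = D.simple j := C.supp_simple _ hpn.1
      ((C.pos_iff _ hpn.1).mp hpn) j hj fun k hk' hkj => by
        rw [C.coef_neg _ hn'.1 k hk', hk k hk' hkj, neg_zero]
    rw [hw, C.act_neg hL (C.simple_lt i hi)]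
    exact hsup
  choose g hg hgw using hsimp
  have hginj : ∀ a (ha : a < D.rank) b (hb : b < D.rank), g a ha = g b hb → a = b := by
    intro a ha b hb e
    have := (hgw a ha).symm.trans ((congrArg (fun i => w (D.neg (D.simple i))) e).trans (hgw b hb))
    have h1 := C.coef_simple b hb a ha
    rw [← this, C.coef_simple a ha a ha, if_pos rfl] at h1
    by_contra hab
    rw [if_neg hab] at h1
    exact one_ne_zero h1
  have hsurj : Function.Surjective (fun a : Fin D.rank => (⟨g a a.isLt, hg a a.isLt⟩ : Fin D.rank)) :=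
    Finite.surjective_of_injective fun a b e => Fin.ext (hginj a a.isLt b b.isLt (congrArg Fin.val e))
  refine ⟨fun i hi => ?_, fun j hj => ⟨g j hj, hg j hj, fun x => ?_⟩⟩
  · obtain ⟨j, hj⟩ := hsurj ⟨i, hi⟩
    refine ⟨j, j.isLt, fun x => ?_⟩
    have := hgw j j.isLt
    rw [show g j j.isLt = i from congrArg Fin.val hj] at this
    rw [hconj _ (C.neg_lt _ (C.simple_lt i hi)), this]
  · rw [hconj _ (C.neg_lt _ (C.simple_lt _ (hg j hj))), hgw j hj]

/-- The fixed points `U`, `V` after conjugation. -/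
theorem exists_normalised [Finite F] {M : CoxeterMatrix (Fin D.rank)} (hM : CoxOK D M)
    (θ : ↥(D.group F) ≃* ↥(D.group F)) :
    ∃ x : ↥(D.group F), Maps (θ.trans (MulAut.conj x)) (D.posUnipotent F) (D.posUnipotent F) ∧
      Maps (θ.trans (MulAut.conj x)) (D.negUnipotent F) (D.negUnipotent F) := by
  classical
  haveI : Fintype F := Fintype.ofFinite F
  obtain ⟨p, hp⟩ := CharP.exists F
  haveI := hp
  haveI : Fact p.Prime := ⟨CharP.char_is_prime F p⟩
  obtain ⟨P, hP⟩ := exists_sylow C hM p (F := F)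
  obtain ⟨a, ha⟩ := MulAction.exists_smul_eq ↥(D.group F) ((θ : MulAut ↥(D.group F)) • P) P
  have hU : Maps (θ.trans (MulAut.conj a)) (D.posUnipotent F) (D.posUnipotent F) := by
    intro g hg
    have h1 : apG (θ.trans (MulAut.conj a)) g = ((a * θ ⟨g, hg⟩ * a⁻¹ : ↥(D.group F)) : GL D.Idx F) :=
      apG_eq _ hg
    rw [h1]
    have h2 : ((a • (θ : MulAut ↥(D.group F)) • P : Sylow p ↥(D.group F)) : Subgroup ↥(D.group F)) =
        ((P : Subgroup ↥(D.group F)).map θ.toMonoidHom).map (MulAut.conj a).toMonoidHom := rfl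
    rw [ha, hP] at h2
    constructor
    · intro hgU
      have : a * θ ⟨g, hg⟩ * a⁻¹ ∈ (D.posUnipotent F).subgroupOf (D.group F) := by
        rw [h2]; exact ⟨_, ⟨⟨g, hg⟩, hgU, rfl⟩, rfl⟩
      exact this
    · intro h
      have : a * θ ⟨g, hg⟩ * a⁻¹ ∈ (D.posUnipotent F).subgroupOf (D.group F) := h
      rw [h2] at this
      obtain ⟨_, ⟨y, hy, rfl⟩, e⟩ := this
      have e' : a * θ y * a⁻¹ = a * θ ⟨g, hg⟩ * a⁻¹ := e
      rw [θ.injective (mul_left_cancel (mul_right_cancel e'))] at hy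
      exact hy
  set θ' := θ.trans (MulAut.conj a)
  obtain ⟨n₀, hn₀, hpn, hnp, -, -⟩ := exists_opposition C hM (F := F)
  have hn₀G := C.monomial_le_group hn₀
  obtain ⟨n, hn, hcell⟩ := C.exists_bruhat hM (apG_mem θ' n₀)
  obtain ⟨b, hb, b', hb', e⟩ := hcell
  obtain ⟨v, hv, d, hd, rfl⟩ := C.mem_borel.mp hb
  have hBn : D.borelSubgroup F ≤ Subgroup.normalizer (D.posUnipotent F : Set (GL D.Idx F)) :=
    sup_le Subgroup.le_normalizer C.posUnipotent_normalised
  -- the image of the negative subgroup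
  have himg : ∀ g ∈ D.group F,
      g ∈ D.negUnipotent F ↔ (v * n)⁻¹ * apG θ' g * (v * n) ∈ D.posUnipotent F := by
    intro g hg
    have h1 : g = n₀ * (n₀⁻¹ * g * n₀) * n₀⁻¹ := by group
    have h2 : n₀⁻¹ * g * n₀ ∈ D.group F := mul_mem (mul_mem (inv_mem hn₀G) hg) hn₀G
    rw [show g ∈ D.negUnipotent F ↔ n₀⁻¹ * g * n₀ ∈ D.posUnipotent F by rw [hpn]; rw [← h1],
      hU _ h2]
    conv_rhs => rw [h1, apG_conj θ' hn₀G h2, e]
    generalize apG θ' (n₀⁻¹ * g * n₀) = y
    have hd' : n⁻¹ * d * n * b' ∈ Subgroup.normalizer (D.posUnipotent F : Set (GL D.Idx F)) :=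
      hBn (mul_mem (C.diagonal_le_borel (C.monomial_conj_diagonal' hn hd)) hb')
    rw [show (v * n)⁻¹ * (v * d * n * b' * y * (v * d * n * b')⁻¹) * (v * n) =
      (n⁻¹ * d * n * b') * y * (n⁻¹ * d * n * b')⁻¹ by group]
    exact Subgroup.mem_normalizer_iff.mp hd' y
  let v' : ↥(D.group F) := ⟨v, pos_le_group C hv⟩
  refine ⟨v'⁻¹ * a, ?_, ?_⟩
  · intro g hg
    have h1 : apG (θ.trans (MulAut.conj (v'⁻¹ * a))) g = v⁻¹ * apG θ' g * v := by
      rw [apG_eq _ hg, apG_eq _ hg]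
      show ((v'⁻¹ * a * θ ⟨g, hg⟩ * (v'⁻¹ * a)⁻¹ : ↥(D.group F)) : GL D.Idx F) =
        v⁻¹ * ((a * θ ⟨g, hg⟩ * a⁻¹ : ↥(D.group F)) : GL D.Idx F) * v
      simp [v', mul_assoc]
    rw [h1, hU g hg]
    have := Subgroup.mem_normalizer_iff.mp (inv_mem (hBn (C.pos_le_borel hv))) (apG θ' g)
    rwa [inv_inv] at this
  · -- `n` inverts every positive root
    have hinv : ∀ r, D.IsPosRoot r → Inverts D F n r := by
      intro r hr
      obtain ⟨L, -, hmap⟩ := C.monomial_map hM hn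
      have hlt := C.act_lt (C.fin_word_lt L) hr.1
      refine (C.inverts_iff hr hlt (hmap r hr.1)).mpr ((C.posRoot_or_negRoot hlt).resolve_left fun hpos => ?_)
      refine C.rootSubgroup_ne_bot (F := F) hr.1 (eq_bot_iff.mpr fun y hy => ?_)
      have hny : n * y * n⁻¹ ∈ D.posUnipotent F := by
        refine C.rootSubgroup_le_pos hpos ?_
        rw [← hmap r hr.1]; exact ⟨y, hy, rfl⟩
      have hvy : v * (n * y * n⁻¹) * v⁻¹ ∈ D.posUnipotent F := mul_mem (mul_mem hv hny) (inv_mem hv)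
      set g := apG θ'.symm (v * (n * y * n⁻¹) * v⁻¹)
      have hvG : v * (n * y * n⁻¹) * v⁻¹ ∈ D.group F := pos_le_group C hvy
      have hgG : g ∈ D.group F := apG_mem _ _
      have hgU : g ∈ D.posUnipotent F := (hU.symm _ hvG).mp hvy
      have hgV : g ∈ D.negUnipotent F := by
        rw [himg g hgG, apG_symm' θ' hvG,
          show (v * n)⁻¹ * (v * (n * y * n⁻¹) * v⁻¹) * (v * n) = y by group]
        exact C.rootSubgroup_le_pos hr hy
      have hg1 : g = 1 := by
        have : g ∈ D.borelSubgroup F ⊓ D.negUnipotent F := Subgroup.mem_inf.mpr ⟨C.pos_le_borel hgU, hgV⟩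
        rwa [C.borel_inf_neg, Subgroup.mem_bot] at this
      have := apG_symm' θ' hvG
      rw [show apG θ'.symm (v * (n * y * n⁻¹) * v⁻¹) = 1 from hg1, apG_one] at this
      rw [Subgroup.mem_bot]
      exact conj_eq_one_iff.mp (conj_eq_one_iff.mp this.symm)
    have hfwd : ∀ y ∈ D.posUnipotent F, n * y * n⁻¹ ∈ D.negUnipotent F := fun y hy =>
      C.conj_inverts_le_neg (C.span_mono hinv hy)
    have hcard : (D.posUnipotent F).map (MulAut.conj n).toMonoidHom = D.negUnipotent F := by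
      refine SetLike.coe_injective (Set.eq_of_subset_of_ncard_le ?_ (le_of_eq ?_) (Set.toFinite _))
      · rintro _ ⟨y, hy, rfl⟩; exact hfwd y hy
      · have e1 : ((D.negUnipotent F : Set (GL D.Idx F))) = (MulAut.conj n₀) '' (D.posUnipotent F : Set (GL D.Idx F)) := by
          ext z
          constructor
          · intro hz
            refine ⟨n₀⁻¹ * z * n₀, (hpn _).mpr ?_, ?_⟩
            · rwa [show n₀ * (n₀⁻¹ * z * n₀) * n₀⁻¹ = z by group]
            · show n₀ * (n₀⁻¹ * z * n₀) * n₀⁻¹ = z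
              group
          · rintro ⟨y, hy, rfl⟩; exact (hpn y).mp hy
        rw [e1, Subgroup.coe_map, MulEquiv.coe_toMonoidHom, Set.ncard_image_of_injective _ (MulEquiv.injective _),
          Set.ncard_image_of_injective _ (MulEquiv.injective _)]
    intro g hg
    have h1 : apG (θ.trans (MulAut.conj (v'⁻¹ * a))) g = v⁻¹ * apG θ' g * v := by
      rw [apG_eq _ hg, apG_eq _ hg]
      show ((v'⁻¹ * a * θ ⟨g, hg⟩ * (v'⁻¹ * a)⁻¹ : ↥(D.group F)) : GL D.Idx F) =
        v⁻¹ * ((a * θ ⟨g, hg⟩ * a⁻¹ : ↥(D.group F)) : GL D.Idx F) * v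
      simp [v', mul_assoc]
    rw [h1, himg g hg, ← hcard]
    constructor
    · intro h
      exact ⟨_, h, by show n * ((v * n)⁻¹ * apG θ' g * (v * n)) * n⁻¹ = _; group⟩
    · rintro ⟨y, hy, ey⟩
      have ey' : n * y * n⁻¹ = v⁻¹ * apG θ' g * v := ey
      rwa [show (v * n)⁻¹ * apG θ' g * (v * n) = n⁻¹ * (v⁻¹ * apG θ' g * v) * n by group, ← ey',
        show n⁻¹ * (n * y * n⁻¹) * n = y by group]

end Cfsg.Agent.LeadWork.Steinberg
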