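/-
An automorphism fixing `U` and `V` permutes the fundamental root subgroups.
-/
import Cfsg.Agent.LeadWork.SteinbergBasic
import Cfsg.Agent.Chev.Parabolic
set_option autoImplicit false

universe u

namespace Cfsg.Agent.LeadWork.Steinberg

open Cfsg.Lie Cfsg.Agent.Chev
open scoped Matrix MatrixGroups

variable {D : ChevalleyDatum} {F : Type u} [Field F] (C : Cert.{u} D)
include C

theorem diagonal_le_normalizer_neg :
    D.diagonalSubgroup F ≤ Subgroup.normalizer (D.negUnipotent F : Set (GL D.Idx F)) := C.negUnipotent_normalised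

theorem borel_iff_normalizer {M : CoxeterMatrix (Fin D.rank)} (hM : CoxOK D M) {g : GL D.Idx F}
    (hg : g ∈ D.group F) :
    g ∈ D.borelSubgroup F ↔ g ∈ Subgroup.normalizer (D.posUnipotent F : Set (GL D.Idx F)) :=
  ⟨fun h => (sup_le Subgroup.le_normalizer C.posUnipotent_normalised : D.borelSubgroup F ≤ _) h,
    ChevField.normalizer_pos C hM hg⟩

theorem diagonal_iff_normalizer {M : CoxeterMatrix (Fin D.rank)} (hM : CoxOK D M) {g : GL D.Idx F}
    (hg : g ∈ D.group F) :
    g ∈ D.diagonalSubgroup F ↔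
      g ∈ D.borelSubgroup F ∧ g ∈ Subgroup.normalizer (D.negUnipotent F : Set (GL D.Idx F)) := by
  refine ⟨fun h => ⟨C.diagonal_le_borel h, C.negUnipotent_normalised h⟩, fun ⟨h1, h2⟩ => ?_⟩
  obtain ⟨v, hv, d, hd, rfl⟩ := C.mem_borel.mp h1
  obtain ⟨n, hn, hpn, hnp, -, -⟩ := exists_opposition C hM (F := F)
  have hvn : v ∈ Subgroup.normalizer (D.negUnipotent F : Set (GL D.Idx F)) := by
    have := mul_mem h2 (inv_mem (C.negUnipotent_normalised hd))
    rwa [mul_inv_cancel_right] at this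
  have hw : n * v * n⁻¹ ∈ Subgroup.normalizer (D.posUnipotent F : Set (GL D.Idx F)) := by
    refine Subgroup.mem_normalizer_iff.mpr fun y => ?_
    rw [show y ∈ D.posUnipotent F ↔ n⁻¹ * y * n ∈ D.negUnipotent F by
        rw [hnp]; rw [show n * (n⁻¹ * y * n) * n⁻¹ = y by group],
      Subgroup.mem_normalizer_iff.mp hvn, hnp,
      show n * (v * (n⁻¹ * y * n) * v⁻¹) * n⁻¹ = n * v * n⁻¹ * y * (n * v * n⁻¹)⁻¹ by group]
  have hvG : v ∈ D.group F := pos_le_group C hv
  have hb := ChevField.normalizer_pos C hM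
    (mul_mem (mul_mem (C.monomial_le_group hn) hvG) (inv_mem (C.monomial_le_group hn))) hw
  have h1 : v = 1 := neg_normal_of_conj C (g := n) (fun x hx => (hpn x).mp hx) hv hb
  rw [h1, one_mul]
  exact hd

theorem diagonal_normalises_root {r : ℕ} (hr : r < D.nroots) :
    D.diagonalSubgroup F ≤ Subgroup.normalizer (D.rootSubgroup F r : Set (GL D.Idx F)) := by
  have key : ∀ h ∈ D.diagonalSubgroup F, ∀ x ∈ D.rootSubgroup F r, h * x * h⁻¹ ∈ D.rootSubgroup F r := by
    intro h hh x hx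
    obtain ⟨c, -, e⟩ := C.diagonal_conj_xu hh hr
    obtain ⟨t, rfl⟩ := C.mem_rootSubgroup.mp hx
    exact C.mem_rootSubgroup.mpr ⟨_, e t⟩
  intro h hh
  refine Subgroup.mem_normalizer_iff.mpr fun x => ⟨key h hh x, fun hx => ?_⟩
  have := key h⁻¹ (inv_mem hh) _ hx
  rwa [show h⁻¹ * (h * x * h⁻¹) * h⁻¹⁻¹ = x by group] at this

theorem nu_notMem_borel {M : CoxeterMatrix (Fin D.rank)} (hM : CoxOK D M) {i : ℕ} (hi : i < D.rank) :
    C.nu (D.simple i) (1 : F) ∉ D.borelSubgroup F := by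
  intro h
  have h1 : C.nWordElt F [i] ∈ D.diagonalSubgroup F := by
    rw [← C.borel_inf_monomial hM]
    exact Subgroup.mem_inf.mpr ⟨by simpa [Cert.nWordElt] using h, C.nWordElt_mem (by simpa using hi)⟩
  have h2 := C.act_eq_of_mem_diagonal (by simpa using hi) h1 (C.simple_lt i hi)
  rw [act_cons, act_nil, C.refl_simple hi] at h2
  exact C.neg_ne _ (C.simple_lt i hi) h2

theorem mem_minimal_parabolic {M : CoxeterMatrix (Fin D.rank)} (hM : CoxOK D M) {i : ℕ} (hi : i < D.rank)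
    {g : GL D.Idx F} (hg : g ∈ D.parabolicSubgroup F {i}) :
    g ∈ D.borelSubgroup F ∨ InCell D F (C.nu (D.simple i) 1) g := by
  obtain ⟨P, hP⟩ := C.exists_minimal_parabolic (F := F) hM hi
  have hmem : ∀ x, x ∈ P ↔ x ∈ D.borelSubgroup F ∨ InCell D F (C.nu (D.simple i) 1) x := by
    intro x
    rw [← SetLike.mem_coe, hP]
    simp only [Set.mem_union, SetLike.mem_coe, DoubleCoset.mem_doubleCoset, InCell]
  refine (hmem g).mp (C.parabolic_le (K := P) (fun x hx => (hmem x).mpr (Or.inl hx)) (fun j hj hjJ => ?_) hg)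
  rw [Set.mem_singleton_iff.mp hjJ]
  exact (hmem _).mpr (Or.inr (inCell_self _))

theorem nu_mem_parabolic_iff {M : CoxeterMatrix (Fin D.rank)} (hM : CoxOK D M) {i j : ℕ} (hi : i < D.rank)
    (hj : j < D.rank) : C.nu (D.simple j) (1 : F) ∈ D.parabolicSubgroup F {i} ↔ j = i := by
  refine ⟨fun h => ?_, fun h => h ▸ C.nu_mem_parabolic hj rfl⟩
  rcases mem_minimal_parabolic C hM hi h with hB | hc
  · exact absurd hB (nu_notMem_borel C hM hj)
  · exact (C.nu_ne_of_ne hi hj (C.inCell_unique hM (C.nu_mem_monomial hi) (C.nu_mem_monomial hj) hc)).symm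

theorem xu_neg_mem_parabolic {i : ℕ} (hi : i < D.rank) (t : F) :
    C.xu (D.neg (D.simple i)) t ∈ D.parabolicSubgroup F {i} :=
  C.xu_mem_parabolic (C.pos_simple hi) (C.inRootSub_simple hi (Set.mem_singleton i)) t

/-- `V ∩ P_i` is the root subgroup of `-p_i`. -/
theorem neg_inf_parabolic {M : CoxeterMatrix (Fin D.rank)} (hM : CoxOK D M) {i : ℕ} (hi : i < D.rank) :
    D.negUnipotent F ⊓ D.parabolicSubgroup F {i} = D.rootSubgroup F (D.neg (D.simple i)) := by
  set p := D.simple i with hp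
  have hpp := C.pos_simple hi
  refine le_antisymm (fun g hg => ?_) (le_inf (C.rootSubgroup_le_neg (C.negRoot_neg hpp)) ?_)
  swap
  · intro x hx
    obtain ⟨t, rfl⟩ := C.mem_rootSubgroup.mp hx
    exact xu_neg_mem_parabolic C hi t
  obtain ⟨hgV, hgP⟩ := Subgroup.mem_inf.mp hg
  rcases mem_minimal_parabolic C hM hi hgP with hB | hc
  · have : g ∈ D.borelSubgroup F ⊓ D.negUnipotent F := Subgroup.mem_inf.mpr ⟨hB, hgV⟩
    rw [C.borel_inf_neg, Subgroup.mem_bot] at this
    rw [this]; exact one_mem _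
  obtain ⟨b, hb, u, hu, e⟩ := C.exists_canonical hM (C.nu_mem_monomial hi) hc
  have hux : u ∈ D.rootSubgroup F p := by
    refine C.span_le (P := Inverts D F (C.nu p 1)) (fun r hr t => ?_) hu
    by_cases hrp : r = p
    · rw [hrp]; exact C.mem_rootSubgroup.mpr ⟨t, rfl⟩
    · exfalso
      have h1 := C.refl_posExcept hi (s := r) ⟨hr.1, hrp⟩
      exact C.not_pos_and_neg h1.1 ((C.inverts_iff hr.1 h1.1.1 (C.isRefl_nu hi r hr.1.1)).mp hr)
  obtain ⟨t, rfl⟩ := C.mem_rootSubgroup.mp hux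
  by_cases ht : t = 0
  · exfalso
    rw [ht, C.xu_zero, mul_one] at e
    obtain ⟨m, hm, hpn, hnp, -, -⟩ := exists_opposition C hM (F := F)
    have hpn' : m⁻¹ * g * m ∈ D.posUnipotent F := by
      rw [hpn]; rwa [show m * (m⁻¹ * g * m) * m⁻¹ = g by group]
    have hcell : InCell D F m (C.nu p 1 * m) :=
      ⟨b⁻¹, inv_mem hb, m⁻¹ * g * m, C.pos_le_borel hpn', by rw [e]; simp only [hp]; group⟩
    have hd := C.inCell_unique hM hm (mul_mem (C.nu_mem_monomial hi) hm) hcell
    have hd2 := C.monomial_conj_diagonal hm hd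
    rw [show m * (m⁻¹ * (C.nu p 1 * m)) * m⁻¹ = C.nu p (1 : F) by group] at hd2
    exact nu_notMem_borel C hM hi (C.diagonal_le_borel hd2)
  · refine C.mem_rootSubgroup.mpr ⟨t⁻¹, ?_⟩
    have hdec := C.xu_neg_decomp (F := F) hi (inv_ne_zero ht)
    rw [inv_inv] at hdec
    set b₀ := C.xu p t * C.hu p (-t) with hb0
    have hb0B : b₀ ∈ D.borelSubgroup F := mul_mem (C.pos_le_borel (C.xu_mem_pos hpp _))
      (C.diagonal_le_borel (C.hu_simple_mem_diagonal (C.simple_lt i hi) (neg_ne_zero.mpr ht)))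
    have e2 : g = b * b₀⁻¹ * C.xu (D.neg p) t⁻¹ := by
      rw [hdec, e]; simp only [hb0, hp, mul_inv_rev]; group
    have hbb : b * b₀⁻¹ ∈ D.borelSubgroup F ⊓ D.negUnipotent F := by
      refine Subgroup.mem_inf.mpr ⟨mul_mem hb (inv_mem hb0B), ?_⟩
      have := mul_mem hgV (inv_mem (C.xu_mem_neg (C.negRoot_neg hpp) t⁻¹))
      rwa [e2, mul_inv_cancel_right] at this
    rw [C.borel_inf_neg, Subgroup.mem_bot] at hbb
    rw [e2, hbb, one_mul]

theorem commute_simple_neg {i j : ℕ} (hi : i < D.rank) (hj : j < D.rank) (hne : i ≠ j) (t v : F) :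
    Commute (C.xu (D.simple i) t) (C.xu (D.neg (D.simple j)) v) := by
  have hp := C.simple_lt i hi
  have hq := C.simple_lt j hj
  have hnil : D.commTerms (D.simple i) (D.neg (D.simple j)) = [] := by
    refine List.eq_nil_iff_forall_not_mem.mpr fun c hc => ?_
    obtain ⟨h1, h2, h3⟩ := C.commTerms_coef hp (C.neg_lt _ hq) c hc
    have hi' := h3 i hi
    have hj' := h3 j hj
    rw [C.coef_neg _ hq i hi, C.coef_simple i hi i hi, C.coef_simple j hj i hi, if_pos rfl,
      if_neg hne] at hi'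
    rw [C.coef_neg _ hq j hj, C.coef_simple i hi j hj, C.coef_simple j hj j hj, if_pos rfl,
      if_neg (Ne.symm hne)] at hj'
    rcases C.pos_or_neg _ (C.commTerms_lt hp (C.neg_lt _ hq) c hc) with h | h
    · have := h j hj; simp at hi' hj'; omega
    · have := h i hi; simp at hi' hj'; omega
  have hne1 : D.neg (D.simple j) ≠ D.simple i := fun e =>
    C.not_pos_and_neg (C.pos_simple hi) (e ▸ C.negRoot_neg (C.pos_simple hj))
  have hne2 : D.neg (D.simple j) ≠ D.neg (D.simple i) := fun e => by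
    have h1 := congrArg D.neg e
    rw [C.neg_neg _ hq, C.neg_neg _ hp] at h1
    have h2 := C.coef_simple i hi j hj
    rw [← h1, C.coef_simple j hj j hj, if_pos rfl, if_neg (Ne.symm hne)] at h2
    exact one_ne_zero h2
  have h := C.conj_xu hp (C.neg_lt _ hq) hne1 hne2 t v
  rw [ChevalleyDatum.commWord, hnil, List.map_nil, show C.wu ([] : List (ℕ × F)) = 1 from rfl, mul_one,
    mul_inv_eq_iff_eq_mul] at h
  exact h

theorem not_commute_simple_self {M : CoxeterMatrix (Fin D.rank)} (hM : CoxOK D M) {i : ℕ} (hi : i < D.rank) :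
    ¬ Commute (C.xu (D.simple i) (1 : F)) (C.xu (D.neg (D.simple i)) 1) := by
  intro h
  set p := D.simple i
  have hx : ∀ t : F, C.xu p t ∈ D.borelSubgroup F := fun t => C.pos_le_borel (C.xu_mem_pos (C.pos_simple hi) t)
  have hh : C.hu p (-1 : F) ∈ D.borelSubgroup F :=
    C.diagonal_le_borel (C.hu_simple_mem_diagonal (C.simple_lt i hi) (neg_ne_zero.mpr one_ne_zero))
  have hinv : Inverts D F (C.nu p 1) p := (C.inverts_iff (C.pos_simple hi) (C.refl_lt i hi _ (C.simple_lt i hi))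
    (C.isRefl_nu hi p (C.simple_lt i hi))).mpr (by rw [C.refl_simple hi]; exact C.negRoot_neg (C.pos_simple hi))
  have e := C.xu_neg_decomp (F := F) hi (z := 1) one_ne_zero
  rw [inv_one] at e
  have h' : C.xu p 1 * C.xu (D.neg p) (1 : F) = C.xu (D.neg p) 1 * C.xu p 1 := h
  rw [e] at h'
  obtain ⟨-, hu⟩ := C.canonical_unique (b := C.xu p 1 * (C.xu p 1 * C.hu p (-1)))
    (b' := C.xu p 1 * C.hu p (-1)) (n := C.nu p 1) (u := C.xu p 1) (u' := C.xu p 1 * C.xu p 1)
    (mul_mem (hx 1) (mul_mem (hx 1) hh)) (mul_mem (hx 1) hh) (C.xu_mem_span hinv _)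
    (mul_mem (C.xu_mem_span hinv _) (C.xu_mem_span hinv _)) (by simpa [p, mul_assoc] using h')
  exact one_ne_zero (C.xu_eq_one (C.simple_lt i hi) (mul_eq_left.mp hu.symm))

variable {θ : ↥(D.group F) ≃* ↥(D.group F)}

omit C in
theorem maps_normalizer {K : Subgroup (GL D.Idx F)} (hKG : K ≤ D.group F) (h : Maps θ K K) {g : GL D.Idx F}
    (hg : g ∈ D.group F) :
    g ∈ Subgroup.normalizer (K : Set (GL D.Idx F)) ↔
      apG θ g ∈ Subgroup.normalizer (K : Set (GL D.Idx F)) := by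
  have key : ∀ (θ : ↥(D.group F) ≃* ↥(D.group F)), Maps θ K K → ∀ g ∈ D.group F,
      g ∈ Subgroup.normalizer (K : Set (GL D.Idx F)) → apG θ g ∈ Subgroup.normalizer (K : Set (GL D.Idx F)) := by
    intro θ h g hg hn
    refine Subgroup.mem_normalizer_iff.mpr fun y => ?_
    have hiff : ∀ y ∈ D.group F, y ∈ K ↔ apG θ g * y * (apG θ g)⁻¹ ∈ K := by
      intro y hy
      have hx := apG_mem θ.symm y
      rw [← apG_symm' θ hy, ← apG_conj θ hg hx, ← h _ hx, ← h _ (mul_mem (mul_mem hg hx) (inv_mem hg))]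
      exact Subgroup.mem_normalizer_iff.mp hn _
    refine ⟨fun hy => (hiff y (hKG hy)).mp hy, fun hy => ?_⟩
    have hyG : y ∈ D.group F := by
      have := mul_mem (mul_mem (inv_mem (apG_mem θ g)) (hKG hy)) (apG_mem θ g)
      rwa [show (apG θ g)⁻¹ * (apG θ g * y * (apG θ g)⁻¹) * apG θ g = y by group] at this
    exact (hiff y hyG).mpr hy
  refine ⟨key θ h g hg, fun hn => ?_⟩
  have := key θ.symm h.symm _ (apG_mem θ g) hn
  rwa [apG_symm θ hg] at this

variable {M : CoxeterMatrix (Fin D.rank)} (hM : CoxOK D M)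
  (hU : Maps θ (D.posUnipotent F) (D.posUnipotent F)) (hV : Maps θ (D.negUnipotent F) (D.negUnipotent F))
include hM hU

theorem maps_borel : Maps θ (D.borelSubgroup F) (D.borelSubgroup F) := fun g hg => by
  rw [borel_iff_normalizer C hM hg, borel_iff_normalizer C hM (apG_mem θ g)]
  exact maps_normalizer (pos_le_group C) hU hg

include hV

theorem maps_diagonal : Maps θ (D.diagonalSubgroup F) (D.diagonalSubgroup F) := fun g hg => by
  rw [diagonal_iff_normalizer C hM hg, diagonal_iff_normalizer C hM (apG_mem θ g),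
    maps_borel C hM hU g hg, maps_normalizer (neg_le_group C) hV hg]

omit hV in
theorem maps_parabolic {i : ℕ} (hi : i < D.rank) :
    ∃ j < D.rank, Maps θ (D.parabolicSubgroup F {i}) (D.parabolicSubgroup F {j}) := by
  have hB := maps_borel C hM hU
  let Q : Subgroup (GL D.Idx F) :=
    { carrier := {g | g ∈ D.group F ∧ apG θ.symm g ∈ D.parabolicSubgroup F {i}}
      one_mem' := ⟨one_mem _, by rw [apG_one]; exact one_mem _⟩
      mul_mem' := fun {a b} ha hb => ⟨mul_mem ha.1 hb.1, by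
        rw [apG_mul θ.symm ha.1 hb.1]; exact mul_mem ha.2 hb.2⟩
      inv_mem' := fun {a} ha => ⟨inv_mem ha.1, by rw [apG_inv θ.symm ha.1]; exact inv_mem ha.2⟩ }
  have hBQ : D.borelSubgroup F ≤ Q := fun g hg => ⟨C.borel_le_group hg,
    C.borel_le_parabolic _ ((hB.symm g (C.borel_le_group hg)).mp hg)⟩
  have hQG : Q ≤ D.group F := fun g hg => hg.1
  obtain ⟨j, hj, hjQ⟩ : ∃ j < D.rank, C.nu (D.simple j) (1 : F) ∈ Q := by
    by_contra hno
    push Not at hno
    have hQB : Q ≤ D.borelSubgroup F := C.overgroup_le hM hBQ hQG le_rfl fun k hk h => absurd h (hno k hk)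
    have hnG := C.nu_mem_group (F := F) (D.simple i) 1
    have h1 : apG θ (C.nu (D.simple i) 1) ∈ Q := ⟨apG_mem θ _, by
      rw [apG_symm θ hnG]; exact C.nu_mem_parabolic hi rfl⟩
    exact nu_notMem_borel C hM hi ((hB _ hnG).mpr (hQB h1))
  refine ⟨j, hj, maps_of_le (C.parabolic_le_group _) ?_ fun g hg => ?_⟩
  swap
  · exact (C.parabolic_le (K := Q) hBQ (fun k hk hkJ => by rw [Set.mem_singleton_iff.mp hkJ]; exact hjQ) hg).2
  -- the preimage of the image parabolic subgroup is everything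
  let R : Subgroup (GL D.Idx F) :=
    { carrier := {g | g ∈ D.group F ∧ apG θ g ∈ D.parabolicSubgroup F {j}}
      one_mem' := ⟨one_mem _, by rw [apG_one]; exact one_mem _⟩
      mul_mem' := fun {a b} ha hb => ⟨mul_mem ha.1 hb.1, by
        rw [apG_mul θ ha.1 hb.1]; exact mul_mem ha.2 hb.2⟩
      inv_mem' := fun {a} ha => ⟨inv_mem ha.1, by rw [apG_inv θ ha.1]; exact inv_mem ha.2⟩ }
  have hBR : D.borelSubgroup F ≤ R := fun g hg => ⟨C.borel_le_group hg,
    C.borel_le_parabolic _ ((hB g (C.borel_le_group hg)).mp hg)⟩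
  have hmR : apG θ.symm (C.nu (D.simple j) 1) ∈ R := ⟨apG_mem _ _, by
    rw [apG_symm' θ hjQ.1]; exact C.nu_mem_parabolic hj rfl⟩
  obtain ⟨k, hk, hkR, hkP⟩ : ∃ k < D.rank, C.nu (D.simple k) (1 : F) ∈ R ∧
      C.nu (D.simple k) (1 : F) ∈ D.parabolicSubgroup F {i} := by
    by_contra hno
    push Not at hno
    have hle : R ⊓ D.parabolicSubgroup F {i} ≤ D.borelSubgroup F :=
      C.overgroup_le hM (le_inf hBR (C.borel_le_parabolic _)) (inf_le_left.trans fun g hg => hg.1) le_rfl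
        fun k hk h => absurd h.2 (hno k hk h.1)
    have h2 := (hB _ (apG_mem θ.symm _)).mp (hle ⟨hmR, hjQ.2⟩)
    rw [apG_symm' θ hjQ.1] at h2
    exact nu_notMem_borel C hM hj h2
  have hki := (nu_mem_parabolic_iff C hM hi hk).mp hkP
  subst hki
  intro g hg
  exact (C.parabolic_le (K := R) hBR (fun l hl hlJ => by rw [Set.mem_singleton_iff.mp hlJ]; exact hkR) hg).2

theorem maps_negRoot {i j : ℕ} (hi : i < D.rank) (hj : j < D.rank)
    (h : Maps θ (D.parabolicSubgroup F {i}) (D.parabolicSubgroup F {j})) :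
    Maps θ (D.rootSubgroup F (D.neg (D.simple i))) (D.rootSubgroup F (D.neg (D.simple j))) := by
  rw [← neg_inf_parabolic C hM hi, ← neg_inf_parabolic C hM hj]
  exact hV.inf h

/-- The permutation of the nodes and the images of the fundamental root subgroups. -/
theorem exists_perm : ∃ π : Equiv.Perm (Fin D.rank), ∀ i : Fin D.rank,
    Maps θ (D.rootSubgroup F (D.simple i)) (D.rootSubgroup F (D.simple (π i))) ∧
      Maps θ (D.rootSubgroup F (D.neg (D.simple i))) (D.rootSubgroup F (D.neg (D.simple (π i)))) := by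
  have h : ∀ i : Fin D.rank, ∃ j : Fin D.rank,
      Maps θ (D.rootSubgroup F (D.neg (D.simple i))) (D.rootSubgroup F (D.neg (D.simple j))) := fun i => by
    obtain ⟨j, hj, h⟩ := maps_parabolic C hM hU i.isLt
    exact ⟨⟨j, hj⟩, maps_negRoot C hM hU hV i.isLt hj h⟩
  choose p hp using h
  have hneg_inj : ∀ i j : Fin D.rank,
      D.rootSubgroup F (D.neg (D.simple i)) = D.rootSubgroup F (D.neg (D.simple j)) → i = j := by
    intro i j e
    by_contra hne
    refine not_commute_simple_self C hM (F := F) j.isLt ?_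
    have h1 : C.xu (D.neg (D.simple j)) (1 : F) ∈ D.rootSubgroup F (D.neg (D.simple i)) := by
      rw [e]; exact C.mem_rootSubgroup.mpr ⟨1, rfl⟩
    obtain ⟨v, hv⟩ := C.mem_rootSubgroup.mp h1
    rw [hv]
    exact commute_simple_neg C j.isLt i.isLt (fun e => hne (Fin.ext e.symm)) _ _
  have hpinj : Function.Injective p := by
    intro i j e
    refine hneg_inj i j ?_
    ext g
    constructor <;> intro hg <;> have hgG := rootSubgroup_le_group C _ hg
    · exact (hp j g hgG).mpr (e ▸ (hp i g hgG).mp hg)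
    · exact (hp i g hgG).mpr (e ▸ (hp j g hgG).mp hg)
  let π : Equiv.Perm (Fin D.rank) := Equiv.ofBijective p ⟨hpinj, Finite.surjective_of_injective hpinj⟩
  refine ⟨π, fun i => ⟨?_, hp i⟩⟩
  obtain ⟨n, hn, hpn, hnp, hsp, hsp'⟩ := exists_opposition C hM (F := F)
  have hnG := C.monomial_le_group hn
  -- the image of the longest element
  set m := n⁻¹ * apG θ n with hm
  have hmG : m ∈ D.group F := mul_mem (inv_mem hnG) (apG_mem θ n)
  have hmU : m ∈ Subgroup.normalizer (D.posUnipotent F : Set (GL D.Idx F)) := by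
    refine Subgroup.mem_normalizer_iff.mpr fun y => ?_
    refine ⟨fun hy => ?_, fun hy => ?_⟩
    · have hyG := pos_le_group C hy
      rw [hpn, show n * (m * y * m⁻¹) * n⁻¹ = apG θ n * y * (apG θ n)⁻¹ by rw [hm]; group,
        ← apG_symm' θ hyG, ← apG_conj θ hnG (apG_mem _ _),
        ← hV _ (mul_mem (mul_mem hnG (apG_mem _ _)) (inv_mem hnG)), ← hpn, ← hU.symm y hyG]
      exact hy
    · have hyG : y ∈ D.group F := by
        have := mul_mem (mul_mem (inv_mem hmG) (pos_le_group C hy)) hmG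
        rwa [show m⁻¹ * (m * y * m⁻¹) * m = y by group] at this
      rw [hpn, show n * (m * y * m⁻¹) * n⁻¹ = apG θ n * y * (apG θ n)⁻¹ by rw [hm]; group,
        ← apG_symm' θ hyG, ← apG_conj θ hnG (apG_mem _ _),
        ← hV _ (mul_mem (mul_mem hnG (apG_mem _ _)) (inv_mem hnG)), ← hpn, ← hU.symm y hyG] at hy
      exact hy
  have hmV : m ∈ Subgroup.normalizer (D.negUnipotent F : Set (GL D.Idx F)) := by
    refine Subgroup.mem_normalizer_iff.mpr fun y => ?_
    refine ⟨fun hy => ?_, fun hy => ?_⟩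
    · have hyG := neg_le_group C hy
      rw [hnp, show n * (m * y * m⁻¹) * n⁻¹ = apG θ n * y * (apG θ n)⁻¹ by rw [hm]; group,
        ← apG_symm' θ hyG, ← apG_conj θ hnG (apG_mem _ _),
        ← hU _ (mul_mem (mul_mem hnG (apG_mem _ _)) (inv_mem hnG)), ← hnp, ← hV.symm y hyG]
      exact hy
    · have hyG : y ∈ D.group F := by
        have := mul_mem (mul_mem (inv_mem hmG) (neg_le_group C hy)) hmG
        rwa [show m⁻¹ * (m * y * m⁻¹) * m = y by group] at this
      rw [hnp, show n * (m * y * m⁻¹) * n⁻¹ = apG θ n * y * (apG θ n)⁻¹ by rw [hm]; group,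
        ← apG_symm' θ hyG, ← apG_conj θ hnG (apG_mem _ _),
        ← hU _ (mul_mem (mul_mem hnG (apG_mem _ _)) (inv_mem hnG)), ← hnp, ← hV.symm y hyG] at hy
      exact hy
  have hmH : m ∈ D.diagonalSubgroup F :=
    (diagonal_iff_normalizer C hM hmG).mpr ⟨ChevField.normalizer_pos C hM hmG hmU, hmV⟩
  obtain ⟨a, ha, hax⟩ := hsp' i i.isLt
  obtain ⟨c, hc, hcx⟩ := hsp (p ⟨a, ha⟩) (p ⟨a, ha⟩).isLt
  have hmaps : Maps θ (D.rootSubgroup F (D.simple i)) (D.rootSubgroup F (D.simple c)) := by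
    intro g hg
    have hg' : n⁻¹ * g * n ∈ D.group F := mul_mem (mul_mem (inv_mem hnG) hg) hnG
    have e1 := hax (n⁻¹ * g * n)
    rw [show n * (n⁻¹ * g * n) * n⁻¹ = g by group] at e1
    rw [← e1, hp ⟨a, ha⟩ _ hg', show apG θ g = n * (m * apG θ (n⁻¹ * g * n) * m⁻¹) * n⁻¹ by
      conv_lhs => rw [show g = n * (n⁻¹ * g * n) * n⁻¹ by group, apG_conj θ hnG hg']
      rw [hm]; group, ← hcx]
    exact Subgroup.mem_normalizer_iff.mp
      ((diagonal_normalises_root C (C.neg_lt _ (C.simple_lt _ (p ⟨a, ha⟩).isLt))) hmH) _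
  suffices hce : c = (p i : ℕ) by rw [hce] at hmaps; exact hmaps
  by_contra hne
  refine not_commute_simple_self C hM (F := F) i.isLt ?_
  have hxG : C.xu (D.simple i) (1 : F) ∈ D.group F := C.xu_mem_group _ _
  have hyG : C.xu (D.neg (D.simple i)) (1 : F) ∈ D.group F := C.xu_mem_group _ _
  obtain ⟨s, hs⟩ := C.mem_rootSubgroup.mp ((hmaps _ hxG).mp (C.mem_rootSubgroup.mpr ⟨1, rfl⟩))
  obtain ⟨v, hv⟩ := C.mem_rootSubgroup.mp ((hp i _ hyG).mp (C.mem_rootSubgroup.mpr ⟨1, rfl⟩))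
  refine apG_inj θ (mul_mem hxG hyG) (mul_mem hyG hxG) ?_
  rw [apG_mul θ hxG hyG, apG_mul θ hyG hxG, hs, hv]
  exact commute_simple_neg C hc (p i).isLt hne s v

end Cfsg.Agent.LeadWork.Steinberg
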