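/-
An automorphism permuting the fundamental root subgroups acts on them, after a diagonal twist, by field
automorphisms tied along the diagram.
-/
import Cfsg.Agent.LeadWork.SteinbergRoots
import Cfsg.Agent.Suzuki.ChevChar
set_option autoImplicit false

universe u

namespace Cfsg.Agent.LeadWork.Steinberg

open Cfsg.Lie Cfsg.Agent.Chev
open scoped Matrix MatrixGroups

variable {D : ChevalleyDatum} {F : Type u} [Field F]

/-- The diagonal matrix of a root function as a unit. -/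
noncomputable def charUnit (D : ChevalleyDatum) (χ : ℕ → Fˣ) : GL D.Idx F :=
  ⟨D.charDiag F χ, D.charDiag F (fun s => (χ s)⁻¹),
    by
      show dMat D (fun s => (χ s : F)) * dMat D (fun s => (((χ s)⁻¹ : Fˣ) : F)) = 1
      rw [dMat_mul, ← dMat_one]; exact dMat_congr fun s _ => by simp,
    by
      show dMat D (fun s => (((χ s)⁻¹ : Fˣ) : F)) * dMat D (fun s => (χ s : F)) = 1
      rw [dMat_mul, ← dMat_one]; exact dMat_congr fun s _ => by simp⟩

variable (C : Cert.{u} D)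
include C

theorem charUnit_conj (hst : Suzuki.ChainSteps D) {χ : ℕ → Fˣ} (hχ : D.IsRootCharacter χ) {r : ℕ}
    (hr : r < D.nroots) (t : F) :
    charUnit D χ * C.xu r t * (charUnit D χ)⁻¹ = C.xu r ((χ r : F) * t) := by
  rw [mul_inv_eq_iff_eq_mul]
  apply Units.ext
  show dMat D (fun s => (χ s : F)) * _ = _
  rw [Units.val_mul, C.coe_xu, C.coe_xu, C.dMat_conj (Suzuki.isChar_of_rootCharacter C hst hχ) hr t]
  rfl

omit C in
theorem isRootCharacter_inv {χ : ℕ → Fˣ} (hχ : D.IsRootCharacter χ) :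
    D.IsRootCharacter (fun s => (χ s)⁻¹) := by
  refine ⟨fun r hr => ?_, fun r s k hr hs h => ?_⟩
  · simp only [hχ.1 r hr]
  · simp only [hχ.2 r s k hr hs h, mul_inv]

theorem charUnit_mem (hst : Suzuki.ChainSteps D) {χ : ℕ → Fˣ} (hχ : D.IsRootCharacter χ) :
    ∀ g ∈ D.group F, charUnit D χ * g * (charUnit D χ)⁻¹ ∈ D.group F := by
  have : D.group F ≤ (D.group F).comap (MulAut.conj (charUnit D χ)).toMonoidHom := by
    nth_rw 1 [C.group_eq_closure]
    refine (Subgroup.closure_le _).mpr ?_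
    rintro g ⟨r, hr, t, rfl⟩
    show charUnit D χ * C.xu r t * (charUnit D χ)⁻¹ ∈ D.group F
    rw [charUnit_conj C hst hχ hr]
    exact C.xu_mem_group _ _
  exact fun g hg => this hg

/-- Conjugation by the diagonal matrix of a root character. -/
noncomputable def diagAut (hst : Suzuki.ChainSteps D) {χ : ℕ → Fˣ} (hχ : D.IsRootCharacter χ) :
    ↥(D.group F) ≃* ↥(D.group F) where
  toFun g := ⟨charUnit D χ * (g : GL D.Idx F) * (charUnit D χ)⁻¹, charUnit_mem C hst hχ _ g.2⟩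
  invFun g := ⟨charUnit D (fun s => (χ s)⁻¹) * (g : GL D.Idx F) * (charUnit D (fun s => (χ s)⁻¹))⁻¹,
    charUnit_mem C hst (isRootCharacter_inv hχ) _ g.2⟩
  left_inv g := Subtype.ext (by
    have e : charUnit D (fun s => (χ s)⁻¹) = (charUnit D χ : GL D.Idx F)⁻¹ := Units.ext rfl
    simp [e, mul_assoc])
  right_inv g := Subtype.ext (by
    have e : charUnit D (fun s => (χ s)⁻¹) = (charUnit D χ : GL D.Idx F)⁻¹ := Units.ext rfl
    simp [e, mul_assoc])
  map_mul' g h := Subtype.ext (by simp [mul_assoc])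

theorem diagAut_isDiagonal (hst : Suzuki.ChainSteps D) {χ : ℕ → Fˣ} (hχ : D.IsRootCharacter χ) :
    D.IsDiagonalAut (diagAut (F := F) C hst hχ) := ⟨χ, hχ, fun _ => rfl⟩

theorem diagAut_symm_isDiagonal (hst : Suzuki.ChainSteps D) {χ : ℕ → Fˣ} (hχ : D.IsRootCharacter χ) :
    D.IsDiagonalAut (diagAut (F := F) C hst hχ).symm :=
  ⟨fun s => (χ s)⁻¹, isRootCharacter_inv hχ, fun _ => rfl⟩

/-- The root character with prescribed values on the fundamental roots. -/
def rootChar (a : Fin D.rank → Fˣ) (r : ℕ) : Fˣ := ∏ k : Fin D.rank, a k ^ C.coef r k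

theorem isRootCharacter_rootChar (a : Fin D.rank → Fˣ) : D.IsRootCharacter (rootChar C a) := by
  refine ⟨fun r hr => ?_, fun r s k hr hs h => ?_⟩
  · simp only [rootChar, ← Finset.prod_inv_distrib]
    exact Finset.prod_congr rfl fun j _ => by rw [C.coef_neg r hr j j.isLt, zpow_neg]
  · simp only [rootChar, ← Finset.prod_mul_distrib]
    refine Finset.prod_congr rfl fun j _ => ?_
    rw [C.chainRoot_coef hr hs le_rfl h j j.isLt, Nat.cast_one, one_mul, zpow_add]

theorem rootChar_simple (a : Fin D.rank → Fˣ) (i : Fin D.rank) : rootChar C a (D.simple i) = a i := by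
  rw [rootChar, Finset.prod_eq_single i (fun k _ hk => by
    rw [C.coef_simple i i.isLt k k.isLt, if_neg (fun e => hk (Fin.ext e)), zpow_zero])
    (fun h => absurd (Finset.mem_univ _) h), C.coef_simple i i.isLt i i.isLt, if_pos rfl, zpow_one]

theorem inverts_simple {i : ℕ} (hi : i < D.rank) : Inverts D F (C.nu (D.simple i) 1) (D.simple i) :=
  (C.inverts_iff (C.pos_simple hi) (C.refl_lt i hi _ (C.simple_lt i hi))
    (C.isRefl_nu hi _ (C.simple_lt i hi))).mpr
      (by rw [C.refl_simple hi]; exact C.negRoot_neg (C.pos_simple hi))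

theorem hu_square {i : ℕ} (hi : i < D.rank) {a b : F} (ha : a ≠ 0) (hb : b ≠ 0)
    (h : C.hu (D.simple i) a = C.hu (D.simple i) b) : a ^ 2 = b ^ 2 := by
  have h1 := C.hu_simple_conj (F := F) hi ha 1
  rw [h, C.hu_simple_conj hi hb, mul_one, mul_one] at h1
  exact (ChevField.xu_injective C (C.simple_lt i hi) (mul_right_cancel h1)).symm

/-- `x(a) x_-(b) x(a)` conjugating `X` into `X_-` forces `a = -b⁻¹`. -/
theorem opp_param {i : ℕ} (hi : i < D.rank) {a b : F} (hb : b ≠ 0) {c' : F}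
    (h : C.xu (D.simple i) a * C.xu (D.neg (D.simple i)) b * C.xu (D.simple i) a * C.xu (D.simple i) 1 *
      (C.xu (D.simple i) a * C.xu (D.neg (D.simple i)) b * C.xu (D.simple i) a)⁻¹ =
        C.xu (D.neg (D.simple i)) c') : a = -b⁻¹ := by
  set p := D.simple i with hp
  set n := C.nu p (1 : F)
  set s := a + b⁻¹ with hs
  set k := C.hu p (-b⁻¹)
  have hplt := C.simple_lt i hi
  have hkH : k ∈ D.diagonalSubgroup F := C.hu_simple_mem_diagonal hplt (neg_ne_zero.mpr (inv_ne_zero hb))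
  obtain ⟨e, he, ec⟩ := C.diagonal_conj_xu hkH (C.neg_lt _ hplt)
  have hw : C.xu p a * C.xu (D.neg p) b * C.xu p a = C.xu p s * k * n * C.xu p s := by
    rw [C.xu_neg_decomp hi hb]
    calc C.xu p a * (C.xu p b⁻¹ * k * n * C.xu p b⁻¹) * C.xu p a
        = (C.xu p a * C.xu p b⁻¹) * k * n * (C.xu p b⁻¹ * C.xu p a) := by group
      _ = _ := by rw [C.xu_add, C.xu_add, add_comm b⁻¹ a]
  rw [hw] at h
  set c := e * (-1) with hcdef
  have hc : c ≠ 0 := mul_ne_zero he (neg_ne_zero.mpr one_ne_zero)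
  have h1 : C.xu p s * k * n * C.xu p s * C.xu p 1 * (C.xu p s * k * n * C.xu p s)⁻¹ =
      C.xu p s * C.xu (D.neg p) c * C.xu p (-s) := by
    calc C.xu p s * k * n * C.xu p s * C.xu p 1 * (C.xu p s * k * n * C.xu p s)⁻¹
        = C.xu p s * k * n * (C.xu p s * C.xu p 1 * (C.xu p s)⁻¹) * n⁻¹ * k⁻¹ * (C.xu p s)⁻¹ := by group
      _ = C.xu p s * (k * ((n * C.xu p 1) * n⁻¹) * k⁻¹) * (C.xu p s)⁻¹ := by
          rw [C.xu_inv, C.xu_add, C.xu_add, show s + 1 + -s = (1 : F) by ring]; group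
      _ = _ := by rw [C.nu_simple_xu hi, mul_inv_cancel_right, ec, C.xu_inv]
  rw [h1] at h
  have hc' : c' ≠ 0 := by
    intro h0
    rw [h0, C.xu_zero, ← C.xu_inv, conj_eq_one_iff] at h
    exact hc (C.xu_eq_one (C.neg_lt _ hplt) h)
  rw [C.xu_neg_decomp hi hc, C.xu_neg_decomp hi hc'] at h
  have hinv := inverts_simple C hi (F := F)
  have hB : ∀ (x y : F), y ≠ 0 → C.xu p x * C.hu p y ∈ D.borelSubgroup F := fun x y hy =>
    mul_mem (C.pos_le_borel (C.xu_mem_pos (C.pos_simple hi) _))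
      (C.diagonal_le_borel (C.hu_simple_mem_diagonal hplt hy))
  have h' : (C.xu p (s + c⁻¹) * C.hu p (-c⁻¹)) * n * C.xu p (c⁻¹ + -s) =
      (C.xu p c'⁻¹ * C.hu p (-c'⁻¹)) * n * C.xu p c'⁻¹ := by
    rw [← C.xu_add p s, ← C.xu_add p c⁻¹, ← h]; simp only [mul_assoc]; rfl
  obtain ⟨eb, eu⟩ := C.canonical_unique (hB _ _ (neg_ne_zero.mpr (inv_ne_zero hc)))
    (hB _ _ (neg_ne_zero.mpr (inv_ne_zero hc'))) (C.xu_mem_span hinv _) (C.xu_mem_span hinv _) h'
  have e1 := ChevField.xu_injective C hplt eu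
  have e2 : C.xu p (-c'⁻¹ + (s + c⁻¹)) = C.hu p (-c'⁻¹) * (C.hu p (-c⁻¹))⁻¹ := by
    rw [← C.xu_add, ← C.xu_inv, eq_mul_inv_iff_mul_eq, mul_assoc, eb, inv_mul_cancel_left]
  have hbot : C.xu p (-c'⁻¹ + (s + c⁻¹)) ∈ (⊥ : Subgroup (GL D.Idx F)) := by
    rw [← C.posUnipotent_inf_diagonal]
    exact Subgroup.mem_inf.mpr ⟨C.xu_mem_pos (C.pos_simple hi) _, e2 ▸ mul_mem
      (C.hu_simple_mem_diagonal hplt (neg_ne_zero.mpr (inv_ne_zero hc')))
      (inv_mem (C.hu_simple_mem_diagonal hplt (neg_ne_zero.mpr (inv_ne_zero hc))))⟩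
  rw [Subgroup.mem_bot] at hbot
  have e3 := C.xu_eq_one hplt hbot
  rw [hbot] at e2
  have e4 := hu_square C hi (neg_ne_zero.mpr (inv_ne_zero hc')) (neg_ne_zero.mpr (inv_ne_zero hc))
    (mul_inv_eq_one.mp e2.symm)
  have h2s : (2 : F) * s = 0 := by linear_combination e3 - e1
  have hs0 : s = 0 := by
    by_cases h2 : (2 : F) = 0
    · have hsq : (c⁻¹ - c'⁻¹) ^ 2 = 0 := by
        linear_combination (-1 : F) * e4 + (c'⁻¹ ^ 2 - c⁻¹ * c'⁻¹) * h2
      have := sq_eq_zero_iff.mp hsq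
      linear_combination (-1 : F) * e1 + this
    · exact (mul_eq_zero.mp h2s).resolve_left h2
  linear_combination (-1 : F) * hs + hs0

/-- `θ` carries `x_{±p_i}(t)` to `x_{±p_{π i}}(σ_i t)`. -/
structure IsStd (θ : ↥(D.group F) ≃* ↥(D.group F)) (π : Equiv.Perm (Fin D.rank))
    (σ : Fin D.rank → F → F) : Prop where
  pos : ∀ (i : Fin D.rank) (t : F), apG θ (C.xu (D.simple i) t) = C.xu (D.simple (π i)) (σ i t)
  neg : ∀ (i : Fin D.rank) (t : F),
    apG θ (C.xu (D.neg (D.simple i)) t) = C.xu (D.neg (D.simple (π i))) (σ i t)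

variable {θ : ↥(D.group F) ≃* ↥(D.group F)}

/-- Parameters on the fundamental root subgroups. -/
theorem exists_params {π : Equiv.Perm (Fin D.rank)}
    (hπ : ∀ i : Fin D.rank,
      Maps θ (D.rootSubgroup F (D.simple i)) (D.rootSubgroup F (D.simple (π i))) ∧
        Maps θ (D.rootSubgroup F (D.neg (D.simple i))) (D.rootSubgroup F (D.neg (D.simple (π i))))) :
    ∃ f g : Fin D.rank → F → F, ∀ i : Fin D.rank,
      (∀ t, apG θ (C.xu (D.simple i) t) = C.xu (D.simple (π i)) (f i t)) ∧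
      (∀ t, apG θ (C.xu (D.neg (D.simple i)) t) = C.xu (D.neg (D.simple (π i))) (g i t)) ∧
      (∀ s t, f i (s + t) = f i s + f i t) ∧ Function.Bijective (f i) ∧
      (∀ t, t ≠ 0 → g i (-t⁻¹) = -(f i t)⁻¹) ∧ g i 0 = 0 := by
  have h1 : ∀ (i : Fin D.rank) (t : F), ∃ v, apG θ (C.xu (D.simple i) t) = C.xu (D.simple (π i)) v :=
    fun i t => C.mem_rootSubgroup.mp (((hπ i).1 _ (C.xu_mem_group _ _)).mp (C.mem_rootSubgroup.mpr ⟨t, rfl⟩))
  have h2 : ∀ (i : Fin D.rank) (t : F), ∃ v,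
      apG θ (C.xu (D.neg (D.simple i)) t) = C.xu (D.neg (D.simple (π i))) v :=
    fun i t => C.mem_rootSubgroup.mp (((hπ i).2 _ (C.xu_mem_group _ _)).mp (C.mem_rootSubgroup.mpr ⟨t, rfl⟩))
  choose f hf using h1
  choose g hg using h2
  refine ⟨f, g, fun i => ?_⟩
  have hp := C.simple_lt i i.isLt
  have hq := C.simple_lt (π i) (π i).isLt
  have hadd : ∀ s t, f i (s + t) = f i s + f i t := fun s t => by
    refine ChevField.xu_injective C hq ?_
    rw [← hf, ← C.xu_add, ← C.xu_add, apG_mul θ (C.xu_mem_group _ _) (C.xu_mem_group _ _), hf, hf]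
  have h0 : f i 0 = 0 := by simpa using hadd 0 0
  have g0 : g i 0 = 0 := by
    have := hg i 0
    rw [C.xu_zero, apG_one] at this
    exact C.xu_eq_one (C.neg_lt _ hq) this.symm
  have hinj : Function.Injective (f i) := fun s t e => by
    refine ChevField.xu_injective C hp (apG_inj θ (C.xu_mem_group _ _) (C.xu_mem_group _ _) ?_)
    rw [hf, hf, e]
  have hsurj : Function.Surjective (f i) := fun v => by
    obtain ⟨t, ht⟩ := C.mem_rootSubgroup.mp (((hπ i).1.symm _ (C.xu_mem_group _ _)).mp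
      (C.mem_rootSubgroup.mpr ⟨v, rfl⟩))
    refine ⟨t, ChevField.xu_injective C hq ?_⟩
    rw [← hf, ← ht, apG_symm' θ (C.xu_mem_group _ _)]
  refine ⟨hf i, hg i, hadd, ⟨hinj, hsurj⟩, fun t ht => ?_, g0⟩
  have ha : f i t ≠ 0 := fun e => ht (hinj (by rw [e, h0]))
  have hb : g i (-t⁻¹) ≠ 0 := by
    intro e
    have := hg i (-t⁻¹)
    rw [e, C.xu_zero, ← apG_one θ] at this
    exact neg_ne_zero.mpr (inv_ne_zero ht)
      (C.xu_eq_one (C.neg_lt _ hp) (apG_inj θ (C.xu_mem_group _ _) (one_mem _) this))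
  -- `n_{p_i}(t)` carries the root subgroup to its opposite
  have hconj : C.nu (D.simple i) t * C.xu (D.simple i) 1 * (C.nu (D.simple i) t)⁻¹ ∈
      D.rootSubgroup F (D.neg (D.simple i)) := by
    rw [C.nu_simple_eq i.isLt t,
      show C.hu (D.simple i) t * C.nu (D.simple i) 1 * C.xu (D.simple i) 1 *
          (C.hu (D.simple i) t * C.nu (D.simple i) 1)⁻¹ =
        C.hu (D.simple i) t * ((C.nu (D.simple i) 1 * C.xu (D.simple i) 1) * (C.nu (D.simple i) 1)⁻¹) *
          (C.hu (D.simple i) t)⁻¹ by group, C.nu_simple_xu i.isLt, mul_inv_cancel_right]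
    exact (Subgroup.mem_normalizer_iff.mp
      (diagonal_normalises_root C (C.neg_lt _ hp) (C.hu_simple_mem_diagonal hp ht)) _).mp
      (C.mem_rootSubgroup.mpr ⟨_, rfl⟩)
  have hG : C.nu (D.simple i) t ∈ D.group F := C.nu_mem_group _ _
  have himg := ((hπ i).2 _ (mul_mem (mul_mem hG (C.xu_mem_group _ _)) (inv_mem hG))).mp hconj
  rw [apG_conj θ hG (C.xu_mem_group _ _), C.nu_eq (D.simple i) t,
    apG_mul θ (mul_mem (C.xu_mem_group _ _) (C.xu_mem_group _ _)) (C.xu_mem_group _ _),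
    apG_mul θ (C.xu_mem_group _ _) (C.xu_mem_group _ _), hf, hf, hg] at himg
  -- rescale the middle element
  obtain ⟨v, hv⟩ := C.mem_rootSubgroup.mp himg
  have hf1 : f i 1 ≠ 0 := fun e => one_ne_zero (hinj (by rw [e, h0]))
  obtain ⟨a, b, hab, hab0, hc⟩ : ∃ a b : F, f i t = a ∧ g i (-t⁻¹) = b ∧
      ∃ c', C.xu (D.simple (π i)) a * C.xu (D.neg (D.simple (π i))) b * C.xu (D.simple (π i)) a *
        C.xu (D.simple (π i)) 1 *
        (C.xu (D.simple (π i)) a * C.xu (D.neg (D.simple (π i))) b * C.xu (D.simple (π i)) a)⁻¹ =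
          C.xu (D.neg (D.simple (π i))) c' := by
    obtain ⟨s, hs⟩ := hsurj 1
    refine ⟨_, _, rfl, rfl, ?_⟩
    have hconj' : C.nu (D.simple i) t * C.xu (D.simple i) s * (C.nu (D.simple i) t)⁻¹ ∈
        D.rootSubgroup F (D.neg (D.simple i)) := by
      rw [C.nu_simple_eq i.isLt t,
        show C.hu (D.simple i) t * C.nu (D.simple i) 1 * C.xu (D.simple i) s *
            (C.hu (D.simple i) t * C.nu (D.simple i) 1)⁻¹ =
          C.hu (D.simple i) t * ((C.nu (D.simple i) 1 * C.xu (D.simple i) s) * (C.nu (D.simple i) 1)⁻¹) *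
            (C.hu (D.simple i) t)⁻¹ by group, C.nu_simple_xu i.isLt, mul_inv_cancel_right]
      exact (Subgroup.mem_normalizer_iff.mp
        (diagonal_normalises_root C (C.neg_lt _ hp) (C.hu_simple_mem_diagonal hp ht)) _).mp
        (C.mem_rootSubgroup.mpr ⟨_, rfl⟩)
    have himg' := ((hπ i).2 _ (mul_mem (mul_mem hG (C.xu_mem_group _ _)) (inv_mem hG))).mp hconj'
    rw [apG_conj θ hG (C.xu_mem_group _ _), C.nu_eq (D.simple i) t,
      apG_mul θ (mul_mem (C.xu_mem_group _ _) (C.xu_mem_group _ _)) (C.xu_mem_group _ _),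
      apG_mul θ (C.xu_mem_group _ _) (C.xu_mem_group _ _), hf, hf, hg, hs] at himg'
    exact C.mem_rootSubgroup.mp himg'
  obtain ⟨c', hc'⟩ := hc
  subst hab hab0
  have := opp_param C (π i).isLt hb hc'
  rw [this, inv_neg, _root_.neg_neg, inv_inv]

omit C in
theorem ringHom_of_sq {f : F → F} (hadd : ∀ s t, f (s + t) = f s + f t) (hone : f 1 = 1)
    (hsq : ∀ s t, s ≠ 0 → t ≠ 0 → f (s * t) ^ 2 = (f s * f t) ^ 2) : ∀ s t, f (s * t) = f s * f t := by
  have h0 : f 0 = 0 := by simpa using hadd 0 0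
  have hall : ∀ s t, f (s * t) ^ 2 = (f s * f t) ^ 2 := fun s t => by
    by_cases hs : s = 0
    · simp [hs, h0]
    by_cases ht : t = 0
    · simp [ht, h0]
    exact hsq s t hs ht
  intro s t
  rcases sq_eq_sq_iff_eq_or_eq_neg.mp (hall s t) with h | h
  · exact h
  have hs1 : f (s * (t + 1)) = -(f s * f t) + f s := by rw [mul_add, mul_one, hadd, h]
  rcases sq_eq_sq_iff_eq_or_eq_neg.mp (hall s (t + 1)) with h' | h' <;>
    rw [hs1, hadd, hone] at h'
  · have : 2 * (f s * f t) = 0 := by linear_combination (-1 : F) * h'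
    rcases mul_eq_zero.mp this with h2 | h2
    · linear_combination h + (-(f s * f t)) * h2
    · rw [h, h2, neg_zero]
  · have : 2 * f s = 0 := by linear_combination h'
    rcases mul_eq_zero.mp this with h2 | h2
    · linear_combination h + (-(f s * f t)) * h2
    · rw [h, h2, zero_mul, neg_zero]

theorem apG_hu {π : Equiv.Perm (Fin D.rank)} {σ : Fin D.rank → F → F} (h : IsStd C θ π σ) (i : Fin D.rank)
    (hσ : ∀ t, σ i (-t⁻¹) = -(σ i t)⁻¹) (hone : σ i (-1) = -1) (t : F) :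
    apG θ (C.hu (D.simple i) t) = C.hu (D.simple (π i)) (σ i t) := by
  have hn : ∀ t, apG θ (C.nu (D.simple i) t) = C.nu (D.simple (π i)) (σ i t) := by
    intro t
    rw [C.nu_eq, apG_mul θ (mul_mem (C.xu_mem_group _ _) (C.xu_mem_group _ _)) (C.xu_mem_group _ _),
      apG_mul θ (C.xu_mem_group _ _) (C.xu_mem_group _ _), h.pos, h.neg, hσ, ← C.nu_eq]
  rw [C.hu_eq, apG_mul θ (C.nu_mem_group _ _) (C.nu_mem_group _ _), hn, hn, hone, ← C.hu_eq]

/-- Normalise the parameters to field automorphisms. -/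
theorem exists_std (hst : Suzuki.ChainSteps D) {π : Equiv.Perm (Fin D.rank)}
    (hπ : ∀ i : Fin D.rank,
      Maps θ (D.rootSubgroup F (D.simple i)) (D.rootSubgroup F (D.simple (π i))) ∧
        Maps θ (D.rootSubgroup F (D.neg (D.simple i))) (D.rootSubgroup F (D.neg (D.simple (π i))))) :
    ∃ (χ : ℕ → Fˣ) (hχ : D.IsRootCharacter χ) (σ : Fin D.rank → (F ≃+* F)),
      IsStd C (θ.trans (diagAut C hst hχ)) π (fun i => ⇑(σ i)) := by
  obtain ⟨f, g, hfg⟩ := exists_params C hπ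
  have hne : ∀ i, f i 1 ≠ 0 := fun i e => by
    obtain ⟨-, -, hadd, hbij, -, -⟩ := hfg i
    exact one_ne_zero (hbij.1 (e.trans (by simpa using hadd 0 0 : f i 0 = 0).symm))
  let a : Fin D.rank → Fˣ := fun j => (Units.mk0 (f (π.symm j) 1) (hne _))⁻¹
  have hχ := isRootCharacter_rootChar C a
  set θ₁ := θ.trans (diagAut C hst hχ) with hθ₁
  have hd : ∀ x ∈ D.group F,
      apG θ₁ x = charUnit D (rootChar C a) * apG θ x * (charUnit D (rootChar C a))⁻¹ := fun x hx => by
    rw [apG_eq _ hx, apG_eq _ hx]; rfl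
  have hval : ∀ i : Fin D.rank, (rootChar C a (D.simple (π i)) : F) = (f i 1)⁻¹ := fun i => by
    rw [rootChar_simple]; simp [a]
  let F1 : Fin D.rank → F → F := fun i t => (f i 1)⁻¹ * f i t
  have hpos : ∀ (i : Fin D.rank) (t : F), apG θ₁ (C.xu (D.simple i) t) = C.xu (D.simple (π i)) (F1 i t) := by
    intro i t
    rw [hd _ (C.xu_mem_group _ _), (hfg i).1, charUnit_conj C hst hχ (C.simple_lt _ (π i).isLt), hval]
  have hneg : ∀ (i : Fin D.rank) (t : F),
      apG θ₁ (C.xu (D.neg (D.simple i)) t) = C.xu (D.neg (D.simple (π i))) (f i 1 * g i t) := by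
    intro i t
    rw [hd _ (C.xu_mem_group _ _), (hfg i).2.1,
      charUnit_conj C hst hχ (C.neg_lt _ (C.simple_lt _ (π i).isLt)),
      hχ.1 _ (C.simple_lt _ (π i).isLt), Units.val_inv_eq_inv_val, hval, inv_inv]
  have key : ∀ i : Fin D.rank, ∃ σ : F ≃+* F, (∀ t, σ t = F1 i t) ∧ ∀ t, f i 1 * g i t = σ t := by
    intro i
    obtain ⟨-, -, hadd, hbij, hginv, hg0⟩ := hfg i
    have hadd1 : ∀ s t, F1 i (s + t) = F1 i s + F1 i t := fun s t => by simp only [F1, hadd, mul_add]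
    have hone : F1 i 1 = 1 := inv_mul_cancel₀ (hne i)
    have hf0 : F1 i 0 = 0 := by simpa using hadd1 0 0
    have hinv : ∀ t, f i 1 * g i (-t⁻¹) = -(F1 i t)⁻¹ := fun t => by
      by_cases ht : t = 0
      · simp [ht, hg0, hf0]
      · rw [hginv t ht, mul_neg, mul_inv, inv_inv]
    have hm1 : F1 i (-1) = -1 := by
      have h2 := hadd1 (-1) 1
      rw [neg_add_cancel, hf0, hone] at h2
      exact eq_neg_of_add_eq_zero_left h2.symm
    have hn : ∀ t, apG θ₁ (C.nu (D.simple i) t) = C.nu (D.simple (π i)) (F1 i t) := by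
      intro t
      rw [C.nu_eq, apG_mul θ₁ (mul_mem (C.xu_mem_group _ _) (C.xu_mem_group _ _)) (C.xu_mem_group _ _),
        apG_mul θ₁ (C.xu_mem_group _ _) (C.xu_mem_group _ _), hpos, hneg, hinv, ← C.nu_eq]
    have hh : ∀ t, apG θ₁ (C.hu (D.simple i) t) = C.hu (D.simple (π i)) (F1 i t) := fun t => by
      rw [C.hu_eq, apG_mul θ₁ (C.nu_mem_group _ _) (C.nu_mem_group _ _), hn, hn, hm1, ← C.hu_eq]
    have hinj : Function.Injective (F1 i) := fun s t e => hbij.1 (mul_left_cancel₀ (inv_ne_zero (hne i)) e)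
    have hnz : ∀ t, t ≠ 0 → F1 i t ≠ 0 := fun t ht e => ht (hinj (e.trans hf0.symm))
    have hhG : ∀ t : F, C.hu (D.simple i) t ∈ D.group F := fun t => by
      rw [C.hu_eq]; exact mul_mem (C.nu_mem_group _ _) (C.nu_mem_group _ _)
    have hmul : ∀ s t, F1 i (s * t) = F1 i s * F1 i t := by
      refine ringHom_of_sq hadd1 hone fun s t hs ht => ?_
      refine hu_square C (π i).isLt (hnz _ (mul_ne_zero hs ht)) (mul_ne_zero (hnz _ hs) (hnz _ ht)) ?_
      rw [← hh, ← C.hu_mul (C.simple_lt i i.isLt) hs ht, ← C.hu_mul (C.simple_lt _ (π i).isLt) (hnz _ hs) (hnz _ ht),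
        apG_mul θ₁ (hhG s) (hhG t), hh, hh]
    let φ : F →+* F :=
      { toFun := F1 i, map_one' := hone, map_mul' := hmul, map_zero' := hf0, map_add' := hadd1 }
    have hsurj : Function.Surjective (F1 i) := fun v => by
      obtain ⟨t, ht⟩ := hbij.2 (f i 1 * v)
      exact ⟨t, by simp only [F1, ht, inv_mul_cancel_left₀ (hne i)]⟩
    refine ⟨RingEquiv.ofBijective φ ⟨hinj, hsurj⟩, fun t => rfl, fun t => ?_⟩
    show f i 1 * g i t = φ t
    by_cases ht : t = 0
    · rw [ht, hg0, mul_zero, map_zero]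
    · conv_lhs => rw [show t = -(-t⁻¹)⁻¹ by rw [inv_neg, inv_inv, _root_.neg_neg]]
      rw [hinv]
      show -(φ (-t⁻¹))⁻¹ = φ t
      rw [map_neg, map_inv₀, inv_neg, inv_inv, _root_.neg_neg]
  choose σ hσ hσ' using key
  exact ⟨_, hχ, σ, fun i t => by rw [hσ i t]; exact hpos i t, fun i t => by rw [← hσ' i t]; exact hneg i t⟩

theorem IsStd.apG_nu {π : Equiv.Perm (Fin D.rank)} {σ : Fin D.rank → (F ≃+* F)}
    (h : IsStd C θ π (fun i => ⇑(σ i))) (i : Fin D.rank) :
    apG θ (C.nu (D.simple i) 1) = C.nu (D.simple (π i)) 1 := by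
  rw [C.nu_eq, apG_mul θ (mul_mem (C.xu_mem_group _ _) (C.xu_mem_group _ _)) (C.xu_mem_group _ _),
    apG_mul θ (C.xu_mem_group _ _) (C.xu_mem_group _ _), h.pos, h.neg, C.nu_eq]
  simp

/-- The field automorphisms on two nodes are tied by the Cartan integers. -/
theorem IsStd.cartan_rel {π : Equiv.Perm (Fin D.rank)} {σ : Fin D.rank → (F ≃+* F)}
    (h : IsStd C θ π (fun i => ⇑(σ i))) (i k : Fin D.rank) {t : F} (ht : t ≠ 0) :
    σ k t ^ D.cartan i (D.simple k) = σ i t ^ D.cartan (π i) (D.simple (π k)) := by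
  have hp := C.simple_lt i i.isLt
  have hh := apG_hu C h i (fun t => by simp) (by simp) t
  have e := C.hu_conj_xu (F := F) hp (C.simple_lt k k.isLt) ht 1
  have hhG : C.hu (D.simple i) t ∈ D.group F := by
    rw [C.hu_eq]; exact mul_mem (C.nu_mem_group _ _) (C.nu_mem_group _ _)
  have e' := congrArg (apG θ) e
  rw [apG_mul θ hhG (C.xu_mem_group _ _), apG_mul θ (C.xu_mem_group _ _) hhG, hh, h.pos, h.pos,
    C.hu_conj_xu (C.simple_lt _ (π i).isLt) (C.simple_lt _ (π k).isLt)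
      ((map_ne_zero (σ i)).mpr ht)] at e'
  have e2 := ChevField.xu_injective C (C.simple_lt _ (π k).isLt) (mul_right_cancel e')
  simpa [pairChar, C.pairInt_simple i.isLt, C.pairInt_simple (π i).isLt, map_zpow₀] using e2.symm

omit C in
/-- The permutation of nodes preserves the orders of products of two fundamental reflections. -/
theorem act_trivial_iff_of_words (C : Cert.{u} D) {M : CoxeterMatrix (Fin D.rank)} (hM : CoxOK D M)
    {π : Equiv.Perm (Fin D.rank)} {σ : Fin D.rank → (F ≃+* F)} (h : IsStd C θ π (fun i => ⇑(σ i)))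
    (hH : Maps θ (D.diagonalSubgroup F) (D.diagonalSubgroup F)) (L : List (Fin D.rank)) :
    (∀ l < D.rank, act D (L.map Fin.val) (D.simple l) = D.simple l) ↔
      ∀ l < D.rank, act D ((L.map π).map Fin.val) (D.simple l) = D.simple l := by
  have hiff : ∀ L : List (Fin D.rank), (∀ l < D.rank, act D (L.map Fin.val) (D.simple l) = D.simple l) ↔
      C.nWordElt F (L.map Fin.val) ∈ D.diagonalSubgroup F := by
    intro L
    refine ⟨fun hl => C.nWordElt_mem_diagonal hM fun r hr => ?_, fun hd l hl =>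
      C.act_eq_of_mem_diagonal (C.fin_word_lt L) hd (C.simple_lt l hl)⟩
    rw [C.act_ext (L' := []) (C.fin_word_lt L) (by simp) hl hr]
    rfl
  have himg : ∀ L : List (Fin D.rank),
      apG θ (C.nWordElt F (L.map Fin.val)) = C.nWordElt F ((L.map π).map Fin.val) := by
    intro L
    induction L with
    | nil => exact apG_one θ
    | cons a L ih =>
      rw [List.map_cons, List.map_cons, List.map_cons, C.nWordElt_cons, C.nWordElt_cons,
        apG_mul θ (C.nu_mem_group _ _) (C.monomial_le_group (C.nWordElt_mem (C.fin_word_lt L))),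
        h.apG_nu, ih]
  rw [hiff, hiff, ← himg]
  exact hH _ (C.monomial_le_group (C.nWordElt_mem (C.fin_word_lt L)))

end Cfsg.Agent.LeadWork.Steinberg
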