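/-
Diagram facts of the seven data used for the automorphism theorem, and the resulting relation between the
field automorphisms on the nodes.
-/
import Cfsg.Agent.LeadWork.SteinbergField
import Cfsg.Agent.Chev.Simple
set_option autoImplicit false

universe u

namespace Cfsg.Agent.LeadWork.Steinberg

open Cfsg.Lie Cfsg.Agent.Chev
open scoped Matrix MatrixGroups

variable {D : ChevalleyDatum}

/-- The order of the product of two reflections read off the bond number. -/
def bondOrder (b : ℤ) : ℕ := if b = 0 then 2 else if b = 1 then 3 else if b = 2 then 4 else 6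

/-- The bond number is determined by the order of the product of the two reflections. -/
def BondsOK (D : ChevalleyDatum) : Prop :=
  ∀ i < D.rank, ∀ j < D.rank, i ≠ j → (D.bonds i j = 0 ∨ D.bonds i j = 1 ∨ D.bonds i j = 2 ∨ D.bonds i j = 3) ∧
    (∀ l < D.rank, act D (pairPow i j (bondOrder (D.bonds i j))) (D.simple l) = D.simple l) ∧
    ∀ k < bondOrder (D.bonds i j), k ≠ 0 → ¬ ∀ l < D.rank, act D (pairPow i j k) (D.simple l) = D.simple l

set_option synthInstance.maxSize 1024 in
theorem bondsOK (hD : D ∈ [chevG2, chevB2, chevD4, chevF4, chevE6, chevE7, chevE8]) : BondsOK D := by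
  simp only [List.mem_cons, List.not_mem_nil, or_false] at hD
  rcases hD with rfl | rfl | rfl | rfl | rfl | rfl | rfl <;> unfold BondsOK <;> decide +kernel

theorem bondOrder_inj {a b : ℤ} (ha : a = 0 ∨ a = 1 ∨ a = 2 ∨ a = 3) (hb : b = 0 ∨ b = 1 ∨ b = 2 ∨ b = 3)
    (h : bondOrder a = bondOrder b) : a = b := by
  rcases ha with rfl | rfl | rfl | rfl <;> rcases hb with rfl | rfl | rfl | rfl <;> simp [bondOrder] at h ⊢

variable {F : Type u} [Field F] (C : Cert.{u} D) {θ : ↥(D.group F) ≃* ↥(D.group F)}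
  {π : Equiv.Perm (Fin D.rank)} {σ : Fin D.rank → (F ≃+* F)}

theorem isDiagramSymmetry_of_std {M : CoxeterMatrix (Fin D.rank)} (hM : CoxOK D M) (hb : BondsOK D)
    (h : IsStd C θ π (fun i => ⇑(σ i))) (hH : Maps θ (D.diagonalSubgroup F) (D.diagonalSubgroup F)) :
    D.IsDiagramSymmetry π := by
  intro i j hij
  have key : ∀ k, (∀ l < D.rank, act D (pairPow i j k) (D.simple l) = D.simple l) ↔
      ∀ l < D.rank, act D (pairPow (π i) (π j) k) (D.simple l) = D.simple l := by
    intro k
    have := act_trivial_iff_of_words C hM h hH ((List.replicate k [i, j]).flatten)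
    rw [Cert.pairPow_map, List.map_flatten, List.map_replicate, List.map_cons, List.map_cons, List.map_nil,
      Cert.pairPow_map] at this
    exact this
  have hne : (π i : ℕ) ≠ π j := fun e => hij (π.injective (Fin.ext e))
  obtain ⟨ha, ha1, ha2⟩ := hb (π i) (π i).isLt (π j) (π j).isLt hne
  obtain ⟨hc, hc1, hc2⟩ := hb i i.isLt j j.isLt (fun e => hij (Fin.ext e))
  refine bondOrder_inj ha hc (le_antisymm ?_ ?_)
  · refine Nat.le_of_not_lt fun hlt => ha2 _ hlt ?_ ((key _).mp hc1)
    rcases hc with h | h | h | h <;> rw [h] <;> decide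
  · refine Nat.le_of_not_lt fun hlt => hc2 _ hlt ?_ ((key _).mpr ha1)
    rcases ha with h | h | h | h <;> rw [h] <;> decide

theorem eq_of_both_neg_one (h : IsStd C θ π (fun i => ⇑(σ i))) {i k : Fin D.rank}
    (h1 : D.cartan i (D.simple k) = -1) (h2 : D.cartan (π i) (D.simple (π k)) = -1) : σ k = σ i := by
  refine RingEquiv.ext fun t => ?_
  by_cases ht : t = 0
  · simp [ht]
  · have := h.cartan_rel C i k ht
    rw [h1, h2, zpow_neg_one, zpow_neg_one] at this
    exact inv_injective this

theorem eq_pow_of_neg_one (h : IsStd C θ π (fun i => ⇑(σ i))) {i k : Fin D.rank} (m : ℕ) (hm : m ≠ 0)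
    (h1 : D.cartan i (D.simple k) = -1) (h2 : D.cartan (π i) (D.simple (π k)) = -(m : ℤ)) :
    ∀ t, σ k t = σ i t ^ m := by
  intro t
  by_cases ht : t = 0
  · simp [ht, zero_pow hm]
  · have := h.cartan_rel C i k ht
    rw [h1, h2, zpow_neg_one, zpow_neg, zpow_natCast] at this
    exact inv_injective this

/-- A power map that is a field automorphism up to twist has exponent the characteristic. -/
theorem pow_eq_ringChar {F : Type u} [Field F] {σ σ' : F ≃+* F} {m : ℕ} (hm : m = 2 ∨ m = 3)
    (h : ∀ t, σ' t = σ t ^ m) : ∀ t : F, σ' t = σ t ^ ringChar F := by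
  have hadd : ∀ x y : F, (x + y) ^ m = x ^ m + y ^ m := by
    intro x y
    obtain ⟨a, rfl⟩ := σ.surjective x
    obtain ⟨b, rfl⟩ := σ.surjective y
    rw [← map_add, ← h, ← h, ← h, map_add]
  rcases hm with rfl | rfl
  · have h2 : ((2 : ℕ) : F) = 0 := by
      have := hadd 1 1
      push_cast
      linear_combination this
    haveI : CharP F 2 := CharTwo.of_one_ne_zero_of_two_eq_zero one_ne_zero (by simpa using h2)
    intro t
    rw [h, ringChar.eq F 2]
  · by_cases h3 : ((3 : ℕ) : F) = 0
    · haveI : CharP F 3 := CharP.charP_iff_prime_eq_zero Nat.prime_three |>.mpr h3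
      intro t
      rw [h, ringChar.eq F 3]
    · have h2 : (2 : F) = 0 := by
        have h6 : (3 : F) * 2 = 0 := by linear_combination hadd 1 1
        exact (mul_eq_zero.mp h6).resolve_left (by simpa using h3)
      haveI : CharP F 2 := CharTwo.of_one_ne_zero_of_two_eq_zero one_ne_zero h2
      intro t
      rw [h, ringChar.eq F 2]
      have hx := hadd (σ t) 1
      have : σ t ^ 2 + σ t = 0 := by
        have e : (3 : F) * (σ t ^ 2 + σ t) = 0 := by linear_combination hx
        exact (mul_eq_zero.mp e).resolve_left (by simpa using h3)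
      linear_combination (σ t) * this - (σ t ^ 2) * h2

/-- The field automorphisms on the nodes come from one. -/
def Resolved (D : ChevalleyDatum) (π : Equiv.Perm (Fin D.rank)) (σ : Fin D.rank → (F ≃+* F)) : Prop :=
  ∃ σ₀ : F ≃+* F, ∀ (i : Fin D.rank) (t : F), σ i t = σ₀ (t ^ D.graphExp (ringChar F) i (π i))

/-- All roots have one length. -/
def SimplyLaced (D : ChevalleyDatum) : Prop :=
  0 < D.rank ∧ (∀ i < D.rank, D.isLong (D.simple i) = false) ∧
    (∀ i < D.rank, ∀ j < D.rank, i ≠ j → D.cartan i (D.simple j) = 0 ∨ D.cartan i (D.simple j) = -1) ∧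
    ∀ i < D.rank, ∀ j < D.rank, D.cartan i (D.simple j) = D.cartan j (D.simple i)

theorem resolved_simplyLaced {pa : List ℕ} (htree : TreeOK D pa) (hs : SimplyLaced D)
    (h : IsStd C θ π (fun i => ⇑(σ i))) (hπ : D.IsDiagramSymmetry π) : Resolved D π σ := by
  obtain ⟨h0, hlong, hA, hsymm⟩ := hs
  refine ⟨σ ⟨0, h0⟩, ?_⟩
  have hall : ∀ j < D.rank, ∃ hj : j < D.rank, σ ⟨j, hj⟩ = σ ⟨0, h0⟩ :=
    closed_of_tree htree (S := fun j => ∃ hj : j < D.rank, σ ⟨j, hj⟩ = σ ⟨0, h0⟩) ⟨0, h0, h0, rfl⟩
      (fun i hi j hj hSi hA0 => by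
        obtain ⟨_, e⟩ := hSi
        refine ⟨hj, ?_⟩
        by_cases hij : i = j
        · subst hij; exact e
        have h1 := (hA i hi j hj hij).resolve_left hA0
        have hne : (⟨i, hi⟩ : Fin D.rank) ≠ ⟨j, hj⟩ := fun e => hij (congrArg Fin.val e)
        have hb := hπ ⟨i, hi⟩ ⟨j, hj⟩ hne
        have hne' : (π ⟨i, hi⟩ : ℕ) ≠ π ⟨j, hj⟩ := fun e => hne (π.injective (Fin.ext e))
        have h2 : D.cartan (π ⟨i, hi⟩) (D.simple (π ⟨j, hj⟩)) = -1 := by
          refine (hA _ (π ⟨i, hi⟩).isLt _ (π ⟨j, hj⟩).isLt hne').resolve_left fun e0 => ?_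
          have : D.cartan j (D.simple i) ≠ 0 := by
            intro e1
            exact hA0 ((hsymm i hi j hj).trans e1)
          simp only [ChevalleyDatum.bonds, e0, zero_mul, h1] at hb
          exact this (by linarith)
        rw [eq_of_both_neg_one C h (i := ⟨i, hi⟩) (k := ⟨j, hj⟩) h1 h2, e])
  intro i t
  obtain ⟨_, e⟩ := hall i i.isLt
  rw [show σ i = σ ⟨0, h0⟩ from e]
  simp [ChevalleyDatum.graphExp, hlong _ (π i).isLt, hlong _ i.isLt]

theorem perm_two (π : Equiv.Perm (Fin 2)) : (π 0 = 0 ∧ π 1 = 1) ∨ (π 0 = 1 ∧ π 1 = 0) := by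
  revert π; decide

theorem resolved_G2 {F : Type u} [Field F] (C : Cert.{u} chevG2) {θ : ↥(chevG2.group F) ≃* ↥(chevG2.group F)}
    {π : Equiv.Perm (Fin chevG2.rank)} {σ : Fin chevG2.rank → (F ≃+* F)}
    (h : IsStd C θ π (fun i => ⇑(σ i))) : Resolved chevG2 π σ := by
  let a : Fin chevG2.rank := ⟨0, by decide +kernel⟩
  let b : Fin chevG2.rank := ⟨1, by decide +kernel⟩
  have hab : ∀ i : Fin chevG2.rank, i = a ∨ i = b := by decide +kernel
  have hA : chevG2.cartan 1 (chevG2.simple 0) = -1 ∧ chevG2.cartan 0 (chevG2.simple 1) = -3 ∧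
      chevG2.isLong (chevG2.simple 0) = false ∧ chevG2.isLong (chevG2.simple 1) = true := by decide +kernel
  refine ⟨σ b, fun i t => ?_⟩
  rcases hab (π a) with ha | ha
  · have hb : π b = b := (hab (π b)).resolve_left fun e =>
      absurd (congrArg Fin.val (π.injective (e.trans ha.symm))) (by decide)
    have e := eq_of_both_neg_one C h (i := b) (k := a) hA.1 (by rw [ha, hb]; exact hA.1)
    rcases hab i with rfl | rfl
    · rw [ha, e, ChevalleyDatum.graphExp, hA.2.2.1]; simp
    · rw [hb, ChevalleyDatum.graphExp, hA.2.2.2]; simp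
  · have hb : π b = a := (hab (π b)).resolve_right fun e =>
      absurd (congrArg Fin.val (π.injective (e.trans ha.symm))) (by decide)
    have e := eq_pow_of_neg_one C h (i := b) (k := a) 3 (by decide) hA.1 (by rw [ha, hb]; exact hA.2.1)
    rcases hab i with rfl | rfl
    · rw [ha, pow_eq_ringChar (Or.inr rfl) e t, ChevalleyDatum.graphExp,
        show chevG2.isLong (chevG2.simple (b : ℕ)) = true from hA.2.2.2,
        show chevG2.isLong (chevG2.simple (a : ℕ)) = false from hA.2.2.1]
      simp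
    · rw [hb, ChevalleyDatum.graphExp, show chevG2.isLong (chevG2.simple (a : ℕ)) = false from hA.2.2.1]
      simp

theorem resolved_B2 {F : Type u} [Field F] (C : Cert.{u} chevB2) {θ : ↥(chevB2.group F) ≃* ↥(chevB2.group F)}
    {π : Equiv.Perm (Fin chevB2.rank)} {σ : Fin chevB2.rank → (F ≃+* F)}
    (h : IsStd C θ π (fun i => ⇑(σ i))) : Resolved chevB2 π σ := by
  let a : Fin chevB2.rank := ⟨0, by decide +kernel⟩
  let b : Fin chevB2.rank := ⟨1, by decide +kernel⟩
  have hab : ∀ i : Fin chevB2.rank, i = a ∨ i = b := by decide +kernel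
  have hA : chevB2.cartan 1 (chevB2.simple 0) = -1 ∧ chevB2.cartan 0 (chevB2.simple 1) = -2 ∧
      chevB2.isLong (chevB2.simple 0) = false ∧ chevB2.isLong (chevB2.simple 1) = true := by decide +kernel
  refine ⟨σ b, fun i t => ?_⟩
  rcases hab (π a) with ha | ha
  · have hb : π b = b := (hab (π b)).resolve_left fun e =>
      absurd (congrArg Fin.val (π.injective (e.trans ha.symm))) (by decide)
    have e := eq_of_both_neg_one C h (i := b) (k := a) hA.1 (by rw [ha, hb]; exact hA.1)
    rcases hab i with rfl | rfl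
    · rw [ha, e, ChevalleyDatum.graphExp, hA.2.2.1]; simp
    · rw [hb, ChevalleyDatum.graphExp, hA.2.2.2]; simp
  · have hb : π b = a := (hab (π b)).resolve_right fun e =>
      absurd (congrArg Fin.val (π.injective (e.trans ha.symm))) (by decide)
    have e := eq_pow_of_neg_one C h (i := b) (k := a) 2 (by decide) hA.1 (by rw [ha, hb]; exact hA.2.1)
    rcases hab i with rfl | rfl
    · rw [ha, pow_eq_ringChar (Or.inl rfl) e t, ChevalleyDatum.graphExp,
        show chevB2.isLong (chevB2.simple (b : ℕ)) = true from hA.2.2.2,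
        show chevB2.isLong (chevB2.simple (a : ℕ)) = false from hA.2.2.1]
      simp
    · rw [hb, ChevalleyDatum.graphExp, show chevB2.isLong (chevB2.simple (a : ℕ)) = false from hA.2.2.1]
      simp

theorem resolved_F4 {F : Type u} [Field F] (C : Cert.{u} chevF4) {θ : ↥(chevF4.group F) ≃* ↥(chevF4.group F)}
    {π : Equiv.Perm (Fin chevF4.rank)} {σ : Fin chevF4.rank → (F ≃+* F)}
    (h : IsStd C θ π (fun i => ⇑(σ i))) (hπ : chevF4.IsDiagramSymmetry π) : Resolved chevF4 π σ := by
  let a : Fin chevF4.rank := ⟨0, by decide +kernel⟩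
  let b : Fin chevF4.rank := ⟨1, by decide +kernel⟩
  let c : Fin chevF4.rank := ⟨2, by decide +kernel⟩
  let d : Fin chevF4.rank := ⟨3, by decide +kernel⟩
  have hab : ∀ i : Fin chevF4.rank, i = a ∨ i = b ∨ i = c ∨ i = d := by decide +kernel
  have hperm : ∀ w x y z : Fin chevF4.rank, w ≠ x → w ≠ y → w ≠ z → x ≠ y → x ≠ z → y ≠ z →
      chevF4.bonds w x = chevF4.bonds a b → chevF4.bonds x y = chevF4.bonds b c →
      chevF4.bonds y z = chevF4.bonds c d → chevF4.bonds w y = chevF4.bonds a c →
      (w = a ∧ x = b ∧ y = c ∧ z = d) ∨ (w = d ∧ x = c ∧ y = b ∧ z = a) := by decide +kernel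
  have hne : ∀ {u v : Fin chevF4.rank}, u ≠ v → π u ≠ π v := fun huv e => huv (π.injective e)
  have hab' : a ≠ b ∧ a ≠ c ∧ a ≠ d ∧ b ≠ c ∧ b ≠ d ∧ c ≠ d := by decide +kernel
  obtain ⟨n1, n2, n3, n4, n5, n6⟩ := hab'
  have hA : chevF4.cartan 1 (chevF4.simple 0) = -1 ∧ chevF4.cartan 0 (chevF4.simple 1) = -1 ∧
      chevF4.cartan 2 (chevF4.simple 1) = -1 ∧ chevF4.cartan 1 (chevF4.simple 2) = -2 ∧
      chevF4.cartan 2 (chevF4.simple 3) = -1 ∧ chevF4.cartan 3 (chevF4.simple 2) = -1 ∧
      chevF4.isLong (chevF4.simple 0) = false ∧ chevF4.isLong (chevF4.simple 1) = false ∧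
      chevF4.isLong (chevF4.simple 2) = true ∧ chevF4.isLong (chevF4.simple 3) = true := by decide +kernel
  obtain ⟨a10, a01, a21, a12, a23, a32, la, lb, lc, ld⟩ := hA
  refine ⟨σ c, fun i t => ?_⟩
  rcases hperm (π a) (π b) (π c) (π d) (hne n1) (hne n2) (hne n3) (hne n4) (hne n5) (hne n6)
      (hπ a b n1) (hπ b c n4) (hπ c d n6) (hπ a c n2) with ⟨pa', pb, pc, pd⟩ | ⟨pa', pb, pc, pd⟩
  · have e1 := eq_of_both_neg_one C h (i := c) (k := b) a21 (by rw [pc, pb]; exact a21)
    have e2 := eq_of_both_neg_one C h (i := b) (k := a) a10 (by rw [pa', pb]; exact a10)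
    have e3 := eq_of_both_neg_one C h (i := c) (k := d) a23 (by rw [pc, pd]; exact a23)
    rcases hab i with rfl | rfl | rfl | rfl
    · rw [pa', e2, e1, ChevalleyDatum.graphExp, show chevF4.isLong (chevF4.simple (a : ℕ)) = false from la]; simp
    · rw [pb, e1, ChevalleyDatum.graphExp, show chevF4.isLong (chevF4.simple (b : ℕ)) = false from lb]; simp
    · rw [pc, ChevalleyDatum.graphExp, show chevF4.isLong (chevF4.simple (c : ℕ)) = true from lc]; simp
    · rw [pd, e3, ChevalleyDatum.graphExp, show chevF4.isLong (chevF4.simple (d : ℕ)) = true from ld]; simp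
  · have e1 := eq_pow_of_neg_one C h (i := c) (k := b) 2 (by decide) a21 (by rw [pc, pb]; exact a12)
    have e1' := pow_eq_ringChar (Or.inl rfl) e1
    have e2 := eq_of_both_neg_one C h (i := b) (k := a) a10 (by rw [pa', pb]; exact a23)
    have e3 := eq_of_both_neg_one C h (i := c) (k := d) a23 (by rw [pc, pd]; exact a10)
    rcases hab i with rfl | rfl | rfl | rfl
    · rw [pa', e2, e1' t, ChevalleyDatum.graphExp, show chevF4.isLong (chevF4.simple (d : ℕ)) = true from ld,
        show chevF4.isLong (chevF4.simple (a : ℕ)) = false from la]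
      simp
    · rw [pb, e1' t, ChevalleyDatum.graphExp, show chevF4.isLong (chevF4.simple (c : ℕ)) = true from lc,
        show chevF4.isLong (chevF4.simple (b : ℕ)) = false from lb]
      simp
    · rw [pc, ChevalleyDatum.graphExp, show chevF4.isLong (chevF4.simple (b : ℕ)) = false from lb]; simp
    · rw [pd, e3, ChevalleyDatum.graphExp, show chevF4.isLong (chevF4.simple (a : ℕ)) = false from la]; simp

theorem resolved {F : Type u} [Field F] {D : ChevalleyDatum}
    (hD : D ∈ [chevG2, chevB2, chevD4, chevF4, chevE6, chevE7, chevE8]) (C : Cert.{u} D)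
    {θ : ↥(D.group F) ≃* ↥(D.group F)} {π : Equiv.Perm (Fin D.rank)} {σ : Fin D.rank → (F ≃+* F)}
    (h : IsStd C θ π (fun i => ⇑(σ i))) (hπ : D.IsDiagramSymmetry π) : Resolved D π σ := by
  obtain ⟨pa, htree⟩ := exists_tree hD
  simp only [List.mem_cons, List.not_mem_nil, or_false] at hD
  rcases hD with rfl | rfl | rfl | rfl | rfl | rfl | rfl
  · exact resolved_G2 C h
  · exact resolved_B2 C h
  · exact resolved_simplyLaced C htree (by unfold SimplyLaced; decide +kernel) h hπ
  · exact resolved_F4 C h hπ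
  · exact resolved_simplyLaced C htree (by unfold SimplyLaced; decide +kernel) h hπ
  · exact resolved_simplyLaced C htree (by unfold SimplyLaced; decide +kernel) h hπ
  · exact resolved_simplyLaced C htree (by unfold SimplyLaced; decide +kernel) h hπ

end Cfsg.Agent.LeadWork.Steinberg
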