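/-
Steinberg's theorem: every automorphism is inner-diagonal-graph-field.
-/
import Cfsg.Agent.LeadWork.SteinbergDiagram
set_option autoImplicit false

universe u

namespace Cfsg.Agent.LeadWork.Steinberg

open Cfsg.Lie Cfsg.Agent.Chev
open scoped Matrix MatrixGroups

variable {D : ChevalleyDatum} {F : Type u} [Field F]

theorem groupEquiv_isFieldAut (C : Cert.{u} D) (σ : F ≃+* F) :
    D.IsFieldAut (ChevField.groupEquiv D σ) := by
  refine ⟨σ, fun g r t _ e => ?_⟩
  show ((ChevField.glMap D σ.toRingHom g : GL D.Idx F) : Matrix D.Idx D.Idx F) = _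
  rw [ChevField.coe_glMap, e, ChevField.x_map]
  rfl

theorem exists_decomposition [Finite F]
    (hD : D ∈ [chevG2, chevB2, chevD4, chevF4, chevE6, chevE7, chevE8])
    (θ : ↥(D.group F) ≃* ↥(D.group F)) :
    ∃ (x : ↥(D.group F)) (d g f : ↥(D.group F) ≃* ↥(D.group F)),
      D.IsDiagonalAut d ∧ D.IsGraphAut g ∧ D.IsFieldAut f ∧ ∀ y, θ y = x * d (g (f y)) * x⁻¹ := by
  obtain ⟨C⟩ := nonempty_cert.{u} hD
  obtain ⟨M, hM⟩ := exists_cox hD
  have hst := Suzuki.chainSteps hD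
  obtain ⟨x, hU, hV⟩ := exists_normalised C hM θ
  obtain ⟨π, hπ⟩ := exists_perm C hM hU hV
  obtain ⟨χ, hχ, σ, hstd⟩ := exists_std C hst hπ
  set θ' := θ.trans (MulAut.conj x)
  set d := diagAut C hst hχ (F := F)
  set θ₁ := θ'.trans d
  have hHd : Maps θ₁ (D.diagonalSubgroup F) (D.diagonalSubgroup F) := by
    intro g hg
    rw [maps_diagonal C hM hU hV g hg]
    have e : apG θ₁ g = charUnit D χ * apG θ' g * (charUnit D χ)⁻¹ := by
      rw [apG_eq _ hg, apG_eq _ hg]; rfl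
    rw [e]
    have hcomm : ∀ y ∈ D.diagonalSubgroup F, charUnit D χ * y * (charUnit D χ)⁻¹ = y := by
      intro y hy
      obtain ⟨ψ, -, -, hψ⟩ := C.diagonal_char hy
      rw [mul_inv_eq_iff_eq_mul]
      apply Units.ext
      show dMat D (fun s => (χ s : F)) * _ = _ * dMat D (fun s => (χ s : F))
      rw [hψ, dMat_mul, dMat_mul, mul_comm]
    refine ⟨fun h => by rw [hcomm _ h]; exact h, fun h => ?_⟩
    have h2 : charUnit D χ * apG θ' g * (charUnit D χ)⁻¹ = apG θ' g :=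
      mul_left_cancel (mul_right_cancel (hcomm _ h))
    rwa [h2] at h
  have hsym := isDiagramSymmetry_of_std C hM (bondsOK hD) hstd hHd
  obtain ⟨σ₀, hσ₀⟩ := resolved hD C hstd hsym
  set f := ChevField.groupEquiv D σ₀
  refine ⟨x⁻¹, d.symm, f.symm.trans θ₁, f, diagAut_symm_isDiagonal C hst hχ, ⟨π, hsym, ?_⟩,
    groupEquiv_isFieldAut C σ₀, fun y => ?_⟩
  · intro g i t
    have hp := C.simple_lt i i.isLt
    have hfs : ∀ (r : ℕ) (t : F), f.symm ⟨C.xu r t, C.xu_mem_group _ _⟩ = ⟨C.xu r (σ₀.symm t), C.xu_mem_group _ _⟩ :=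
      fun r t => Subtype.ext (ChevField.glMap_xu C σ₀.symm.toRingHom r t)
    constructor <;> intro e <;>
      rw [show g = ⟨_, C.xu_mem_group _ _⟩ from Subtype.ext (C.eq_xu.mp e), MulEquiv.trans_apply, hfs,
        ← apG_eq θ₁ (C.xu_mem_group _ _)]
    · rw [hstd.pos, hσ₀, map_pow, RingEquiv.apply_symm_apply, C.coe_xu]
    · rw [hstd.neg, hσ₀, map_pow, RingEquiv.apply_symm_apply, C.coe_xu]
  · rw [MulEquiv.trans_apply, MulEquiv.symm_apply_apply]
    show θ y = x⁻¹ * d.symm (d (x * θ y * x⁻¹)) * x⁻¹⁻¹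
    rw [MulEquiv.symm_apply_apply]
    group

end Cfsg.Agent.LeadWork.Steinberg
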