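/-
The subgroups of diagonal and field automorphisms, graph automorphisms, and uniqueness of the decomposition.
-/
import Cfsg.Agent.LeadWork.SteinbergAut
import Cfsg.Agent.Suzuki.SzAut
import Mathlib.FieldTheory.Finite.Basic
import Cfsg.Prelude.Def_KGroupFacts
set_option autoImplicit false

universe u

namespace Cfsg.Agent.LeadWork.Steinberg

open Cfsg.Lie Cfsg.Agent.Chev
open scoped Matrix MatrixGroups

variable {D : ChevalleyDatum} {F : Type u} [Field F]

theorem apG_mul_aut (φ ψ : MulAut ↥(D.group F)) {g : GL D.Idx F} (hg : g ∈ D.group F) :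
    apG (φ * ψ) g = apG φ (apG ψ g) := by
  rw [apG_eq _ hg, apG_eq φ (apG_mem ψ g)]
  have : (⟨apG ψ g, apG_mem ψ g⟩ : ↥(D.group F)) = ψ ⟨g, hg⟩ := Subtype.ext (apG_eq ψ hg)
  rw [this]; rfl

theorem apG_one_aut {g : GL D.Idx F} (hg : g ∈ D.group F) : apG (1 : MulAut ↥(D.group F)) g = g := by
  rw [apG_eq _ hg]; rfl

theorem apG_inner (x : ↥(D.group F)) {g : GL D.Idx F} (hg : g ∈ D.group F) :
    apG (MulAut.conj x) g = (x : GL D.Idx F) * g * (x : GL D.Idx F)⁻¹ := by
  rw [apG_eq _ hg]; rfl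

theorem maps_mul {φ ψ : MulAut ↥(D.group F)} {K L M : Subgroup (GL D.Idx F)} (h : Maps ψ K L)
    (h' : Maps φ L M) : Maps (φ * ψ) K M := fun g hg => by
  rw [apG_mul_aut φ ψ hg, ← h' _ (apG_mem ψ g), ← h g hg]

theorem maps_inv {φ : MulAut ↥(D.group F)} {K L : Subgroup (GL D.Idx F)} (h : Maps φ K L) :
    Maps φ⁻¹ L K := h.symm

variable (C : Cert.{u} D)
include C

/-- Automorphisms agreeing on the fundamental root elements and their negatives are equal. -/
theorem aut_ext {φ ψ : MulAut ↥(D.group F)}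
    (h : ∀ (i : Fin D.rank) (t : F),
      apG φ (C.xu (D.simple i) t) = apG ψ (C.xu (D.simple i) t) ∧
        apG φ (C.xu (D.neg (D.simple i)) t) = apG ψ (C.xu (D.neg (D.simple i)) t)) : φ = ψ := by
  let E : Subgroup (GL D.Idx F) :=
    { carrier := {g | g ∈ D.group F ∧ apG φ g = apG ψ g}
      one_mem' := ⟨one_mem _, by rw [apG_one, apG_one]⟩
      mul_mem' := fun {a b} ha hb => ⟨mul_mem ha.1 hb.1, by
        rw [apG_mul _ ha.1 hb.1, apG_mul _ ha.1 hb.1, ha.2, hb.2]⟩
      inv_mem' := fun {a} ha => ⟨inv_mem ha.1, by rw [apG_inv _ ha.1, apG_inv _ ha.1, ha.2]⟩ }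
  have hle : D.group F ≤ E := Suzuki.group_le_of_simple C fun i hi t =>
    ⟨⟨C.xu_mem_group _ _, (h ⟨i, hi⟩ t).1⟩, ⟨C.xu_mem_group _ _, (h ⟨i, hi⟩ t).2⟩⟩
  refine MulEquiv.ext fun y => Subtype.ext ?_
  rw [← apG_eq φ y.2, ← apG_eq ψ y.2]
  exact (hle y.2).2

variable (hst : Suzuki.ChainSteps D)

theorem apG_diagAut {χ : ℕ → Fˣ} (hχ : D.IsRootCharacter χ) {g : GL D.Idx F} (hg : g ∈ D.group F) :
    apG (diagAut C hst hχ) g = charUnit D χ * g * (charUnit D χ)⁻¹ := by
  rw [apG_eq _ hg]; rfl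

/-- The diagonal automorphisms, parametrised by the values on the fundamental roots. -/
noncomputable def diagHom : (Fin D.rank → Fˣ) →* MulAut ↥(D.group F) :=
  MonoidHom.mk' (fun a => diagAut C hst (isRootCharacter_rootChar C a)) fun a b => by
    refine aut_ext C fun i t => ⟨?_, ?_⟩ <;>
      rw [apG_mul_aut _ _ (C.xu_mem_group _ _), apG_diagAut C hst _ (C.xu_mem_group _ _),
        apG_diagAut C hst (isRootCharacter_rootChar C b) (C.xu_mem_group _ _)]
    · rw [charUnit_conj C hst (isRootCharacter_rootChar C (a * b)) (C.simple_lt i i.isLt),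
        charUnit_conj C hst (isRootCharacter_rootChar C b) (C.simple_lt i i.isLt),
        apG_diagAut C hst _ (C.xu_mem_group _ _),
        charUnit_conj C hst (isRootCharacter_rootChar C a) (C.simple_lt i i.isLt),
        rootChar_simple, rootChar_simple, rootChar_simple, Pi.mul_apply, Units.val_mul, mul_assoc]
    · have hn := fun c : Fin D.rank → Fˣ => (isRootCharacter_rootChar C c).1 _ (C.simple_lt i i.isLt)
      rw [charUnit_conj C hst (isRootCharacter_rootChar C (a * b)) (C.neg_lt _ (C.simple_lt i i.isLt)),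
        charUnit_conj C hst (isRootCharacter_rootChar C b) (C.neg_lt _ (C.simple_lt i i.isLt)),
        apG_diagAut C hst _ (C.xu_mem_group _ _),
        charUnit_conj C hst (isRootCharacter_rootChar C a) (C.neg_lt _ (C.simple_lt i i.isLt)),
        hn, hn, hn, rootChar_simple, rootChar_simple, rootChar_simple, Pi.mul_apply, mul_inv,
        Units.val_mul, mul_assoc]

theorem diagHom_pos (a : Fin D.rank → Fˣ) (i : Fin D.rank) (t : F) :
    apG (diagHom C hst a) (C.xu (D.simple i) t) = C.xu (D.simple i) ((a i : F) * t) := by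
  show apG (diagAut C hst (isRootCharacter_rootChar C a)) _ = _
  rw [apG_diagAut C hst _ (C.xu_mem_group _ _), charUnit_conj C hst (isRootCharacter_rootChar C a)
    (C.simple_lt i i.isLt), rootChar_simple]

theorem diagHom_neg (a : Fin D.rank → Fˣ) (i : Fin D.rank) (t : F) :
    apG (diagHom C hst a) (C.xu (D.neg (D.simple i)) t) = C.xu (D.neg (D.simple i)) (((a i)⁻¹ : Fˣ) * t) := by
  show apG (diagAut C hst (isRootCharacter_rootChar C a)) _ = _
  rw [apG_diagAut C hst _ (C.xu_mem_group _ _), charUnit_conj C hst (isRootCharacter_rootChar C a)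
    (C.neg_lt _ (C.simple_lt i i.isLt)), (isRootCharacter_rootChar C a).1 _ (C.simple_lt i i.isLt),
    rootChar_simple]

theorem isDiagonalAut_iff {φ : MulAut ↥(D.group F)} : D.IsDiagonalAut φ ↔ φ ∈ (diagHom (F := F) C hst).range := by
  refine ⟨?_, fun ⟨a, e⟩ => e ▸ diagAut_isDiagonal C hst (isRootCharacter_rootChar C a)⟩
  rintro ⟨χ, hχ, hφ⟩
  refine ⟨fun i => χ (D.simple i), ?_⟩
  have e : φ = diagAut C hst hχ := MulEquiv.ext fun g => Subtype.ext (Units.ext (hφ g))
  rw [e]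
  refine aut_ext C fun i t => ⟨?_, ?_⟩
  · rw [diagHom_pos, apG_diagAut C hst _ (C.xu_mem_group _ _), charUnit_conj C hst hχ (C.simple_lt i i.isLt)]
  · rw [diagHom_neg, apG_diagAut C hst _ (C.xu_mem_group _ _),
      charUnit_conj C hst hχ (C.neg_lt _ (C.simple_lt i i.isLt)), hχ.1 _ (C.simple_lt i i.isLt)]

theorem closure_diagonal :
    Subgroup.closure {φ : MulAut ↥(D.group F) | D.IsDiagonalAut φ} = (diagHom C hst).range := by
  refine le_antisymm ((Subgroup.closure_le _).mpr fun φ hφ => (isDiagonalAut_iff C hst).mp hφ)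
    fun φ hφ => Subgroup.subset_closure ((isDiagonalAut_iff C hst).mpr hφ)

omit C in
theorem apG_fieldEquiv (σ : F ≃+* F) {g : GL D.Idx F} (hg : g ∈ D.group F) :
    apG (ChevField.groupEquiv D σ) g = ChevField.glMap D σ.toRingHom g := by
  rw [apG_eq _ hg]; rfl

omit C in
/-- The field automorphisms. -/
noncomputable def fieldHom (D : ChevalleyDatum) (F : Type u) [Field F] :
    (F ≃+* F) →* MulAut ↥(D.group F) :=
  MonoidHom.mk' (fun σ => ChevField.groupEquiv D σ) fun _ _ =>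
    MulEquiv.ext fun _ => Subtype.ext (Units.ext (Matrix.ext fun _ _ => rfl))

theorem fieldHom_xu (σ : F ≃+* F) (r : ℕ) (t : F) :
    apG (fieldHom D F σ) (C.xu r t) = C.xu r (σ t) := by
  show apG (ChevField.groupEquiv D σ) _ = _
  rw [apG_fieldEquiv σ (C.xu_mem_group _ _), ChevField.glMap_xu]
  rfl

theorem isFieldAut_iff {φ : MulAut ↥(D.group F)} : D.IsFieldAut φ ↔ φ ∈ (fieldHom D F).range := by
  refine ⟨?_, fun ⟨σ, e⟩ => e ▸ groupEquiv_isFieldAut C σ⟩
  rintro ⟨σ, hσ⟩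
  refine ⟨σ, aut_ext C fun i t => ?_⟩
  have key : ∀ r, r < D.nroots → apG φ (C.xu r t) = C.xu r (σ t) := fun r hr => by
    rw [apG_eq _ (C.xu_mem_group _ _)]
    exact Units.ext ((hσ ⟨_, C.xu_mem_group r t⟩ r t hr (C.coe_xu r t)).trans (C.coe_xu _ _).symm)
  exact ⟨by rw [fieldHom_xu, key _ (C.simple_lt i i.isLt)],
    by rw [fieldHom_xu, key _ (C.neg_lt _ (C.simple_lt i i.isLt))]⟩

theorem closure_field :
    Subgroup.closure {φ : MulAut ↥(D.group F) | D.IsFieldAut φ} = (fieldHom D F).range :=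
  le_antisymm ((Subgroup.closure_le _).mpr fun _ hφ => (isFieldAut_iff C).mp hφ)
    fun _ hφ => Subgroup.subset_closure ((isFieldAut_iff C).mpr hφ)

omit C in
theorem isCyclic_ringEquiv (F : Type u) [Field F] [Finite F] : IsCyclic (F ≃+* F) := by
  obtain ⟨p, hp⟩ := CharP.exists F
  haveI := hp
  haveI : Fact p.Prime := ⟨CharP.char_is_prime F p⟩
  letI := ZMod.algebra F p
  let e : (F ≃ₐ[ZMod p] F) →* (F ≃+* F) :=
    { toFun := fun σ => σ.toRingEquiv, map_one' := rfl, map_mul' := fun _ _ => rfl }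
  refine isCyclic_of_surjective e fun σ => ⟨AlgEquiv.ofRingEquiv (f := σ) fun x => ?_, rfl⟩
  exact RingHom.congr_fun (RingHom.ext_zmod ((σ : F →+* F).comp (algebraMap (ZMod p) F))
    (algebraMap (ZMod p) F)) x

/-- `φ` is the graph automorphism of the node permutation `π`. -/
structure IsGraphOf (π : Equiv.Perm (Fin D.rank)) (φ : MulAut ↥(D.group F)) : Prop where
  symm : D.IsDiagramSymmetry π
  pos : ∀ (i : Fin D.rank) (t : F), apG φ (C.xu (D.simple i) t) =
    C.xu (D.simple (π i)) (t ^ D.graphExp (ringChar F) i (π i))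
  neg : ∀ (i : Fin D.rank) (t : F), apG φ (C.xu (D.neg (D.simple i)) t) =
    C.xu (D.neg (D.simple (π i))) (t ^ D.graphExp (ringChar F) i (π i))

theorem isGraphAut_iff {φ : MulAut ↥(D.group F)} : D.IsGraphAut φ ↔ ∃ π, IsGraphOf C π φ := by
  constructor
  · rintro ⟨π, hπ, h⟩
    refine ⟨π, hπ, fun i t => ?_, fun i t => ?_⟩ <;> rw [apG_eq _ (C.xu_mem_group _ _)]
    · exact Units.ext (((h _ i t).1 rfl).trans (C.coe_xu _ _).symm)
    · exact Units.ext (((h _ i t).2 rfl).trans (C.coe_xu _ _).symm)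
  · rintro ⟨π, hπ, hp, hn⟩
    refine ⟨π, hπ, fun g i t => ⟨fun e => ?_, fun e => ?_⟩⟩ <;>
      rw [← apG_eq φ g.2, C.eq_xu.mp e]
    · rw [hp, C.coe_xu]
    · rw [hn, C.coe_xu]

theorem IsGraphOf.unique {π : Equiv.Perm (Fin D.rank)} {φ ψ : MulAut ↥(D.group F)} (h : IsGraphOf C π φ)
    (h' : IsGraphOf C π ψ) : φ = ψ :=
  aut_ext C fun i t => ⟨by rw [h.pos, h'.pos], by rw [h.neg, h'.neg]⟩

theorem isGraphOf_one : IsGraphOf C 1 (1 : MulAut ↥(D.group F)) := by
  refine ⟨fun i j _ => rfl, fun i t => ?_, fun i t => ?_⟩ <;> rw [apG_one_aut (C.xu_mem_group _ _)] <;>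
    simp [ChevalleyDatum.graphExp]

theorem fieldHom_diagHom (σ : F ≃+* F) (a : Fin D.rank → Fˣ) :
    fieldHom D F σ * diagHom C hst a =
      diagHom C hst (fun i => Units.map σ.toRingHom.toMonoidHom (a i)) * fieldHom D F σ := by
  refine aut_ext C fun i t => ⟨?_, ?_⟩ <;>
    rw [apG_mul_aut _ _ (C.xu_mem_group _ _), apG_mul_aut _ _ (C.xu_mem_group _ _)]
  · rw [diagHom_pos, fieldHom_xu, fieldHom_xu, diagHom_pos, map_mul]; rfl
  · rw [diagHom_neg, fieldHom_xu, fieldHom_xu, diagHom_neg, map_mul, Units.val_inv_eq_inv_val,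
      Units.val_inv_eq_inv_val, map_inv₀]; rfl

theorem IsGraphOf.diagHom_comm {π : Equiv.Perm (Fin D.rank)} {φ : MulAut ↥(D.group F)} (h : IsGraphOf C π φ)
    (a : Fin D.rank → Fˣ) : ∃ b, φ * diagHom C hst a = diagHom C hst b * φ := by
  refine ⟨fun j => a (π.symm j) ^ D.graphExp (ringChar F) (π.symm j) j,
    aut_ext C fun i t => ⟨?_, ?_⟩⟩ <;>
    rw [apG_mul_aut _ _ (C.xu_mem_group _ _), apG_mul_aut _ _ (C.xu_mem_group _ _)]
  · rw [diagHom_pos, h.pos, h.pos, diagHom_pos, Equiv.symm_apply_apply, mul_pow, Units.val_pow_eq_pow_val]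
  · rw [diagHom_neg, h.neg, h.neg, diagHom_neg, Equiv.symm_apply_apply, mul_pow, ← inv_pow,
      Units.val_pow_eq_pow_val]

theorem IsGraphOf.fieldHom_comm {π : Equiv.Perm (Fin D.rank)} {φ : MulAut ↥(D.group F)} (h : IsGraphOf C π φ)
    (σ : F ≃+* F) : φ * fieldHom D F σ = fieldHom D F σ * φ := by
  refine aut_ext C fun i t => ⟨?_, ?_⟩ <;>
    rw [apG_mul_aut _ _ (C.xu_mem_group _ _), apG_mul_aut _ _ (C.xu_mem_group _ _), fieldHom_xu]
  · rw [h.pos, h.pos, fieldHom_xu, map_pow]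
  · rw [h.neg, h.neg, fieldHom_xu, map_pow]

/-! ### Stabilising `U`, `V` and the root subgroups -/

theorem rootSubgroup_inj {r s : ℕ} (hr : D.IsPosRoot r) (hs : D.IsPosRoot s)
    (h : C.xu r (1 : F) ∈ D.rootSubgroup F s) : r = s := by
  obtain ⟨v, hv⟩ := C.mem_rootSubgroup.mp h
  by_contra hne
  rw [← C.prodU_single hr, ← C.prodU_single hs] at hv
  have := C.prodU_inj hv r hr
  rw [if_pos rfl, if_neg hne] at this
  exact one_ne_zero this

theorem IsGraphOf.maps_simple [Finite F] {π : Equiv.Perm (Fin D.rank)} {φ : MulAut ↥(D.group F)}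
    (h : IsGraphOf C π φ) (i : Fin D.rank) :
    Maps φ (D.rootSubgroup F (D.simple i)) (D.rootSubgroup F (D.simple (π i))) ∧
      Maps φ (D.rootSubgroup F (D.neg (D.simple i))) (D.rootSubgroup F (D.neg (D.simple (π i)))) := by
  have key : ∀ r s : ℕ, s < D.nroots → (∀ t : F, apG φ (C.xu r t) = C.xu s (t ^ D.graphExp (ringChar F) i (π i))) →
      r < D.nroots → Maps φ (D.rootSubgroup F r) (D.rootSubgroup F s) := by
    intro r s hs he hr
    refine maps_of_le (rootSubgroup_le_group C r) (fun g hg => ?_) fun g hg => ?_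
    · obtain ⟨t, rfl⟩ := C.mem_rootSubgroup.mp hg
      rw [he]
      exact C.mem_rootSubgroup.mpr ⟨_, rfl⟩
    · obtain ⟨v, rfl⟩ := C.mem_rootSubgroup.mp hg
      have hinj : Function.Injective fun t : F => t ^ D.graphExp (ringChar F) i (π i) := fun a b e => by
        refine ChevField.xu_injective C hr (apG_inj φ (C.xu_mem_group _ _) (C.xu_mem_group _ _) ?_)
        rw [he, he]
        exact congrArg (C.xu s) e
      obtain ⟨t, ht⟩ := Finite.surjective_of_injective hinj v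
      refine C.mem_rootSubgroup.mpr ⟨t, ?_⟩
      have ht' : t ^ D.graphExp (ringChar F) i (π i) = v := ht
      rw [← ht', ← he, apG_symm φ (C.xu_mem_group _ _)]
  exact ⟨key _ _ (C.simple_lt _ (π i).isLt) (h.pos i) (C.simple_lt i i.isLt),
    key _ _ (C.neg_lt _ (C.simple_lt _ (π i).isLt)) (h.neg i) (C.neg_lt _ (C.simple_lt i i.isLt))⟩

theorem maps_conj_refl {θ : ↥(D.group F) ≃* ↥(D.group F)} {i j : ℕ} (hi : i < D.rank) (hj : j < D.rank)
    (hnu : apG θ (C.nu (D.simple i) 1) = C.nu (D.simple j) 1) {r s : ℕ} (hr : r < D.nroots) (hs : s < D.nroots)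
    (h : Maps θ (D.rootSubgroup F r) (D.rootSubgroup F s)) :
    Maps θ (D.rootSubgroup F (D.reflectRoot i r)) (D.rootSubgroup F (D.reflectRoot j s)) := by
  have key : ∀ (i : ℕ), i < D.rank → ∀ (r : ℕ), r < D.nroots → ∀ x, x ∈ D.rootSubgroup F (D.reflectRoot i r) ↔
      (C.nu (D.simple i) 1)⁻¹ * x * C.nu (D.simple i) 1 ∈ D.rootSubgroup F r := by
    intro i hi r hr x
    rw [← C.isRefl_nu (F := F) hi r hr]
    constructor
    · rintro ⟨y, hy, rfl⟩
      show (C.nu (D.simple i) 1)⁻¹ * (C.nu (D.simple i) 1 * y * (C.nu (D.simple i) 1)⁻¹) * C.nu (D.simple i) 1 ∈ _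
      rwa [show (C.nu (D.simple i) 1)⁻¹ * (C.nu (D.simple i) 1 * y * (C.nu (D.simple i) 1)⁻¹) *
        C.nu (D.simple i) 1 = y by group]
    · intro hx
      exact ⟨_, hx, by
        show C.nu (D.simple i) 1 * ((C.nu (D.simple i) 1)⁻¹ * x * C.nu (D.simple i) 1) * (C.nu (D.simple i) 1)⁻¹ = x
        group⟩
  intro g hg
  have hn := C.nu_mem_group (F := F) (D.simple i) 1
  rw [key i hi r hr, key j hj s hs, h _ (mul_mem (mul_mem (inv_mem hn) hg) hn),
    apG_mul θ (mul_mem (inv_mem hn) hg) hn, apG_mul θ (inv_mem hn) hg, apG_inv θ hn, hnu]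

theorem IsGraphOf.apG_nu {π : Equiv.Perm (Fin D.rank)} {φ : MulAut ↥(D.group F)} (h : IsGraphOf C π φ)
    (i : Fin D.rank) : apG φ (C.nu (D.simple i) 1) = C.nu (D.simple (π i)) 1 := by
  have hm1 : (-1 : F) ^ D.graphExp (ringChar F) i (π i) = -1 := by
    have h1 := h.pos i (1 : F)
    have h2 := h.pos i (-1 : F)
    rw [← C.xu_inv, apG_inv φ (C.xu_mem_group _ _), h1, C.xu_inv, one_pow] at h2
    exact (ChevField.xu_injective C (C.simple_lt _ (π i).isLt) h2).symm
  rw [C.nu_eq, apG_mul φ (mul_mem (C.xu_mem_group _ _) (C.xu_mem_group _ _)) (C.xu_mem_group _ _),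
    apG_mul φ (C.xu_mem_group _ _) (C.xu_mem_group _ _), h.pos, h.neg, C.nu_eq, inv_one, one_pow, hm1]

theorem IsGraphOf.maps_root [Finite F] {π : Equiv.Perm (Fin D.rank)} {φ : MulAut ↥(D.group F)}
    (h : IsGraphOf C π φ) :
    ∀ r, D.IsPosRoot r → ∃ s, D.IsPosRoot s ∧ Maps φ (D.rootSubgroup F r) (D.rootSubgroup F s) ∧
      Maps φ (D.rootSubgroup F (D.neg r)) (D.rootSubgroup F (D.neg s)) := by
  suffices key : ∀ (k : ℕ) r, D.IsPosRoot r → (C.ht r).toNat ≤ k → ∃ s, D.IsPosRoot s ∧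
      Maps φ (D.rootSubgroup F r) (D.rootSubgroup F s) ∧
      Maps φ (D.rootSubgroup F (D.neg r)) (D.rootSubgroup F (D.neg s)) from
    fun r hr => key _ r hr le_rfl
  intro k
  induction k with
  | zero => intro r hr hk; have := C.ht_pos hr; omega
  | succ k ih =>
    intro r hr hk
    obtain ⟨i, hi, hc, -⟩ := C.exists_descend_supp hr
    obtain ⟨hp, hn⟩ := h.maps_simple C ⟨i, hi⟩
    by_cases he : r = D.simple i
    · exact ⟨_, C.pos_simple (π ⟨i, hi⟩).isLt, he ▸ hp, he ▸ hn⟩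
    have hr' := C.pos_refl hi hr he
    have := C.ht_refl hi hr.1
    have := C.ht_pos hr'
    obtain ⟨s, hs, hm, hm'⟩ := ih _ hr' (by omega)
    have hne : s ≠ D.simple (π ⟨i, hi⟩) := by
      intro e
      have h1 : C.xu (D.reflectRoot i r) (1 : F) ∈ D.rootSubgroup F (D.simple i) := by
        rw [hp _ (C.xu_mem_group _ _), ← e, ← hm _ (C.xu_mem_group _ _)]
        exact C.mem_rootSubgroup.mpr ⟨1, rfl⟩
      have h2 := rootSubgroup_inj C hr' (C.pos_simple hi) h1
      have := congrArg (D.reflectRoot i) h2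
      rw [C.refl_refl hi hr.1, C.refl_simple hi] at this
      exact C.not_pos_and_neg hr (this ▸ C.negRoot_neg (C.pos_simple hi))
    have hj := (π ⟨i, hi⟩).isLt
    have h1 := maps_conj_refl C hi hj (h.apG_nu C ⟨i, hi⟩) hr'.1 hs.1 hm
    have h2 := maps_conj_refl C hi hj (h.apG_nu C ⟨i, hi⟩) (C.neg_lt _ hr'.1) (C.neg_lt _ hs.1) hm'
    rw [C.refl_refl hi hr.1] at h1
    rw [C.refl_neg hi hr'.1, C.refl_refl hi hr.1, C.refl_neg hj hs.1] at h2
    exact ⟨_, C.pos_refl hj hs hne, h1, h2⟩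

omit C in
theorem maps_self_of_subset [Finite F] {φ : MulAut ↥(D.group F)} {K : Subgroup (GL D.Idx F)} (hK : K ≤ D.group F)
    (h : ∀ g ∈ K, apG φ g ∈ K) : Maps φ K K := by
  classical
  intro g hg
  refine ⟨h g, fun hgK => ?_⟩
  haveI : Fintype F := Fintype.ofFinite F
  let f : K → K := fun x => ⟨apG φ x, h _ x.2⟩
  have hf : Function.Surjective f := Finite.surjective_of_injective fun x y e =>
    Subtype.ext (apG_inj φ (hK x.2) (hK y.2) (congrArg Subtype.val e))
  obtain ⟨x, hx⟩ := hf ⟨_, hgK⟩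
  rw [← apG_inj φ (hK x.2) hg (congrArg Subtype.val hx)]
  exact x.2

theorem IsGraphOf.maps_unipotent [Finite F] {π : Equiv.Perm (Fin D.rank)} {φ : MulAut ↥(D.group F)}
    (h : IsGraphOf C π φ) :
    Maps φ (D.posUnipotent F) (D.posUnipotent F) ∧ Maps φ (D.negUnipotent F) (D.negUnipotent F) := by
  constructor
  · refine maps_self_of_subset (pos_le_group C) fun g hg => apG_closure_le ?_ hg
    rintro x ⟨r, t, hr, e⟩
    rw [C.eq_xu.mp e]
    obtain ⟨s, hs, hm, -⟩ := h.maps_root C r hr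
    exact ⟨C.xu_mem_group _ _, C.rootSubgroup_le_pos hs
      ((hm _ (C.xu_mem_group _ _)).mp (C.mem_rootSubgroup.mpr ⟨t, rfl⟩))⟩
  · refine maps_self_of_subset (neg_le_group C) fun g hg => apG_closure_le ?_ hg
    rintro x ⟨r, t, hr, e⟩
    rw [C.eq_xu.mp e]
    obtain ⟨s, hs, -, hm⟩ := h.maps_root C _ (C.posRoot_neg hr)
    rw [C.neg_neg r hr.1] at hm
    exact ⟨C.xu_mem_group _ _, C.rootSubgroup_le_neg (C.negRoot_neg hs)
      ((hm _ (C.xu_mem_group _ _)).mp (C.mem_rootSubgroup.mpr ⟨t, rfl⟩))⟩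

/-- The values on the fundamental roots of the characters realised inside the diagonal subgroup. -/
noncomputable def innerChars (D : ChevalleyDatum) (F : Type u) [Field F] : Subgroup (Fin D.rank → Fˣ) :=
  (torusMap Fˣ (cartMat D)).range

theorem diagonal_conj_eq {h : GL D.Idx F} (hh : h ∈ D.diagonalSubgroup F) :
    ∃ a ∈ innerChars D F, diagHom C hst a = MulAut.conj (⟨h, C.diagonal_le_group hh⟩ : ↥(D.group F)) := by
  obtain ⟨c, hc, rfl⟩ := C.mem_diagonal_iff.mp hh
  let cu : Fin D.rank → Fˣ := fun k => Units.mk0 (c k) (hc k k.isLt)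
  refine ⟨torusMap Fˣ (cartMat D) cu, ⟨cu, rfl⟩, ?_⟩
  obtain ⟨χ, hχ, hne, eχ⟩ := C.diagonal_char hh
  have hval : ∀ i : Fin D.rank, ((torusMap Fˣ (cartMat D) cu i : Fˣ) : F) = χ (D.simple i) := fun i => by
    have h1 := congrFun (congrFun ((C.coe_torusElt hc).symm.trans eχ)
      (Sum.inr ⟨D.simple i, C.simple_lt i i.isLt⟩)) (Sum.inr ⟨D.simple i, C.simple_lt i i.isLt⟩)
    simp only [dMat, Matrix.diagonal_apply_eq, Sum.elim_inr] at h1
    rw [← h1, torusMap_apply, Units.coe_prod, Finset.prod_range]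
    exact Finset.prod_congr rfl fun k _ => by simp [cu, cartChar, cartMat]
  have hconj : ∀ r < D.nroots, ∀ t, C.torusElt c * C.xu r t * (C.torusElt c)⁻¹ = C.xu r (χ r * t) := by
    intro r hr t
    rw [mul_inv_eq_iff_eq_mul]
    exact Units.ext (by simp [eχ, C.dMat_conj hχ hr t])
  refine aut_ext C fun i t => ⟨?_, ?_⟩
  · rw [diagHom_pos, apG_inner _ (C.xu_mem_group _ _), hconj _ (C.simple_lt i i.isLt), hval]
  · rw [diagHom_neg, apG_inner _ (C.xu_mem_group _ _), hconj _ (C.neg_lt _ (C.simple_lt i i.isLt)),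
      Units.val_inv_eq_inv_val, hval]
    have hn := hχ.neg _ (C.simple_lt i i.isLt)
    rw [inv_eq_of_mul_eq_one_right (by rw [mul_comm]; exact hn)]

theorem inner_of_innerChars {a : Fin D.rank → Fˣ} (ha : a ∈ innerChars D F) :
    diagHom C hst a ∈ Cfsg.Inn ↥(D.group F) := by
  obtain ⟨c, rfl⟩ := ha
  have hc : ∀ k < D.rank, torusArg c k ≠ (0 : F) := fun k _ => C.torusArg_ne' c k
  have hh : C.torusElt (torusArg c) ∈ D.diagonalSubgroup F := C.mem_diagonal_iff.mpr ⟨_, hc, rfl⟩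
  refine ⟨⟨_, C.diagonal_le_group hh⟩, ?_⟩
  obtain ⟨χ, hχ, -, eχ⟩ := C.diagonal_char hh
  have hconj : ∀ r < D.nroots, ∀ t,
      C.torusElt (torusArg c) * C.xu r t * (C.torusElt (torusArg c))⁻¹ = C.xu r (χ r * t) := by
    intro r hr t
    rw [mul_inv_eq_iff_eq_mul]
    exact Units.ext (by simp [eχ, C.dMat_conj hχ hr t])
  have hval : ∀ i : Fin D.rank, χ (D.simple i) = ((torusMap Fˣ (cartMat D) c i : Fˣ) : F) := fun i => by
    have h1 := congrFun (congrFun ((C.coe_torusElt hc).symm.trans eχ)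
      (Sum.inr ⟨D.simple i, C.simple_lt i i.isLt⟩)) (Sum.inr ⟨D.simple i, C.simple_lt i i.isLt⟩)
    simp only [dMat, Matrix.diagonal_apply_eq, Sum.elim_inr] at h1
    rw [← h1, torusMap_apply, Units.coe_prod, Finset.prod_range]
    exact Finset.prod_congr rfl fun k _ => by simp [torusArg, cartChar, cartMat]
  refine aut_ext C fun i t => ⟨?_, ?_⟩
  · rw [diagHom_pos, apG_inner _ (C.xu_mem_group _ _), hconj _ (C.simple_lt i i.isLt), hval]
  · rw [diagHom_neg, apG_inner _ (C.xu_mem_group _ _), hconj _ (C.neg_lt _ (C.simple_lt i i.isLt)),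
      Units.val_inv_eq_inv_val, ← hval]
    have hn := hχ.neg _ (C.simple_lt i i.isLt)
    rw [inv_eq_of_mul_eq_one_right (by rw [mul_comm]; exact hn)]

/-- The decomposition is unique up to diagonal inner automorphisms. -/
theorem trivial_of_inner [Finite F] {M : CoxeterMatrix (Fin D.rank)} (hM : CoxOK D M)
    {π : Equiv.Perm (Fin D.rank)} {φ : MulAut ↥(D.group F)} (hg : IsGraphOf C π φ)
    (h0 : 0 < D.rank) (a : Fin D.rank → Fˣ) (σ : F ≃+* F)
    (h : diagHom C hst a * φ * fieldHom D F σ ∈ Cfsg.Inn ↥(D.group F)) :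
    π = 1 ∧ σ = 1 ∧ a ∈ innerChars D F := by
  obtain ⟨x, hx⟩ := h
  have hd : ∀ (P : ℕ → Prop), (∀ r, P r → r < D.nroots) → ∀ g ∈ spanGroup D F P,
      apG (diagHom C hst a) g ∈ spanGroup D F P := by
    intro P hP g hg
    refine apG_closure_le ?_ hg
    rintro y ⟨r, t, hr, e⟩
    rw [C.eq_xu.mp e]
    refine ⟨C.xu_mem_group _ _, ?_⟩
    show apG (diagAut C hst (isRootCharacter_rootChar C a)) _ ∈ _
    rw [apG_diagAut C hst _ (C.xu_mem_group _ _), charUnit_conj C hst (isRootCharacter_rootChar C a) (hP r hr)]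
    exact C.xu_mem_span hr _
  have hf : ∀ (P : ℕ → Prop), (∀ r, P r → r < D.nroots) → ∀ g ∈ spanGroup D F P,
      apG (fieldHom D F σ) g ∈ spanGroup D F P := by
    intro P hP g hg
    refine apG_closure_le ?_ hg
    rintro y ⟨r, t, hr, e⟩
    rw [C.eq_xu.mp e, fieldHom_xu]
    exact ⟨C.xu_mem_group _ _, C.xu_mem_span hr _⟩
  obtain ⟨gU, gV⟩ := hg.maps_unipotent C
  have hU : Maps (MulAut.conj x) (D.posUnipotent F) (D.posUnipotent F) := by
    rw [hx]
    exact maps_mul (maps_self_of_subset (pos_le_group C) (hf D.IsPosRoot fun r h => h.1))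
      (maps_mul gU (maps_self_of_subset (pos_le_group C) (hd D.IsPosRoot fun r h => h.1)))
  have hV : Maps (MulAut.conj x) (D.negUnipotent F) (D.negUnipotent F) := by
    rw [hx]
    exact maps_mul (maps_self_of_subset (neg_le_group C) (hf D.IsNegRoot fun r h => h.1))
      (maps_mul gV (maps_self_of_subset (neg_le_group C) (hd D.IsNegRoot fun r h => h.1)))
  have hn : ∀ K : Subgroup (GL D.Idx F), K ≤ D.group F → Maps (MulAut.conj x) K K →
      (x : GL D.Idx F) ∈ Subgroup.normalizer (K : Set (GL D.Idx F)) := by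
    intro K hK hm
    refine Subgroup.mem_normalizer_iff.mpr fun y => ⟨fun hy => ?_, fun hy => ?_⟩
    · rw [← apG_inner x (hK hy)]; exact (hm y (hK hy)).mp hy
    · have hyG : y ∈ D.group F := by
        have := mul_mem (mul_mem (inv_mem x.2) (hK hy)) x.2
        rwa [show (x : GL D.Idx F)⁻¹ * ((x : GL D.Idx F) * y * (x : GL D.Idx F)⁻¹) * x = y by group] at this
      rw [← apG_inner x hyG] at hy; exact (hm y hyG).mpr hy
  have hxH : (x : GL D.Idx F) ∈ D.diagonalSubgroup F := (diagonal_iff_normalizer C hM x.2).mpr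
    ⟨ChevField.normalizer_pos C hM x.2 (hn _ (pos_le_group C) hU), hn _ (neg_le_group C) hV⟩
  obtain ⟨b, hb, eb⟩ := diagonal_conj_eq C hst hxH
  rw [show (⟨(x : GL D.Idx F), C.diagonal_le_group hxH⟩ : ↥(D.group F)) = x from rfl, hx] at eb
  have hev : ∀ (i : Fin D.rank) (t : F), C.xu (D.simple i) ((b i : F) * t) =
      C.xu (D.simple (π i)) ((a (π i) : F) * σ t ^ D.graphExp (ringChar F) i (π i)) := by
    intro i t
    rw [← diagHom_pos C hst, eb, apG_mul_aut _ _ (C.xu_mem_group _ _), fieldHom_xu,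
      apG_mul_aut _ _ (C.xu_mem_group _ _), hg.pos, diagHom_pos]
  have hπ : π = 1 := by
    refine Equiv.ext fun i => Fin.ext ?_
    have h1 := hev i ((b i : F)⁻¹)
    rw [mul_inv_cancel₀ (Units.ne_zero _)] at h1
    have h2 := rootSubgroup_inj C (F := F) (C.pos_simple i.isLt) (C.pos_simple (π i).isLt)
      (C.mem_rootSubgroup.mpr ⟨_, h1⟩)
    by_contra hne
    have := C.coef_simple i i.isLt i i.isLt
    rw [h2, C.coef_simple _ (π i).isLt i i.isLt, if_neg (fun e => hne e.symm), if_pos rfl] at this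
    exact zero_ne_one this
  subst hπ
  have hev' : ∀ (i : Fin D.rank) (t : F), (b i : F) * t = (a i : F) * σ t := fun i t => by
    have := ChevField.xu_injective C (C.simple_lt i i.isLt) (hev i t)
    simpa [ChevalleyDatum.graphExp] using this
  have hab : b = a := funext fun i => Units.ext (by simpa using hev' i 1)
  subst hab
  exact ⟨rfl, RingEquiv.ext fun t => (mul_left_cancel₀ (Units.ne_zero _) (hev' ⟨0, h0⟩ t)).symm, hb⟩

end Cfsg.Agent.LeadWork.Steinberg
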