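/-
The outer automorphism group: diagonal part, field part, and the part from diagram symmetries.
-/
import Cfsg.Agent.LeadWork.SteinbergOut
set_option autoImplicit false

universe u

namespace Cfsg.Agent.LeadWork.Steinberg

open Cfsg.Lie Cfsg.Agent.Chev
open scoped Matrix MatrixGroups

variable {D : ChevalleyDatum} {F : Type u} [Field F]

/-- The projection to the outer automorphism group. -/
noncomputable def outHom (D : ChevalleyDatum) (F : Type u) [Field F] :
    MulAut ↥(D.group F) →* Cfsg.Out ↥(D.group F) :=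
  QuotientGroup.mk' (Cfsg.Inn ↥(D.group F))

theorem outHom_eq_one {φ : MulAut ↥(D.group F)} : outHom D F φ = 1 ↔ φ ∈ Cfsg.Inn ↥(D.group F) :=
  QuotientGroup.eq_one_iff φ

variable (C : Cert.{u} D) (hst : Suzuki.ChainSteps D)

/-- The diagonal part. -/
noncomputable def dBar : Subgroup (Cfsg.Out ↥(D.group F)) := ((outHom D F).comp (diagHom C hst)).range

/-- The field part. -/
noncomputable def fBar (D : ChevalleyDatum) (F : Type u) [Field F] : Subgroup (Cfsg.Out ↥(D.group F)) :=
  ((outHom D F).comp (fieldHom D F)).range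

/-- The node permutations realised by graph automorphisms. -/
def graphPerms (F : Type u) [Field F] : Set (Equiv.Perm (Fin D.rank)) :=
  {π | ∃ φ : MulAut ↥(D.group F), IsGraphOf C π φ}

theorem dBar_eq :
    dBar (F := F) C hst = (Subgroup.closure {φ : MulAut ↥(D.group F) | D.IsDiagonalAut φ}).map
      (QuotientGroup.mk' (Cfsg.Inn ↥(D.group F))) := by
  rw [closure_diagonal C hst, ← MonoidHom.range_comp]; rfl

include C in
theorem fBar_eq :
    fBar D F = (Subgroup.closure {φ : MulAut ↥(D.group F) | D.IsFieldAut φ}).map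
      (QuotientGroup.mk' (Cfsg.Inn ↥(D.group F))) := by
  rw [closure_field C, ← MonoidHom.range_comp]; rfl

theorem isMulCommutative_dBar : IsMulCommutative ↥(dBar (F := F) C hst) := by
  refine ⟨⟨fun x y => ?_⟩⟩
  obtain ⟨_, a, rfl⟩ := x
  obtain ⟨_, b, rfl⟩ := y
  apply Subtype.ext
  show _ * _ = _ * _
  rw [← map_mul, ← map_mul, mul_comm]

theorem isCyclic_fBar [Finite F] : IsCyclic ↥(fBar D F) := by
  haveI := isCyclic_ringEquiv F
  exact isCyclic_of_surjective _ ((outHom D F).comp (fieldHom D F)).rangeRestrict_surjective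

variable (hD : D ∈ [chevG2, chevB2, chevD4, chevF4, chevE6, chevE7, chevE8])
include hD

include C hst in
/-- Every outer automorphism is a product of a diagonal, a graph and a field part. -/
theorem exists_parts [Finite F] (x : Cfsg.Out ↥(D.group F)) :
    ∃ (a : Fin D.rank → Fˣ) (π : Equiv.Perm (Fin D.rank)) (φ : MulAut ↥(D.group F)) (σ : F ≃+* F),
      IsGraphOf C π φ ∧ x = outHom D F (diagHom C hst a) * outHom D F φ * outHom D F (fieldHom D F σ) := by
  obtain ⟨θ, rfl⟩ := QuotientGroup.mk'_surjective _ x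
  obtain ⟨g0, d, g, f, hd, hg, hf, he⟩ := exists_decomposition hD θ
  obtain ⟨a, rfl⟩ := (isDiagonalAut_iff C hst).mp hd
  obtain ⟨π, hπ⟩ := (isGraphAut_iff C).mp hg
  obtain ⟨σ, rfl⟩ := (isFieldAut_iff C).mp hf
  refine ⟨a, π, g, σ, hπ, ?_⟩
  have e : θ = MulAut.conj g0 * (diagHom C hst a * g * fieldHom D F σ) := MulEquiv.ext fun y => he y
  show outHom D F θ = _
  rw [e, map_mul, map_mul, map_mul, outHom_eq_one.mpr ⟨g0, rfl⟩, one_mul]

omit hD in
theorem conj_dBar_diag (a : Fin D.rank → Fˣ) {z : Cfsg.Out ↥(D.group F)} (hz : z ∈ dBar C hst) :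
    outHom D F (diagHom C hst a) * z * (outHom D F (diagHom C hst a))⁻¹ ∈ dBar C hst :=
  mul_mem (mul_mem ⟨a, rfl⟩ hz) (inv_mem ⟨a, rfl⟩)

theorem dBar_normal [Finite F] : (dBar (F := F) C hst).Normal := by
  refine ⟨fun z hz x => ?_⟩
  obtain ⟨a, π, φ, σ, hφ, rfl⟩ := exists_parts C hst hD x
  obtain ⟨c, rfl⟩ := hz
  set z₁ : Fin D.rank → Fˣ := fun i => Units.map σ.toRingHom.toMonoidHom (c i)
  obtain ⟨b, hb⟩ := hφ.diagHom_comm C hst z₁
  refine ⟨a * b * a⁻¹, ?_⟩
  show outHom D F (diagHom C hst (a * b * a⁻¹)) = _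
  have h1 : outHom D F (fieldHom D F σ) * outHom D F (diagHom C hst c) =
      outHom D F (diagHom C hst z₁) * outHom D F (fieldHom D F σ) := by
    rw [← map_mul, ← map_mul, fieldHom_diagHom]
  have h2 : outHom D F φ * outHom D F (diagHom C hst z₁) = outHom D F (diagHom C hst b) * outHom D F φ := by
    rw [← map_mul, ← map_mul, hb]
  simp only [map_mul, map_inv]
  symm
  calc outHom D F (diagHom C hst a) * outHom D F φ * outHom D F (fieldHom D F σ) *
        outHom D F (diagHom C hst c) *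
        (outHom D F (diagHom C hst a) * outHom D F φ * outHom D F (fieldHom D F σ))⁻¹
      = outHom D F (diagHom C hst a) * (outHom D F φ *
          (outHom D F (fieldHom D F σ) * outHom D F (diagHom C hst c)) * (outHom D F (fieldHom D F σ))⁻¹) *
          (outHom D F φ)⁻¹ * (outHom D F (diagHom C hst a))⁻¹ := by group
    _ = outHom D F (diagHom C hst a) * (outHom D F φ * outHom D F (diagHom C hst z₁)) *
          (outHom D F φ)⁻¹ * (outHom D F (diagHom C hst a))⁻¹ := by rw [h1]; group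
    _ = _ := by rw [h2]; group

theorem dfBar_normal [Finite F] : (dBar (F := F) C hst ⊔ fBar D F).Normal := by
  haveI := dBar_normal C hst hD (F := F)
  refine ⟨fun z hz x => ?_⟩
  have hz' : z ∈ ((dBar C hst ⊔ fBar D F : Subgroup (Cfsg.Out ↥(D.group F))) : Set (Cfsg.Out ↥(D.group F))) := hz
  rw [Subgroup.normal_mul] at hz'
  obtain ⟨d, hd, _, ⟨τ, rfl⟩, rfl⟩ := hz'
  have hmul : x * (d * (outHom D F).comp (fieldHom D F) τ) * x⁻¹ =
      (x * d * x⁻¹) * (x * (outHom D F).comp (fieldHom D F) τ * x⁻¹) := by group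
  show x * (d * (outHom D F).comp (fieldHom D F) τ) * x⁻¹ ∈ _
  rw [hmul]
  refine mul_mem (Subgroup.mem_sup_left (Subgroup.Normal.conj_mem ‹_› d hd x)) ?_
  obtain ⟨a, π, φ, σ, hφ, rfl⟩ := exists_parts C hst hD x
  have h1 : outHom D F φ * outHom D F (fieldHom D F (σ * τ * σ⁻¹)) =
      outHom D F (fieldHom D F (σ * τ * σ⁻¹)) * outHom D F φ := by
    rw [← map_mul, ← map_mul, hφ.fieldHom_comm]
  have e : outHom D F (diagHom C hst a) * outHom D F φ * outHom D F (fieldHom D F σ) *
        (outHom D F).comp (fieldHom D F) τ *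
        (outHom D F (diagHom C hst a) * outHom D F φ * outHom D F (fieldHom D F σ))⁻¹ =
      outHom D F (diagHom C hst a) * outHom D F (fieldHom D F (σ * τ * σ⁻¹)) *
        (outHom D F (diagHom C hst a))⁻¹ := by
    calc _ = outHom D F (diagHom C hst a) * (outHom D F φ * outHom D F (fieldHom D F (σ * τ * σ⁻¹))) *
          (outHom D F φ)⁻¹ * (outHom D F (diagHom C hst a))⁻¹ := by
            simp only [map_mul, map_inv, MonoidHom.comp_apply]; group
      _ = _ := by rw [h1]; group
  rw [e]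
  exact mul_mem (mul_mem (Subgroup.mem_sup_left ⟨a, rfl⟩) (Subgroup.mem_sup_right ⟨_, rfl⟩))
    (inv_mem (Subgroup.mem_sup_left ⟨a, rfl⟩))

omit hD in
include C hst in
theorem eq_one_of_mem_inn [Finite F] {M : CoxeterMatrix (Fin D.rank)} (hM : CoxOK D M) (h0 : 0 < D.rank)
    (a : Fin D.rank → Fˣ) (σ : F ≃+* F) (h : diagHom C hst a * fieldHom D F σ ∈ Cfsg.Inn ↥(D.group F)) :
    σ = 1 ∧ a ∈ innerChars D F :=
  (trivial_of_inner C hst hM (isGraphOf_one C) h0 a σ (by rwa [mul_one])).2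

/-- Graph automorphisms in one class modulo the diagonal and field parts have one permutation. -/
theorem graph_class_inj [Finite F] {π ρ : Equiv.Perm (Fin D.rank)} {φ ψ : MulAut ↥(D.group F)}
    (gπ0 : IsGraphOf C π φ) (gρ0 : IsGraphOf C ρ ψ)
    (h1 : (outHom D F φ)⁻¹ * outHom D F ψ ∈ dBar (F := F) C hst ⊔ fBar D F) : π = ρ := by
  obtain ⟨M, hM⟩ := exists_cox hD
  set N := dBar (F := F) C hst ⊔ fBar D F
  haveI := dBar_normal C hst hD (F := F)
  have h1' : (outHom D F φ)⁻¹ * outHom D F ψ ∈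
    ((N : Subgroup (Cfsg.Out ↥(D.group F))) : Set (Cfsg.Out ↥(D.group F))) := h1
  rw [Subgroup.normal_mul] at h1'
  obtain ⟨_, ⟨a, rfl⟩, _, ⟨σ, rfl⟩, h2⟩ := h1'
  have h3 : outHom D F (φ * (diagHom C hst a * fieldHom D F σ)) = outHom D F ψ := by
    have h2' : outHom D F (diagHom C hst a) * outHom D F (fieldHom D F σ) =
        (outHom D F φ)⁻¹ * outHom D F ψ := h2
    rw [map_mul, map_mul, h2', mul_inv_cancel_left]
  have h4 : φ * (diagHom C hst a * fieldHom D F σ) * ψ⁻¹ ∈ Cfsg.Inn ↥(D.group F) := by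
    rw [← outHom_eq_one, map_mul, map_inv, h3, mul_inv_cancel]
  obtain ⟨x, hx⟩ := h4
  have gπ := gπ0
  have gρ := gρ0
  obtain ⟨pU, pV⟩ := gπ.maps_unipotent C
  obtain ⟨rU, rV⟩ := gρ.maps_unipotent C
  have hstep : ∀ r < D.nroots, ∀ t : F, ∃ v, apG (diagHom C hst a * fieldHom D F σ) (C.xu r t) = C.xu r v := by
    intro r hr t
    rw [apG_mul_aut _ _ (C.xu_mem_group _ _), fieldHom_xu]
    show ∃ v, apG (diagAut C hst (isRootCharacter_rootChar C a)) _ = _
    rw [apG_diagAut C hst _ (C.xu_mem_group _ _), charUnit_conj C hst (isRootCharacter_rootChar C a) hr]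
    exact ⟨_, rfl⟩
  have hspan : ∀ (P : ℕ → Prop), (∀ r, P r → r < D.nroots) →
      Maps (diagHom C hst a * fieldHom D F σ) (spanGroup D F P) (spanGroup D F P) := by
    intro P hP
    refine maps_self_of_subset (C.span_le_group P) fun g hg => apG_closure_le ?_ hg
    rintro y ⟨r, t, hr, ey⟩
    rw [C.eq_xu.mp ey]
    obtain ⟨v, hv⟩ := hstep r (hP r hr) t
    exact ⟨C.xu_mem_group _ _, hv ▸ C.xu_mem_span hr v⟩
  have hU : Maps (MulAut.conj x) (D.posUnipotent F) (D.posUnipotent F) := by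
    rw [hx]
    exact maps_mul (maps_inv rU) (maps_mul (hspan D.IsPosRoot fun r h => h.1) pU)
  have hV : Maps (MulAut.conj x) (D.negUnipotent F) (D.negUnipotent F) := by
    rw [hx]
    exact maps_mul (maps_inv rV) (maps_mul (hspan D.IsNegRoot fun r h => h.1) pV)
  have hnorm : ∀ K : Subgroup (GL D.Idx F), K ≤ D.group F → Maps (MulAut.conj x) K K →
      (x : GL D.Idx F) ∈ Subgroup.normalizer (K : Set (GL D.Idx F)) := by
    intro K hK hm
    refine Subgroup.mem_normalizer_iff.mpr fun y => ⟨fun hy => ?_, fun hy => ?_⟩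
    · rw [← apG_inner x (hK hy)]; exact (hm y (hK hy)).mp hy
    · have hyG : y ∈ D.group F := by
        have := mul_mem (mul_mem (inv_mem x.2) (hK hy)) x.2
        rwa [show (x : GL D.Idx F)⁻¹ * ((x : GL D.Idx F) * y * (x : GL D.Idx F)⁻¹) * x = y by group] at this
      rw [← apG_inner x hyG] at hy; exact (hm y hyG).mpr hy
  have hxH : (x : GL D.Idx F) ∈ D.diagonalSubgroup F := (diagonal_iff_normalizer C hM x.2).mpr
    ⟨ChevField.normalizer_pos C hM x.2 (hnorm _ (pos_le_group C) hU), hnorm _ (neg_le_group C) hV⟩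
  refine Equiv.ext fun i => Fin.ext ?_
  obtain ⟨v, hv⟩ := hstep (D.simple i) (C.simple_lt i i.isLt) 1
  have hρ1 : apG (ψ⁻¹ : MulAut ↥(D.group F)) (C.xu (D.simple (ρ i)) 1) = C.xu (D.simple i) 1 := by
    have := gρ.pos i 1
    rw [one_pow] at this
    rw [← this]; exact apG_symm _ (C.xu_mem_group _ _)
  have hx1 : apG (MulAut.conj x) (C.xu (D.simple (ρ i)) 1) =
      C.xu (D.simple (π i)) (v ^ D.graphExp (ringChar F) i (π i)) := by
    rw [hx, apG_mul_aut _ _ (C.xu_mem_group _ _), hρ1, apG_mul_aut _ _ (C.xu_mem_group _ _), hv, gπ.pos]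
  obtain ⟨c, -, ec⟩ := C.diagonal_conj_xu hxH (C.simple_lt _ (ρ i).isLt)
  rw [apG_inner x (C.xu_mem_group _ _), ec] at hx1
  by_contra hne
  have h5 : C.xu (D.simple (ρ i)) (1 : F) ∈ D.rootSubgroup F (D.simple (π i)) := by
    have hmem : C.xu (D.simple (ρ i)) (c * 1) ∈ D.rootSubgroup F (D.simple (π i)) :=
      hx1 ▸ C.mem_rootSubgroup.mpr ⟨_, rfl⟩
    have h6 : (x : GL D.Idx F) * C.xu (D.simple (ρ i)) 1 * (x : GL D.Idx F)⁻¹ ∈
        D.rootSubgroup F (D.simple (π i)) := by rw [ec]; exact hmem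
    exact (Subgroup.mem_normalizer_iff.mp (diagonal_normalises_root C (C.simple_lt _ (π i).isLt) hxH) _).mpr h6
  have h7 := rootSubgroup_inj C (C.pos_simple (ρ i).isLt) (C.pos_simple (π i).isLt) h5
  have := C.coef_simple _ (π i).isLt (π i) (π i).isLt
  rw [← h7, C.coef_simple _ (ρ i).isLt _ (π i).isLt, if_neg (fun e => hne e), if_pos rfl] at this
  exact zero_ne_one this

/-- The diagram part is counted by the realised permutations. -/
theorem index_dfBar [Finite F] :
    (dBar (F := F) C hst ⊔ fBar D F).index = Nat.card ↥(graphPerms (F := F) C) := by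
  haveI := dfBar_normal C hst hD (F := F)
  obtain ⟨M, hM⟩ := exists_cox hD
  set N := dBar (F := F) C hst ⊔ fBar D F
  let Ψ : ↥(graphPerms (F := F) C) → Cfsg.Out ↥(D.group F) ⧸ N :=
    fun π => QuotientGroup.mk' N (outHom D F π.2.choose)
  rw [Subgroup.index]
  refine (Nat.card_congr (Equiv.ofBijective Ψ ⟨?_, ?_⟩)).symm
  · rintro ⟨π, hπ⟩ ⟨ρ, hρ⟩ e
    exact Subtype.ext (graph_class_inj C hst hD hπ.choose_spec hρ.choose_spec (QuotientGroup.eq.mp e))
  · intro y
    obtain ⟨x, rfl⟩ := QuotientGroup.mk'_surjective N y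
    obtain ⟨a, π, φ, σ, hφ, rfl⟩ := exists_parts C hst hD x
    refine ⟨⟨π, φ, hφ⟩, ?_⟩
    have hg : IsGraphOf C π (⟨φ, hφ⟩ : ∃ ψ : MulAut ↥(D.group F), IsGraphOf C π ψ).choose :=
      Exists.choose_spec _
    show QuotientGroup.mk' N (outHom D F _) = _
    rw [hg.unique C hφ, map_mul (QuotientGroup.mk' N), map_mul (QuotientGroup.mk' N),
      show QuotientGroup.mk' N (outHom D F (diagHom C hst a)) = 1 from
        (QuotientGroup.eq_one_iff _).mpr (Subgroup.mem_sup_left ⟨a, rfl⟩),
      show QuotientGroup.mk' N (outHom D F (fieldHom D F σ)) = 1 from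
        (QuotientGroup.eq_one_iff _).mpr (Subgroup.mem_sup_right ⟨σ, rfl⟩), one_mul, mul_one]

omit hD in
include C hst in
/-- Conjugation embeds the diagonal subgroup as the inner characters. -/
theorem card_innerChars {M : CoxeterMatrix (Fin D.rank)} (hM : CoxOK D M) :
    Nat.card ↥(innerChars D F) = Nat.card ↥(D.diagonalSubgroup F) := by
  have hinj : Function.Injective (diagHom (F := F) C hst) := fun a b e => funext fun i => Units.ext (by
    have h := diagHom_pos C hst a i (1 : F)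
    rw [e, diagHom_pos, mul_one, mul_one] at h
    exact (ChevField.xu_injective C (C.simple_lt i i.isLt) h).symm)
  let conjH : ↥(D.diagonalSubgroup F) → MulAut ↥(D.group F) :=
    fun h => MulAut.conj (⟨h.1, C.diagonal_le_group h.2⟩ : ↥(D.group F))
  have hc : Function.Injective conjH := fun h k e => Subtype.ext (mul_inv_eq_one.mp <| by
    refine ChevField.eq_one_of_commute C hM (mul_mem (C.diagonal_le_group h.2) (inv_mem (C.diagonal_le_group k.2)))
      fun r _ => ?_
    have h1 := congrArg (fun φ : MulAut ↥(D.group F) =>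
      apG φ ((k : GL D.Idx F)⁻¹ * C.xu r 1 * (k : GL D.Idx F))) e
    have hm : (k : GL D.Idx F)⁻¹ * C.xu r 1 * (k : GL D.Idx F) ∈ D.group F :=
      mul_mem (mul_mem (inv_mem (C.diagonal_le_group k.2)) (C.xu_mem_group _ _)) (C.diagonal_le_group k.2)
    simp only [conjH, apG_inner _ hm] at h1
    calc (h : GL D.Idx F) * (k : GL D.Idx F)⁻¹ * C.xu r 1
        = ((h : GL D.Idx F) * ((k : GL D.Idx F)⁻¹ * C.xu r 1 * (k : GL D.Idx F)) * (h : GL D.Idx F)⁻¹) * ((h : GL D.Idx F) * (k : GL D.Idx F)⁻¹) := by group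
      _ = _ := by rw [h1]; group)
  have hrange : Set.range conjH = diagHom C hst '' (innerChars D F : Set (Fin D.rank → Fˣ)) := by
    ext φ
    constructor
    · rintro ⟨h, rfl⟩
      obtain ⟨a, ha, e⟩ := diagonal_conj_eq C hst h.2
      exact ⟨a, ha, e⟩
    · rintro ⟨a, ha, rfl⟩
      obtain ⟨c, rfl⟩ := ha
      have hh : C.torusElt (torusArg c) ∈ D.diagonalSubgroup F :=
        C.mem_diagonal_iff.mpr ⟨_, fun k _ => C.torusArg_ne' c k, rfl⟩
      obtain ⟨b, hb, e⟩ := diagonal_conj_eq C hst hh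
      refine ⟨⟨_, hh⟩, e.symm.trans (congrArg _ ?_)⟩
      funext i
      apply Units.ext
      have h1 := diagHom_pos C hst b i (1 : F)
      rw [e, apG_inner _ (C.xu_mem_group _ _)] at h1
      obtain ⟨χ, hχ, -, eχ⟩ := C.diagonal_char hh
      have h2 : C.torusElt (torusArg c) * C.xu (D.simple i) 1 * (C.torusElt (torusArg c))⁻¹ =
          C.xu (D.simple i) (χ (D.simple i) * 1) := by
        rw [mul_inv_eq_iff_eq_mul]
        exact Units.ext (by simp [eχ, C.dMat_conj hχ (C.simple_lt i i.isLt) 1])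
      rw [h2] at h1
      have h3 := ChevField.xu_injective C (C.simple_lt i i.isLt) h1
      rw [mul_one, mul_one] at h3
      have hcn : ∀ k < D.rank, torusArg c k ≠ (0 : F) := fun k _ => C.torusArg_ne' c k
      have h4 := congrFun (congrFun ((C.coe_torusElt hcn).symm.trans eχ)
        (Sum.inr ⟨D.simple i, C.simple_lt i i.isLt⟩)) (Sum.inr ⟨D.simple i, C.simple_lt i i.isLt⟩)
      simp only [dMat, Matrix.diagonal_apply_eq, Sum.elim_inr] at h4
      rw [← h3, ← h4, torusMap_apply, Units.coe_prod, Finset.prod_range]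
      exact Finset.prod_congr rfl fun k _ => by simp [torusArg, cartChar, cartMat]
  rw [← Nat.card_range_of_injective hc, hrange, Nat.card_image_of_injective hinj]
  rfl

include C hst in
/-- The order of the outer automorphism group, with the diagonal index left symbolic. -/
theorem card_out [Finite F] :
    Nat.card (Cfsg.Out ↥(D.group F)) =
      (innerChars D F).index * Nat.card (F ≃+* F) * Nat.card ↥(graphPerms (F := F) C) := by
  obtain ⟨M, hM⟩ := exists_cox hD
  have h0 : 0 < D.rank := by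
    simp only [List.mem_cons, List.not_mem_nil, or_false] at hD
    rcases hD with rfl | rfl | rfl | rfl | rfl | rfl | rfl <;> decide +kernel
  haveI := dBar_normal C hst hD (F := F)
  rw [← index_dfBar C hst hD, ← Subgroup.card_mul_index (dBar (F := F) C hst ⊔ fBar D F)]
  congr 1
  have hker : ((outHom D F).comp (diagHom C hst)).ker = innerChars D F := by
    ext a
    rw [MonoidHom.mem_ker, MonoidHom.comp_apply, outHom_eq_one]
    refine ⟨fun h => (eq_one_of_mem_inn C hst hM h0 a 1 (by rwa [map_one, mul_one])).2,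
      fun h => inner_of_innerChars C hst h⟩
  have hcard : Nat.card ↥(dBar (F := F) C hst) = (innerChars D F).index := by
    rw [dBar, ← hker, Subgroup.index_ker]
  have hfinj : Function.Injective ((outHom D F).comp (fieldHom D F)) := by
    refine (injective_iff_map_eq_one _).mpr fun σ h => ?_
    rw [MonoidHom.comp_apply, outHom_eq_one] at h
    exact (eq_one_of_mem_inn C hst hM h0 1 σ (by rwa [map_one, one_mul])).1
  have hcardF : Nat.card ↥(fBar D F) = Nat.card (F ≃+* F) :=
    (Nat.card_congr (MonoidHom.ofInjective hfinj).toEquiv).symm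
  rw [← hcard, ← hcardF, ← Nat.card_prod]
  refine (Nat.card_congr (Equiv.ofBijective
    (fun p : ↥(dBar (F := F) C hst) × ↥(fBar D F) =>
      (⟨(p.1 : Cfsg.Out ↥(D.group F)) * p.2, Subgroup.mul_mem_sup p.1.2 p.2.2⟩ :
        ↥(dBar (F := F) C hst ⊔ fBar D F))) ⟨?_, ?_⟩)).symm
  · have hdisj : Disjoint (dBar (F := F) C hst) (fBar D F) := by
      rw [disjoint_iff, Subgroup.eq_bot_iff_forall]
      rintro _ ⟨⟨a, rfl⟩, ⟨σ, hσ⟩⟩
      have h : diagHom C hst a * fieldHom D F σ⁻¹ ∈ Cfsg.Inn ↥(D.group F) := by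
        rw [← outHom_eq_one, map_mul, map_inv, map_inv]
        exact mul_inv_eq_one.mpr hσ.symm
      obtain ⟨h1, -⟩ := eq_one_of_mem_inn C hst hM h0 a σ⁻¹ h
      rw [← hσ, inv_eq_one.mp h1, map_one]
    intro p p' e
    exact Subgroup.mul_injective_of_disjoint hdisj (congrArg Subtype.val e)
  · rintro ⟨z, hz⟩
    have hz' : z ∈ ((dBar C hst ⊔ fBar D F : Subgroup (Cfsg.Out ↥(D.group F))) :
      Set (Cfsg.Out ↥(D.group F))) := hz
    rw [Subgroup.normal_mul] at hz'
    obtain ⟨d, hd, f, hf, rfl⟩ := hz'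
    exact ⟨(⟨d, hd⟩, ⟨f, hf⟩), rfl⟩

end Cfsg.Agent.LeadWork.Steinberg
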