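/-
The diagram symmetries of the seven types and the graph automorphisms realising them.
-/
import Cfsg.Agent.LeadWork.SteinbergQuot
import Cfsg.Agent.Chev.GraphAut
import Cfsg.Agent.Chev.TorusOrders
set_option autoImplicit false

universe u

namespace Cfsg.Agent.LeadWork.Steinberg

open Cfsg.Lie Cfsg.Agent.Chev
open scoped Matrix MatrixGroups

/-- The symmetry exchanging two outer nodes of D4. -/
def gD4c : GData where
  rho := [0, 1, 2, 6, 7, 10, 3, 4, 8, 9, 5, 11, 12, 18, 14, 15, 19, 20, 13, 16, 17, 21, 22, 23]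
  node := [2, 1, 0, 3]
  eps := [0, 0, 0, 1, 1, 0, 1, 1, 0, 0, 0, 0, 0, 0, 0, 0, 1, 1, 0, 1, 1, 0, 0, 0]
  ord := 2

theorem gD4c_ok : GraphOK (AllOK.cert.{u} allOKD4) gD4c := graphOK_of_check allOKD4 (by decide +kernel)

/-- All roots have the same length, as seen by `graphExp`. -/
def NoLong (D : ChevalleyDatum) : Prop := ∀ i < D.rank, D.isLong (D.simple i) = false

theorem graphExp_noLong {D : ChevalleyDatum} (h : NoLong D) (c : ℕ) (i j : Fin D.rank) :
    D.graphExp c i j = 1 := by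
  simp [ChevalleyDatum.graphExp, h j j.isLt]

variable {D : ChevalleyDatum} {F : Type u} [Field F] (C : Cert.{u} D)

theorem isGraphOf_mul (hl : NoLong D) {π ρ : Equiv.Perm (Fin D.rank)} {φ ψ : MulAut ↥(D.group F)}
    (h : IsGraphOf C π φ) (h' : IsGraphOf C ρ ψ) : IsGraphOf C (π * ρ) (φ * ψ) := by
  refine ⟨fun i j hij => ?_, fun i t => ?_, fun i t => ?_⟩
  · show D.bonds (π (ρ i)) (π (ρ j)) = _
    rw [h.symm _ _ fun e => hij (ρ.injective e), h'.symm i j hij]
  all_goals rw [apG_mul_aut _ _ (C.xu_mem_group _ _)]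
  · rw [h'.pos, h.pos, graphExp_noLong hl, graphExp_noLong hl, graphExp_noLong hl, pow_one, pow_one]; rfl
  · rw [h'.neg, h.neg, graphExp_noLong hl, graphExp_noLong hl, graphExp_noLong hl, pow_one, pow_one]; rfl

theorem isGraphOf_of_gdata {C₀ : Cert.{u} D} {G : GData} (hl : NoLong D) (hG : GraphOK C₀ G)
    (π : Equiv.Perm (Fin D.rank)) (hπ : ∀ i : Fin D.rank, ((π i : Fin D.rank) : ℕ) = G.nodeF i)
    (hsym : ∀ i j : Fin D.rank, i ≠ j → D.bonds (π i) (π j) = D.bonds i j) :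
    π ∈ graphPerms (F := F) C := by
  obtain ⟨α, hα⟩ := hG.exists_aut (F := F)
  refine ⟨α, hsym, fun i t => ?_, fun i t => ?_⟩ <;>
    rw [apG_eq _ (C.xu_mem_group _ _), graphExp_noLong hl, pow_one] <;> refine Units.ext ?_
  · rw [(hα _ i t i.isLt).1 (C.coe_xu _ _), hπ, C.coe_xu]
  · rw [(hα _ i t i.isLt).2 (C.coe_xu _ _), hπ, C.coe_xu]

theorem one_mem_graphPerms : (1 : Equiv.Perm (Fin D.rank)) ∈ graphPerms (F := F) C := ⟨1, isGraphOf_one C⟩

theorem symm_of_mem_graphPerms {π : Equiv.Perm (Fin D.rank)} (h : π ∈ graphPerms (F := F) C) :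
    D.IsDiagramSymmetry π := by
  obtain ⟨φ, hφ⟩ := h
  exact hφ.symm

/-! ### Adjacency enumeration -/

theorem perm_G2 (π : Equiv.Perm (Fin chevG2.rank)) :
    π = 1 ∨ π = Equiv.swap ⟨0, by decide +kernel⟩ ⟨1, by decide +kernel⟩ := by
  revert π; decide +kernel

theorem perm_B2 (π : Equiv.Perm (Fin chevB2.rank)) :
    π = 1 ∨ π = Equiv.swap ⟨0, by decide +kernel⟩ ⟨1, by decide +kernel⟩ := by
  revert π; decide +kernel

/-- reversal of the diagram of F4 -/
def flipF4 : Equiv.Perm (Fin chevF4.rank) :=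
  Equiv.swap ⟨0, by decide +kernel⟩ ⟨3, by decide +kernel⟩ * Equiv.swap ⟨1, by decide +kernel⟩ ⟨2, by decide +kernel⟩

theorem perm_F4 {π : Equiv.Perm (Fin chevF4.rank)} (h : chevF4.IsDiagramSymmetry π) : π = 1 ∨ π = flipF4 := by
  let n : ℕ → Fin chevF4.rank := fun k => ⟨k % 4, Nat.mod_lt _ (by decide)⟩
  have key : ∀ a b : Fin chevF4.rank, a ≠ b → chevF4.bonds a b = chevF4.bonds (n 1) (n 2) →
      ∀ c : Fin chevF4.rank, c ≠ a → c ≠ b → chevF4.bonds c a = chevF4.bonds (n 0) (n 1) →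
      ∀ d : Fin chevF4.rank, d ≠ a → d ≠ b → d ≠ c → chevF4.bonds b d = chevF4.bonds (n 2) (n 3) →
      (c = n 0 ∧ a = n 1 ∧ b = n 2 ∧ d = n 3) ∨ (c = n 3 ∧ a = n 2 ∧ b = n 1 ∧ d = n 0) := by decide +kernel
  have hne : ∀ {u v : Fin chevF4.rank}, u ≠ v → π u ≠ π v := fun huv e => huv (π.injective e)
  have hall : ∀ i : Fin chevF4.rank, i = n 0 ∨ i = n 1 ∨ i = n 2 ∨ i = n 3 := by decide +kernel
  have hfl : flipF4 (n 0) = n 3 ∧ flipF4 (n 1) = n 2 ∧ flipF4 (n 2) = n 1 ∧ flipF4 (n 3) = n 0 := by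
    decide +kernel
  rcases key (π (n 1)) (π (n 2)) (hne (by decide +kernel)) (h _ _ (by decide +kernel)) (π (n 0))
      (hne (by decide +kernel)) (hne (by decide +kernel)) (h _ _ (by decide +kernel)) (π (n 3))
      (hne (by decide +kernel)) (hne (by decide +kernel)) (hne (by decide +kernel)) (h _ _ (by decide +kernel))
    with ⟨h0, h1, h2, h3⟩ | ⟨h0, h1, h2, h3⟩
  · refine Or.inl (Equiv.ext fun i => ?_)
    rcases hall i with rfl | rfl | rfl | rfl <;> assumption
  · refine Or.inr (Equiv.ext fun i => ?_)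
    obtain ⟨f0, f1, f2, f3⟩ := hfl
    rcases hall i with rfl | rfl | rfl | rfl
    · rw [h0, f0]
    · rw [h1, f1]
    · rw [h2, f2]
    · rw [h3, f3]

/-- flip of the diagram of E6 -/
def flipE6 : Equiv.Perm (Fin chevE6.rank) :=
  Equiv.swap ⟨0, by decide +kernel⟩ ⟨5, by decide +kernel⟩ * Equiv.swap ⟨2, by decide +kernel⟩ ⟨4, by decide +kernel⟩

set_option synthInstance.maxSize 4096 in
set_option maxRecDepth 4000 in
theorem perm_E6 {π : Equiv.Perm (Fin chevE6.rank)} (h : chevE6.IsDiagramSymmetry π) : π = 1 ∨ π = flipE6 := by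
  let n : ℕ → Fin chevE6.rank := fun k => ⟨k % 6, Nat.mod_lt _ (by decide)⟩
  have key : ∀ a b : Fin chevE6.rank, a ≠ b → chevE6.bonds a b = 1 →
      ∀ c : Fin chevE6.rank, c ≠ a → c ≠ b → chevE6.bonds a c = 1 →
      ∀ d : Fin chevE6.rank, d ≠ a → d ≠ b → d ≠ c → chevE6.bonds a d = 1 →
      ∀ e : Fin chevE6.rank, e ≠ a → e ≠ b → e ≠ c → e ≠ d → chevE6.bonds b e = 1 →
      ∀ f : Fin chevE6.rank, f ≠ a → f ≠ b → f ≠ c → f ≠ d → f ≠ e → chevE6.bonds c f = 1 →
      (a = n 3 ∧ b = n 2 ∧ c = n 4 ∧ d = n 1 ∧ e = n 0 ∧ f = n 5) ∨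
        (a = n 3 ∧ b = n 4 ∧ c = n 2 ∧ d = n 1 ∧ e = n 5 ∧ f = n 0) := by decide +kernel
  have hne : ∀ {u v : Fin chevE6.rank}, u ≠ v → π u ≠ π v := fun huv e => huv (π.injective e)
  have hb : ∀ {u v : Fin chevE6.rank}, u ≠ v → chevE6.bonds u v = 1 → chevE6.bonds (π u) (π v) = 1 :=
    fun huv e => (h _ _ huv).trans e
  have hall : ∀ i : Fin chevE6.rank, i = n 0 ∨ i = n 1 ∨ i = n 2 ∨ i = n 3 ∨ i = n 4 ∨ i = n 5 := by decide +kernel
  have hfl : flipE6 (n 0) = n 5 ∧ flipE6 (n 1) = n 1 ∧ flipE6 (n 2) = n 4 ∧ flipE6 (n 3) = n 3 ∧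
      flipE6 (n 4) = n 2 ∧ flipE6 (n 5) = n 0 := by decide +kernel
  rcases key (π (n 3)) (π (n 2)) (hne (by decide +kernel)) (hb (by decide +kernel) (by decide +kernel))
      (π (n 4)) (hne (by decide +kernel)) (hne (by decide +kernel)) (hb (by decide +kernel) (by decide +kernel))
      (π (n 1)) (hne (by decide +kernel)) (hne (by decide +kernel)) (hne (by decide +kernel))
        (hb (by decide +kernel) (by decide +kernel))
      (π (n 0)) (hne (by decide +kernel)) (hne (by decide +kernel)) (hne (by decide +kernel))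
        (hne (by decide +kernel)) (hb (by decide +kernel) (by decide +kernel))
      (π (n 5)) (hne (by decide +kernel)) (hne (by decide +kernel)) (hne (by decide +kernel))
        (hne (by decide +kernel)) (hne (by decide +kernel)) (hb (by decide +kernel) (by decide +kernel))
    with ⟨h3, h2, h4, h1, h0, h5⟩ | ⟨h3, h2, h4, h1, h0, h5⟩
  · refine Or.inl (Equiv.ext fun i => ?_)
    rcases hall i with rfl | rfl | rfl | rfl | rfl | rfl <;> assumption
  · refine Or.inr (Equiv.ext fun i => ?_)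
    obtain ⟨f0, f1, f2, f3, f4, f5⟩ := hfl
    rcases hall i with rfl | rfl | rfl | rfl | rfl | rfl
    · rw [h0, f0]
    · rw [h1, f1]
    · rw [h2, f2]
    · rw [h3, f3]
    · rw [h4, f4]
    · rw [h5, f5]

set_option synthInstance.maxSize 4096 in
set_option maxRecDepth 4000 in
theorem perm_E7 {π : Equiv.Perm (Fin chevE7.rank)} (h : chevE7.IsDiagramSymmetry π) : π = 1 := by
  let n : ℕ → Fin chevE7.rank := fun k => ⟨k % 7, Nat.mod_lt _ (by decide)⟩
  have key : ∀ a : Fin chevE7.rank,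
      ∀ b : Fin chevE7.rank, b ∉ [a] → chevE7.bonds a b = 1 →
      ∀ c : Fin chevE7.rank, c ∉ [a, b] → chevE7.bonds a c = 1 →
      ∀ d : Fin chevE7.rank, d ∉ [a, b, c] → chevE7.bonds a d = 1 →
      ∀ e : Fin chevE7.rank, e ∉ [a, b, c, d] → chevE7.bonds b e = 1 →
      ∀ f : Fin chevE7.rank, f ∉ [a, b, c, d, e] → chevE7.bonds c f = 1 →
      ∀ g : Fin chevE7.rank, g ∉ [a, b, c, d, e, f] → chevE7.bonds f g = 1 →
      a = n 3 ∧ b = n 2 ∧ c = n 4 ∧ d = n 1 ∧ e = n 0 ∧ f = n 5 ∧ g = n 6 := by decide +kernel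
  have hnm : ∀ {u : Fin chevE7.rank} {L : List (Fin chevE7.rank)}, u ∉ L → π u ∉ L.map π :=
    fun hu e => hu ((List.mem_map_of_injective π.injective).mp e)
  have hb : ∀ {u v : Fin chevE7.rank}, u ≠ v → chevE7.bonds u v = 1 → chevE7.bonds (π u) (π v) = 1 :=
    fun huv e => (h _ _ huv).trans e
  have hall : ∀ i : Fin chevE7.rank, i = n 0 ∨ i = n 1 ∨ i = n 2 ∨ i = n 3 ∨ i = n 4 ∨ i = n 5 ∨ i = n 6 := by
    decide +kernel
  obtain ⟨h3, h2, h4, h1, h0, h5, h6⟩ :=
    key (π (n 3))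
      (π (n 2)) (hnm (L := [n 3]) (by decide +kernel))
        (hb (by decide +kernel) (by decide +kernel))
      (π (n 4)) (hnm (L := [n 3, n 2]) (by decide +kernel))
        (hb (by decide +kernel) (by decide +kernel))
      (π (n 1)) (hnm (L := [n 3, n 2, n 4]) (by decide +kernel))
        (hb (by decide +kernel) (by decide +kernel))
      (π (n 0)) (hnm (L := [n 3, n 2, n 4, n 1]) (by decide +kernel))
        (hb (by decide +kernel) (by decide +kernel))
      (π (n 5)) (hnm (L := [n 3, n 2, n 4, n 1, n 0]) (by decide +kernel))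
        (hb (by decide +kernel) (by decide +kernel))
      (π (n 6)) (hnm (L := [n 3, n 2, n 4, n 1, n 0, n 5]) (by decide +kernel))
        (hb (by decide +kernel) (by decide +kernel))
  refine Equiv.ext fun i => ?_
  rcases hall i with rfl | rfl | rfl | rfl | rfl | rfl | rfl <;> assumption

set_option synthInstance.maxSize 4096 in
set_option maxRecDepth 4000 in
theorem perm_E8 {π : Equiv.Perm (Fin chevE8.rank)} (h : chevE8.IsDiagramSymmetry π) : π = 1 := by
  let n : ℕ → Fin chevE8.rank := fun k => ⟨k % 8, Nat.mod_lt _ (by decide)⟩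
  have key : ∀ a : Fin chevE8.rank,
      ∀ b : Fin chevE8.rank, b ∉ [a] → chevE8.bonds a b = 1 →
      ∀ c : Fin chevE8.rank, c ∉ [a, b] → chevE8.bonds a c = 1 →
      ∀ d : Fin chevE8.rank, d ∉ [a, b, c] → chevE8.bonds a d = 1 →
      ∀ e : Fin chevE8.rank, e ∉ [a, b, c, d] → chevE8.bonds b e = 1 →
      ∀ f : Fin chevE8.rank, f ∉ [a, b, c, d, e] → chevE8.bonds c f = 1 →
      ∀ g : Fin chevE8.rank, g ∉ [a, b, c, d, e, f] → chevE8.bonds f g = 1 →
      ∀ k : Fin chevE8.rank, k ∉ [a, b, c, d, e, f, g] → chevE8.bonds g k = 1 →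
      a = n 3 ∧ b = n 2 ∧ c = n 4 ∧ d = n 1 ∧ e = n 0 ∧ f = n 5 ∧ g = n 6 ∧ k = n 7 := by decide +kernel
  have hnm : ∀ {u : Fin chevE8.rank} {L : List (Fin chevE8.rank)}, u ∉ L → π u ∉ L.map π :=
    fun hu e => hu ((List.mem_map_of_injective π.injective).mp e)
  have hb : ∀ {u v : Fin chevE8.rank}, u ≠ v → chevE8.bonds u v = 1 → chevE8.bonds (π u) (π v) = 1 :=
    fun huv e => (h _ _ huv).trans e
  have hall : ∀ i : Fin chevE8.rank, i = n 0 ∨ i = n 1 ∨ i = n 2 ∨ i = n 3 ∨ i = n 4 ∨ i = n 5 ∨ i = n 6 ∨ i = n 7 := by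
    decide +kernel
  obtain ⟨h3, h2, h4, h1, h0, h5, h6, h7⟩ :=
    key (π (n 3))
      (π (n 2)) (hnm (L := [n 3]) (by decide +kernel))
        (hb (by decide +kernel) (by decide +kernel))
      (π (n 4)) (hnm (L := [n 3, n 2]) (by decide +kernel))
        (hb (by decide +kernel) (by decide +kernel))
      (π (n 1)) (hnm (L := [n 3, n 2, n 4]) (by decide +kernel))
        (hb (by decide +kernel) (by decide +kernel))
      (π (n 0)) (hnm (L := [n 3, n 2, n 4, n 1]) (by decide +kernel))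
        (hb (by decide +kernel) (by decide +kernel))
      (π (n 5)) (hnm (L := [n 3, n 2, n 4, n 1, n 0]) (by decide +kernel))
        (hb (by decide +kernel) (by decide +kernel))
      (π (n 6)) (hnm (L := [n 3, n 2, n 4, n 1, n 0, n 5]) (by decide +kernel))
        (hb (by decide +kernel) (by decide +kernel))
      (π (n 7)) (hnm (L := [n 3, n 2, n 4, n 1, n 0, n 5, n 6]) (by decide +kernel))
        (hb (by decide +kernel) (by decide +kernel))
  refine Equiv.ext fun i => ?_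
  rcases hall i with rfl | rfl | rfl | rfl | rfl | rfl | rfl | rfl <;> assumption

/-- a transposition of two outer nodes of D4 -/
def sD4 : Equiv.Perm (Fin chevD4.rank) := Equiv.swap ⟨0, by decide +kernel⟩ ⟨2, by decide +kernel⟩

/-- a rotation of the outer nodes of D4 -/
def cD4 : Equiv.Perm (Fin chevD4.rank) :=
  Equiv.swap ⟨0, by decide +kernel⟩ ⟨3, by decide +kernel⟩ * Equiv.swap ⟨0, by decide +kernel⟩ ⟨2, by decide +kernel⟩

theorem perm_D4 {π : Equiv.Perm (Fin chevD4.rank)} (h : chevD4.IsDiagramSymmetry π) :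
    π ∈ ({1, cD4, cD4 * cD4, sD4, sD4 * cD4, sD4 * (cD4 * cD4)} : Finset (Equiv.Perm (Fin chevD4.rank))) := by
  revert π h
  unfold ChevalleyDatum.IsDiagramSymmetry
  decide +kernel

theorem graphPerms_D4 (C : Cert.{u} chevD4) :
    graphPerms (F := F) C = (({1, cD4, cD4 * cD4, sD4, sD4 * cD4, sD4 * (cD4 * cD4)} :
      Finset (Equiv.Perm (Fin chevD4.rank))) : Set (Equiv.Perm (Fin chevD4.rank))) := by
  have hl : NoLong chevD4 := by unfold NoLong; decide +kernel
  have hs : sD4 ∈ graphPerms (F := F) C :=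
    isGraphOf_of_gdata C hl gD4c_ok sD4 (by decide +kernel) (by decide +kernel)
  have hc : cD4 ∈ graphPerms (F := F) C :=
    isGraphOf_of_gdata C hl gD4a_ok cD4 (by decide +kernel) (by decide +kernel)
  have hm : ∀ a ∈ graphPerms (F := F) C, ∀ b ∈ graphPerms (F := F) C, a * b ∈ graphPerms (F := F) C := by
    rintro a ⟨φ, hφ⟩ b ⟨ψ, hψ⟩
    exact ⟨φ * ψ, isGraphOf_mul C hl hφ hψ⟩
  refine Set.Subset.antisymm (fun π hπ => perm_D4 (symm_of_mem_graphPerms C hπ)) fun π hπ => ?_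
  simp only [Finset.coe_insert, Finset.coe_singleton, Set.mem_insert_iff, Set.mem_singleton_iff] at hπ
  rcases hπ with rfl | rfl | rfl | rfl | rfl | rfl
  · exact one_mem_graphPerms C
  · exact hc
  · exact hm _ hc _ hc
  · exact hs
  · exact hm _ hs _ hc
  · exact hm _ hs _ (hm _ hc _ hc)

theorem card_graphPerms_D4 (C : Cert.{u} chevD4) : Nat.card ↥(graphPerms (F := F) C) = 6 := by
  rw [Nat.card_coe_set_eq, graphPerms_D4 C, Set.ncard_coe_finset]
  decide +kernel

theorem card_graphPerms_E8 (C : Cert.{u} chevE8) : Nat.card ↥(graphPerms (F := F) C) = 1 := by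
  rw [Nat.card_coe_set_eq, Set.ncard_eq_one]
  exact ⟨1, Set.eq_singleton_iff_unique_mem.mpr
    ⟨one_mem_graphPerms C, fun π hπ => perm_E8 (symm_of_mem_graphPerms C hπ)⟩⟩

theorem card_graphPerms_E7 (C : Cert.{u} chevE7) : Nat.card ↥(graphPerms (F := F) C) = 1 := by
  rw [Nat.card_coe_set_eq, Set.ncard_eq_one]
  exact ⟨1, Set.eq_singleton_iff_unique_mem.mpr
    ⟨one_mem_graphPerms C, fun π hπ => perm_E7 (symm_of_mem_graphPerms C hπ)⟩⟩

theorem card_graphPerms_E6 (C : Cert.{u} chevE6) : Nat.card ↥(graphPerms (F := F) C) = 2 := by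
  rw [Nat.card_coe_set_eq, Set.ncard_eq_two]
  refine ⟨1, flipE6, by decide +kernel, Set.Subset.antisymm (fun π hπ => perm_E6 (symm_of_mem_graphPerms C hπ))
    (Set.pair_subset (one_mem_graphPerms C)
      (isGraphOf_of_gdata C (by unfold NoLong; decide +kernel) gE6_ok flipE6 (by decide +kernel) (by decide +kernel)))⟩

theorem card_graphPerms_le_two {D : ChevalleyDatum} (C : Cert.{u} D) {σ : Equiv.Perm (Fin D.rank)}
    (h : ∀ π, D.IsDiagramSymmetry π → π = 1 ∨ π = σ) :
    Nat.card ↥(graphPerms (F := F) C) = 1 ∨ Nat.card ↥(graphPerms (F := F) C) = 2 := by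
  rw [Nat.card_coe_set_eq]
  have hsub : graphPerms (F := F) C ⊆ {1, σ} := fun π hπ => h π (symm_of_mem_graphPerms C hπ)
  have h1 : (graphPerms (F := F) C).ncard ≤ 2 :=
    (Set.ncard_le_ncard hsub (Set.toFinite _)).trans ((Set.ncard_insert_le _ _).trans (by rw [Set.ncard_singleton]))
  have h2 : 0 < (graphPerms (F := F) C).ncard := (Set.ncard_pos (Set.toFinite _)).mpr ⟨1, one_mem_graphPerms C⟩
  omega

/-- Structure of the outer automorphism group. -/
theorem out_structure [Finite F] (hD : D ∈ [chevG2, chevB2, chevD4, chevF4, chevE6, chevE7, chevE8])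
    (C : Cert.{u} D) (hst : Suzuki.ChainSteps D) :
    (dBar (F := F) C hst ⊔ fBar D F).index = 1 ∨ (dBar (F := F) C hst ⊔ fBar D F).index = 2 ∨
      ((dBar (F := F) C hst ⊔ fBar D F).index = 6 ∧
        ¬ commutator (Cfsg.Out ↥(D.group F)) ≤ dBar C hst ⊔ fBar D F) := by
  have hD' := hD
  rw [index_dfBar C hst hD]
  simp only [List.mem_cons, List.not_mem_nil, or_false] at hD
  rcases hD with rfl | rfl | rfl | rfl | rfl | rfl | rfl
  · exact (card_graphPerms_le_two C fun π _ => perm_G2 π).imp id Or.inl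
  · exact (card_graphPerms_le_two C fun π _ => perm_B2 π).imp id Or.inl
  · refine Or.inr (Or.inr ⟨card_graphPerms_D4 C, fun hle => ?_⟩)
    have hl : NoLong chevD4 := by unfold NoLong; decide +kernel
    obtain ⟨φ, hφ⟩ : sD4 ∈ graphPerms (F := F) C := by rw [graphPerms_D4 C]; simp
    obtain ⟨ψ, hψ⟩ : cD4 ∈ graphPerms (F := F) C := by rw [graphPerms_D4 C]; simp
    refine absurd (graph_class_inj C hst hD' (isGraphOf_mul C hl hψ hφ) (isGraphOf_mul C hl hφ hψ) ?_)
      (by decide +kernel : cD4 * sD4 ≠ sD4 * cD4)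
    refine hle ?_
    rw [map_mul, map_mul, commutator_def]
    have := Subgroup.commutator_mem_commutator
      (Subgroup.mem_top ((outHom chevD4 F φ)⁻¹)) (Subgroup.mem_top ((outHom chevD4 F ψ)⁻¹))
    rw [commutatorElement_def, inv_inv, inv_inv] at this
    rwa [show (outHom chevD4 F ψ * outHom chevD4 F φ)⁻¹ * (outHom chevD4 F φ * outHom chevD4 F ψ) =
      (outHom chevD4 F φ)⁻¹ * (outHom chevD4 F ψ)⁻¹ * outHom chevD4 F φ * outHom chevD4 F ψ by group]
  · exact (card_graphPerms_le_two C fun π h => perm_F4 h).imp id Or.inl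
  · exact Or.inr (Or.inl (card_graphPerms_E6 C))
  · exact Or.inl (card_graphPerms_E7 C)
  · exact Or.inl (card_graphPerms_E8 C)

include C in
/-- Index of the inner characters, from the order of the diagonal subgroup. -/
theorem index_innerChars [Fintype F] {M : CoxeterMatrix (Fin D.rank)} (hM : CoxOK D M)
    (hst : Suzuki.ChainSteps D) {k : ℕ}
    (hk : k * Nat.card ↥(D.diagonalSubgroup F) = (Fintype.card F - 1) ^ D.rank) :
    (innerChars D F).index = k := by
  have h1 := (innerChars D F).card_mul_index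
  have hpi : Nat.card (Fin D.rank → Fˣ) = (Fintype.card F - 1) ^ D.rank := by
    classical
    rw [Nat.card_fun, Nat.card_fin, Nat.card_eq_fintype_card, Fintype.card_units]
  rw [card_innerChars C hst hM, hpi, ← hk, mul_comm k] at h1
  refine Nat.eq_of_mul_eq_mul_left ?_ h1
  exact Nat.pos_of_ne_zero fun e => by
    rw [e, mul_zero] at hk
    have hq : 1 < Fintype.card F := Fintype.one_lt_card
    exact absurd hk.symm (pow_ne_zero _ (by omega))

theorem card_out_E8 [Fintype F] : Nat.card (Cfsg.Out ↥(chevE8.group F)) = Nat.card (F ≃+* F) := by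
  have hD : chevE8 ∈ [chevG2, chevB2, chevD4, chevF4, chevE6, chevE7, chevE8] := by simp
  obtain ⟨C⟩ := nonempty_cert.{u} hD
  rw [card_out C (Suzuki.chainSteps hD) hD, index_innerChars C coxE8 (Suzuki.chainSteps hD) card_diagonalE8,
    card_graphPerms_E8 C, one_mul, mul_one]

theorem card_out_E7 [Fintype F] :
    Nat.card (Cfsg.Out ↥(chevE7.group F)) = (Fintype.card F - 1).gcd 2 * Nat.card (F ≃+* F) := by
  have hD : chevE7 ∈ [chevG2, chevB2, chevD4, chevF4, chevE6, chevE7, chevE8] := by simp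
  obtain ⟨C⟩ := nonempty_cert.{u} hD
  rw [card_out C (Suzuki.chainSteps hD) hD, index_innerChars C coxE7 (Suzuki.chainSteps hD) card_diagonalE7,
    card_graphPerms_E7 C, mul_one]

theorem card_out_E6 [Fintype F] :
    Nat.card (Cfsg.Out ↥(chevE6.group F)) = 2 * (Fintype.card F - 1).gcd 3 * Nat.card (F ≃+* F) := by
  have hD : chevE6 ∈ [chevG2, chevB2, chevD4, chevF4, chevE6, chevE7, chevE8] := by simp
  obtain ⟨C⟩ := nonempty_cert.{u} hD
  rw [card_out C (Suzuki.chainSteps hD) hD, index_innerChars C coxE6 (Suzuki.chainSteps hD) card_diagonalE6,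
    card_graphPerms_E6 C]
  ring

end Cfsg.Agent.LeadWork.Steinberg
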