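/-
The exceptional graph automorphism of G2 in characteristic three and the outer automorphism order.
-/
import Cfsg.Agent.LeadWork.SteinbergPerms
import Cfsg.Agent.Suzuki.ReeRep
set_option autoImplicit false

universe u

namespace Cfsg.Agent.LeadWork.Steinberg

open Cfsg.Lie Cfsg.Agent.Chev Cfsg.Agent.Suzuki.Ree
open scoped Matrix MatrixGroups

variable {D : ChevalleyDatum} {F : Type u} [Field F]

/-- The Frobenius of a finite field as a bijection. -/
theorem exists_frobenius (F : Type u) [Field F] [Finite F] :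
    ∃ φ : F ≃+* F, ∀ t, φ t = t ^ ringChar F := by
  haveI := ringChar.charP F
  haveI : Fact (ringChar F).Prime := ⟨CharP.char_is_prime F _⟩
  haveI : ExpChar F (ringChar F) := ExpChar.prime (Fact.out)
  refine ⟨RingEquiv.ofBijective (frobenius F (ringChar F))
    ((Finite.injective_iff_bijective).mp (frobenius_inj F (ringChar F))), fun t => rfl⟩

/-- A graph automorphism is standard, with Frobenius powers as field parts. -/
theorem IsGraphOf.isStd [Finite F] (C : Cert.{u} D) {π : Equiv.Perm (Fin D.rank)} {φ : MulAut ↥(D.group F)}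
    (h : IsGraphOf C π φ) :
    ∃ σ : Fin D.rank → (F ≃+* F), IsStd C φ π (fun i => ⇑(σ i)) ∧
      ∀ i t, σ i t = t ^ D.graphExp (ringChar F) i (π i) := by
  obtain ⟨Φ, hΦ⟩ := exists_frobenius F
  refine ⟨fun i => if D.graphExp (ringChar F) i (π i) = 1 then RingEquiv.refl F else Φ, ?_, ?_⟩
  rotate_left
  · intro i t
    by_cases e : D.graphExp (ringChar F) i (π i) = 1
    · simp [e]
    · simp only [e, if_false, hΦ]
      congr 1
      revert e
      unfold ChevalleyDatum.graphExp
      split <;> simp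
  all_goals
    have key : ∀ (i : Fin D.rank) (t : F),
        (if D.graphExp (ringChar F) i (π i) = 1 then RingEquiv.refl F else Φ) t =
          t ^ D.graphExp (ringChar F) i (π i) := by
      intro i t
      by_cases e : D.graphExp (ringChar F) i (π i) = 1
      · simp [e]
      · simp only [e, if_false, hΦ]
        congr 1
        revert e
        unfold ChevalleyDatum.graphExp
        split <;> simp
    exact ⟨fun i t => (h.pos i t).trans (congrArg _ (key i t).symm),
      fun i t => (h.neg i t).trans (congrArg _ (key i t).symm)⟩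

section G2

variable [CharP F 3]

/-- `g'` is the image of `g` under the special isogeny. -/
def IsogRel (g g' : GL chevG2.Idx F) : Prop := g' ∈ chevG2.group F ∧ rI g' = rQ g

variable [Finite F]

theorem isogRel_unique {g a b : GL chevG2.Idx F} (ha : IsogRel g a) (hb : IsogRel g b) : a = b :=
  rI_inj ha.1 hb.1 (ha.2.trans hb.2.symm)

theorem exists_isogRel {g : GL chevG2.Idx F} (hg : g ∈ chevG2.group F) : ∃ g', IsogRel g g' := by
  rw [cG.group_eq_closure] at hg
  induction hg using Subgroup.closure_induction with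
  | mem x hx => obtain ⟨r, hr, t, rfl⟩ := hx; exact ⟨_, cG.xu_mem_group _ _, xu_intertwine hr t⟩
  | one => exact ⟨1, one_mem _, by rw [one_props.2.1, one_props.2.2]⟩
  | mul x y hx hy ix iy =>
    obtain ⟨a, ha⟩ := ix
    obtain ⟨b, hb⟩ := iy
    refine ⟨a * b, mul_mem ha.1 hb.1, ?_⟩
    rw [rI_mul ha.1 hb.1, ha.2, hb.2, rQ_mul ((cG.group_eq_closure (F := F)).symm ▸ hx)
      ((cG.group_eq_closure (F := F)).symm ▸ hy)]
  | inv x hx ix =>
    obtain ⟨a, ha⟩ := ix
    have hxG : x ∈ chevG2.group F := (cG.group_eq_closure (F := F)).symm ▸ hx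
    refine ⟨a⁻¹, inv_mem ha.1, left_inv_eq_right_inv (a := rI a) ?_ ?_⟩
    · rw [← rI_mul (inv_mem ha.1) ha.1, inv_mul_cancel, one_props.2.1]
    · rw [ha.2, ← rQ_mul hxG (inv_mem hxG), mul_inv_cancel, one_props.2.2]

/-- The special isogeny as an endomorphism. -/
noncomputable def isog : ↥(chevG2.group F) →* ↥(chevG2.group F) :=
  MonoidHom.mk' (fun g => ⟨(exists_isogRel g.2).choose, (exists_isogRel g.2).choose_spec.1⟩) fun g h =>
    Subtype.ext (isogRel_unique (exists_isogRel (g * h).2).choose_spec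
      ⟨mul_mem (exists_isogRel g.2).choose_spec.1 (exists_isogRel h.2).choose_spec.1, by
        show rI ((exists_isogRel g.2).choose * (exists_isogRel h.2).choose) = rQ ((g : GL chevG2.Idx F) * (h : GL chevG2.Idx F))
        rw [rI_mul (exists_isogRel g.2).choose_spec.1 (exists_isogRel h.2).choose_spec.1,
          (exists_isogRel g.2).choose_spec.2, (exists_isogRel h.2).choose_spec.2, rQ_mul g.2 h.2]⟩)

theorem isog_xu {r : ℕ} (hr : r < 12) (t : F) :
    isog ⟨cG.xu r t, cG.xu_mem_group r t⟩ = ⟨cG.xu (bar r) (t ^ expo r), cG.xu_mem_group _ _⟩ :=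
  Subtype.ext (isogRel_unique (exists_isogRel (cG.xu_mem_group r t)).choose_spec
    ⟨cG.xu_mem_group _ _, xu_intertwine hr t⟩)

theorem isog_bijective : Function.Bijective (isog (F := F)) := by
  obtain ⟨Φ, hΦ⟩ := exists_frobenius F
  have h3 : ringChar F = 3 := ringChar.eq F 3
  have hsq : (isog (F := F)).comp isog = (ChevField.groupEquiv chevG2 Φ).toMonoidHom := by
    let E := (MonoidHom.eqLocus ((isog (F := F)).comp isog) (ChevField.groupEquiv chevG2 Φ).toMonoidHom).map
      (chevG2.group F).subtype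
    have hle : chevG2.group F ≤ E := by
      nth_rw 1 [cG.group_eq_closure]
      refine (Subgroup.closure_le _).mpr ?_
      rintro g ⟨r, hr, t, rfl⟩
      refine ⟨⟨cG.xu r t, cG.xu_mem_group r t⟩, ?_, rfl⟩
      show isog (isog _) = ChevField.groupEquiv chevG2 Φ _
      rw [isog_xu hr, isog_xu (bar_lt hr), bar_bar hr]
      refine Subtype.ext ?_
      show cG.xu r ((t ^ expo r) ^ expo (bar r)) = ChevField.glMap chevG2 Φ.toRingHom (cG.xu r t)
      rw [ChevField.glMap_xu]
      show _ = cG.xu r (Φ t)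
      rw [hΦ, h3, ← pow_mul]
      congr 2
      unfold expo
      rw [isLong_bar hr]
      cases Suzuki.Ree.isLong r <;> rfl
    refine MonoidHom.ext fun y => ?_
    obtain ⟨z, hz, hzy⟩ := hle y.2
    obtain rfl : z = y := Subtype.ext hzy
    exact hz
  refine Finite.injective_iff_bijective.mp ?_
  refine Function.Injective.of_comp (f := isog) ?_
  rw [← MonoidHom.coe_comp, hsq]
  exact (ChevField.groupEquiv chevG2 Φ).injective

theorem swap_mem_G2 (C : Cert.{u} chevG2) :
    Equiv.swap ⟨0, by decide +kernel⟩ ⟨1, by decide +kernel⟩ ∈ graphPerms (F := F) C := by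
  set π : Equiv.Perm (Fin chevG2.rank) := Equiv.swap ⟨0, by decide +kernel⟩ ⟨1, by decide +kernel⟩
  have h3 : ringChar F = 3 := ringChar.eq F 3
  have hsym : ∀ i j : Fin chevG2.rank, i ≠ j → chevG2.bonds (π i) (π j) = chevG2.bonds i j := by
    decide +kernel
  have hdata : ∀ i : Fin chevG2.rank, chevG2.simple i < 12 ∧ chevG2.neg (chevG2.simple i) < 12 ∧
      bar (chevG2.simple i) = chevG2.simple (π i) ∧
      bar (chevG2.neg (chevG2.simple i)) = chevG2.neg (chevG2.simple (π i)) ∧
      expo (chevG2.simple i) = chevG2.graphExp 3 i (π i) ∧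
      expo (chevG2.neg (chevG2.simple i)) = chevG2.graphExp 3 i (π i) := by decide +kernel
  have hxu : ∀ (r : ℕ) (t : F), C.xu r t = cG.xu r t := fun r t => Units.ext (by rw [C.coe_xu, cG.coe_xu])
  let φ : MulAut ↥(chevG2.group F) := MulEquiv.ofBijective isog isog_bijective
  have hφ : ∀ r < 12, ∀ t : F, apG φ (C.xu r t) = C.xu (bar r) (t ^ expo r) := fun r hr t => by
    rw [hxu, hxu, apG_eq _ (cG.xu_mem_group _ _)]
    exact congrArg Subtype.val (isog_xu hr t)
  refine ⟨φ, hsym, fun i t => ?_, fun i t => ?_⟩ <;> obtain ⟨h1, h2, h3', h4, h5, h6⟩ := hdata i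
  · rw [hφ _ h1, h3', h5, h3]
  · rw [hφ _ h2, h4, h6, h3]

end G2

theorem swap_notMem_G2 [Finite F] (C : Cert.{u} chevG2) (hp : ringChar F ≠ 3) (hq : 3 ≤ Nat.card F) :
    Equiv.swap ⟨0, by decide +kernel⟩ ⟨1, by decide +kernel⟩ ∉ graphPerms (F := F) C := by
  rintro ⟨φ, hφ⟩
  obtain ⟨σ, hstd, hσ⟩ := hφ.isStd C
  let a : Fin chevG2.rank := ⟨0, by decide +kernel⟩
  let b : Fin chevG2.rank := ⟨1, by decide +kernel⟩
  have hA : chevG2.cartan b (chevG2.simple a) = -1 ∧
      chevG2.cartan (Equiv.swap a b b) (chevG2.simple (Equiv.swap a b a)) = -((3 : ℕ) : ℤ) ∧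
      chevG2.graphExp 5 b (Equiv.swap a b b) = 1 ∧ chevG2.isLong (chevG2.simple a) = false := by decide +kernel
  have e := eq_pow_of_neg_one C hstd (i := b) (k := a) 3 (by decide) hA.1 hA.2.1
  have hb1 : ∀ t, σ b t = t := fun t => by
    rw [hσ]
    have : chevG2.graphExp (ringChar F) b (Equiv.swap a b b) = 1 := by
      have h2 : Equiv.swap a b b = a := Equiv.swap_apply_right a b
      show chevG2.graphExp (ringChar F) b (Equiv.swap a b b) = 1
      rw [h2, ChevalleyDatum.graphExp, hA.2.2.2]
      simp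
    show t ^ chevG2.graphExp (ringChar F) b (Equiv.swap a b b) = t
    rw [this, pow_one]
  have h := pow_eq_ringChar (σ := RingEquiv.refl F) (σ' := σ a) (Or.inr rfl) fun t => by
    rw [e t, hb1]; rfl
  -- so the cube is the Frobenius
  have hcube : ∀ t : F, t ^ 3 = t ^ ringChar F := fun t => by
    have := h t
    rw [e t, hb1] at this
    exact this
  haveI := ringChar.charP F
  have hprime : (ringChar F).Prime := CharP.char_is_prime F _
  have hadd : ∀ x y : F, (x + y) ^ 3 = x ^ 3 + y ^ 3 := fun x y => by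
    haveI : Fact (ringChar F).Prime := ⟨hprime⟩
    rw [hcube, hcube, hcube, add_pow_char]
  have h6 : ((6 : ℕ) : F) = 0 := by
    have := hadd 1 1
    push_cast
    linear_combination this
  have hdvd : ringChar F ∣ 2 * 3 := (ringChar.spec F 6).mp h6
  rcases hprime.dvd_mul.mp hdvd with h' | h'
  · have h2 : ringChar F = 2 := (Nat.prime_dvd_prime_iff_eq hprime Nat.prime_two).mp h'
    have hall : ∀ t : F, t = 0 ∨ t = 1 := fun t => by
      by_contra hc
      push Not at hc
      have := hcube t
      rw [h2, pow_succ] at this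
      exact hc.2 ((mul_eq_left₀ (pow_ne_zero 2 hc.1)).mp this)
    have : Nat.card F ≤ 2 := by
      classical
      letI : Fintype F := Fintype.ofFinite F
      rw [Nat.card_eq_fintype_card, ← Finset.card_univ]
      exact (Finset.card_le_card (fun t _ => by rcases hall t with h | h <;> simp [h] :
        (Finset.univ : Finset F) ⊆ {0, 1})).trans (Finset.card_le_two)
    omega
  · exact hp ((Nat.prime_dvd_prime_iff_eq hprime Nat.prime_three).mp h')

theorem card_out_G2 [Fintype F] (hq : 3 ≤ Fintype.card F) :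
    Nat.card (Cfsg.Out ↥(chevG2.group F)) = (if ringChar F = 3 then 2 else 1) * Nat.card (F ≃+* F) := by
  have hD : chevG2 ∈ [chevG2, chevB2, chevD4, chevF4, chevE6, chevE7, chevE8] := by simp
  obtain ⟨C⟩ := nonempty_cert.{u} hD
  rw [card_out C (Suzuki.chainSteps hD) hD, index_innerChars C coxG2 (Suzuki.chainSteps hD) card_diagonalG2,
    one_mul, mul_comm]
  congr 1
  rw [Nat.card_coe_set_eq]
  split_ifs with h3
  · haveI : CharP F 3 := h3 ▸ ringChar.charP F
    refine Set.ncard_eq_two.mpr ⟨1, _, ?_, Set.Subset.antisymm (fun π _ => perm_G2 π)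
      (Set.pair_subset (one_mem_graphPerms C) (swap_mem_G2 C))⟩
    decide +kernel
  · refine Set.ncard_eq_one.mpr ⟨1, Set.eq_singleton_iff_unique_mem.mpr ⟨one_mem_graphPerms C, fun π hπ => ?_⟩⟩
    refine (perm_G2 π).resolve_right fun e => swap_notMem_G2 C h3 ?_ (e ▸ hπ)
    rw [Nat.card_eq_fintype_card]; exact hq

end Cfsg.Agent.LeadWork.Steinberg
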