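/-
The exceptional graph automorphism of F4 in characteristic two and the outer automorphism order.
-/
import Cfsg.Agent.LeadWork.SteinbergG2
import Cfsg.Agent.Chev.VerifyF4
import Cfsg.Agent.Chev.Simple

set_option autoImplicit false

universe u

namespace Cfsg.Agent.LeadWork.Steinberg.F4

open Cfsg.Lie Cfsg.Agent.Chev Cfsg.Agent.LeadWork.Steinberg
open scoped Matrix MatrixGroups

/-- The certificate of `F4`. -/
noncomputable abbrev cF : Cert.{u} chevF4 := certF4

/-- The long roots. -/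
def longRoots : List ℕ :=
  [0, 1, 2, 4, 5, 6, 15, 16, 17, 21, 22, 23, 24, 25, 26, 30, 31, 32, 41, 42, 43, 45, 46, 47]

/-- The long and short roots exchanged by the graph symmetry. -/
def bar (r : ℕ) : ℕ :=
  [3, 7, 8, 0, 9, 11, 18, 1, 2, 4, 15, 5, 16, 21, 23, 10, 12, 19, 6, 17, 22, 13, 20, 14, 33, 27, 34, 25,
    30, 41, 28, 35, 37, 24, 26, 31, 42, 32, 43, 45, 46, 29, 36, 38, 47, 39, 40, 44].getD r r

/-- Whether a root is long. -/
def isLong (r : ℕ) : Bool := longRoots.contains r

/-- The power occurring in the special isogeny. -/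
def expo (r : ℕ) : ℕ := if isLong r then 1 else 2

/-- The coordinates of the short root ideal. -/
def ιI (k : Fin 26) : chevF4.Idx :=
  if k.val < 24 then Sum.inr ⟨bar (longRoots.getD k.val 0) % chevF4.nroots, Nat.mod_lt _ (by decide +kernel)⟩
  else Sum.inl ⟨(25 - k.val) % chevF4.rank, Nat.mod_lt _ (by decide +kernel)⟩

/-- The coordinates of the quotient, matched with those of the ideal. -/
def ιQ (k : Fin 26) : chevF4.Idx :=
  if k.val < 24 then Sum.inr ⟨longRoots.getD k.val 0 % chevF4.nroots, Nat.mod_lt _ (by decide +kernel)⟩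
  else Sum.inl ⟨(k.val - 22) % chevF4.rank, Nat.mod_lt _ (by decide +kernel)⟩

theorem split_bijective : Function.Bijective (Sum.elim ιI ιQ) := by decide +kernel

/-- The splitting of the coordinates. -/
noncomputable def splitEquiv : Fin 26 ⊕ Fin 26 ≃ chevF4.Idx := Equiv.ofBijective _ split_bijective

/-- The value of a sparse column. -/
def ev (L : List (ℕ × ℤ)) (a : ℕ) : ℤ := (L.map fun q => if q.1 = a then q.2 else 0).sum

/-- Coefficient of `t^m` in the entry `(a, b)` of `x_r(t)`. -/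
def coeffA (r m : ℕ) (a b : chevF4.Idx) : ℤ := ev (colA chevF4 r m (idxN chevF4 b)) (idxN chevF4 a)

theorem bar_lt {r : ℕ} (hr : r < 48) : bar r < 48 := by revert r; decide +kernel

theorem bar_bar {r : ℕ} (hr : r < 48) : bar (bar r) = r := by revert r; decide +kernel

theorem isLong_bar {r : ℕ} (hr : r < 48) : isLong (bar r) = !isLong r := by revert r; decide +kernel

/-- Each test on a column. -/
def colTest (L M : List (ℕ × ℤ)) (ι κ : Fin 26 → chevF4.Idx) : Bool :=
  (List.finRange 26).all fun i => decide (ev L (idxN chevF4 (ι i)) % 2 = ev M (idxN chevF4 (κ i)) % 2)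

theorem colTest_spec {L M : List (ℕ × ℤ)} {ι κ : Fin 26 → chevF4.Idx} (h : colTest L M ι κ = true) (i : Fin 26) :
    ev L (idxN chevF4 (ι i)) % 2 = ev M (idxN chevF4 (κ i)) % 2 :=
  of_decide_eq_true (List.all_eq_true.mp h i (List.mem_finRange i))

/-- The congruences needed for one root. -/
def rootTest (r : ℕ) : Bool :=
  (List.finRange 26).all fun j =>
    ((List.range 3).all fun m => colTest (colA chevF4 r (m + 1) (idxN chevF4 (ιI j))) [] ιQ ιQ) &&
    (if isLong r then
      (List.range 3).all fun m => colTest (colA chevF4 (bar r) (m + 1) (idxN chevF4 (ιI j)))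
        (colA chevF4 r (m + 1) (idxN chevF4 (ιQ j))) ιI ιQ
    else
      colTest (colA chevF4 (bar r) 1 (idxN chevF4 (ιI j))) (colA chevF4 r 2 (idxN chevF4 (ιQ j))) ιI ιQ &&
      colTest (colA chevF4 (bar r) 2 (idxN chevF4 (ιI j))) [] ιI ιI &&
      colTest (colA chevF4 (bar r) 3 (idxN chevF4 (ιI j))) [] ιI ιI &&
      colTest (colA chevF4 r 1 (idxN chevF4 (ιQ j))) [] ιQ ιQ &&
      colTest (colA chevF4 r 3 (idxN chevF4 (ιQ j))) [] ιQ ιQ)

theorem rootTest_ok : ∀ r < 48, rootTest r = true := by decide +kernel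

theorem ev_nil (a : ℕ) : ev [] a = 0 := rfl

theorem coeff_block {r : ℕ} (hr : r < 48) {m : ℕ} (hm : m < 3) (i j : Fin 26) :
    coeffA r (m + 1) (ιQ i) (ιI j) % 2 = 0 := by
  have h := List.all_eq_true.mp (rootTest_ok r hr) j (List.mem_finRange j)
  rw [Bool.and_eq_true] at h
  have h2 := colTest_spec (List.all_eq_true.mp h.1 m (List.mem_range.mpr hm)) i
  rw [ev_nil] at h2
  exact h2

theorem coeff_long {r : ℕ} (hr : r < 48) (hl : isLong r = true) {m : ℕ} (hm : m < 3) (i j : Fin 26) :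
    coeffA (bar r) (m + 1) (ιI i) (ιI j) % 2 = coeffA r (m + 1) (ιQ i) (ιQ j) % 2 := by
  have h := List.all_eq_true.mp (rootTest_ok r hr) j (List.mem_finRange j)
  rw [Bool.and_eq_true, if_pos hl] at h
  exact colTest_spec (List.all_eq_true.mp h.2 m (List.mem_range.mpr hm)) i

theorem coeff_short {r : ℕ} (hr : r < 48) (hl : isLong r = false) (i j : Fin 26) :
    coeffA (bar r) 1 (ιI i) (ιI j) % 2 = coeffA r 2 (ιQ i) (ιQ j) % 2 ∧
    coeffA (bar r) 2 (ιI i) (ιI j) % 2 = 0 ∧ coeffA (bar r) 3 (ιI i) (ιI j) % 2 = 0 ∧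
    coeffA r 1 (ιQ i) (ιQ j) % 2 = 0 ∧ coeffA r 3 (ιQ i) (ιQ j) % 2 = 0 := by
  have h := List.all_eq_true.mp (rootTest_ok r hr) j (List.mem_finRange j)
  rw [Bool.and_eq_true, if_neg (by simp [hl])] at h
  simp only [Bool.and_eq_true] at h
  obtain ⟨-, ⟨⟨⟨h1, h2⟩, h3⟩, h4⟩, h5⟩ := h
  refine ⟨colTest_spec h1 i, ?_, ?_, ?_, ?_⟩
  · exact colTest_spec h2 i
  · exact colTest_spec h3 i
  · exact colTest_spec h4 i
  · exact colTest_spec h5 i

section entries

variable {F : Type u} [Field F]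

theorem cast_coeffA (r m : ℕ) (a b : chevF4.Idx) :
    ((coeffA r m a b : ℤ) : F) = entryVal (colA chevF4 r m (idxN chevF4 b)) (idxN chevF4 a) := by
  unfold coeffA ev entryVal
  induction colA chevF4 r m (idxN chevF4 b) with
  | nil => simp
  | cons q L ih => by_cases h : q.1 = idxN chevF4 a <;> simp [h, ih]

theorem x_entry {r : ℕ} (hr : r < 48) (t : F) (a b : chevF4.Idx) :
    chevF4.x F r t a b = (if a = b then 1 else 0) +
      ∑ m ∈ Finset.range 3, t ^ (m + 1) * ((coeffA r (m + 1) a b : ℤ) : F) := by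
  have hr' : r < chevF4.nroots := hr
  simp only [ChevalleyDatum.x, dif_pos hr', cast_coeffA]
  exact xMat_entry cF.{0}.chain_nodup cF.{0}.chain_len cF.{0}.neg_ne ⟨r, hr'⟩ t a b

variable [CharP F 2]

theorem cast_eq {a b : ℤ} (h : a % 2 = b % 2) : (a : F) = b :=
  (CharP.intCast_eq_intCast F 2).2 (show a ≡ b [ZMOD ((2 : ℕ) : ℤ)] from h)

theorem cast_zero {a : ℤ} (h : a % 2 = 0) : (a : F) = 0 := by
  have := cast_eq (F := F) (a := a) (b := 0) (by simpa using h)
  simpa using this

theorem x_block (r : ℕ) (t : F) (i j : Fin 26) : chevF4.x F r t (ιQ i) (ιI j) = 0 := by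
  have hne : ιQ i ≠ ιI j := fun e => by
    have := split_bijective.1 (a₁ := Sum.inr i) (a₂ := Sum.inl j) e
    cases this
  by_cases hr : r < chevF4.nroots
  · rw [x_entry hr, if_neg hne, zero_add]
    refine Finset.sum_eq_zero fun m hm => ?_
    rw [cast_zero (coeff_block hr (Finset.mem_range.mp hm) i j), mul_zero]
  · rw [x_of_le hr, Matrix.one_apply_ne hne]

theorem x_intertwine {r : ℕ} (hr : r < 48) (t : F) (i j : Fin 26) :
    chevF4.x F (bar r) (t ^ expo r) (ιI i) (ιI j) = chevF4.x F r t (ιQ i) (ιQ j) := by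
  rw [x_entry (bar_lt hr), x_entry hr]
  have hinj : (ιI i = ιI j) = (ιQ i = ιQ j) := by
    refine propext ⟨fun e => ?_, fun e => ?_⟩
    · rw [Sum.inl.inj (split_bijective.1 (a₁ := Sum.inl i) (a₂ := Sum.inl j) e)]
    · rw [Sum.inr.inj (split_bijective.1 (a₁ := Sum.inr i) (a₂ := Sum.inr j) e)]
  simp only [hinj]
  congr 1
  rcases h : isLong r with _ | _
  · obtain ⟨e1, e2, e3, e4, e5⟩ := coeff_short hr h i j
    simp [Finset.sum_range_succ, expo, h, cast_eq (F := F) e1, cast_zero (F := F) e2, cast_zero (F := F) e3,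
      cast_zero (F := F) e4, cast_zero (F := F) e5]
  · simp only [expo, h, if_true, pow_one]
    refine Finset.sum_congr rfl fun m hm => ?_
    rw [cast_eq (coeff_long hr h (Finset.mem_range.mp hm) i j)]

end entries

/-! ### The two representations -/

section rep

variable {F : Type u} [Field F]

/-- The action on the ideal. -/
def rI (g : GL chevF4.Idx F) : Matrix (Fin 26) (Fin 26) F :=
  (g : Matrix chevF4.Idx chevF4.Idx F).submatrix ιI ιI

/-- The action on the quotient. -/
def rQ (g : GL chevF4.Idx F) : Matrix (Fin 26) (Fin 26) F :=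
  (g : Matrix chevF4.Idx chevF4.Idx F).submatrix ιQ ιQ

/-- The ideal is invariant. -/
def PresI (g : GL chevF4.Idx F) : Prop :=
  ∀ i j, (g : Matrix chevF4.Idx chevF4.Idx F) (ιQ i) (ιI j) = 0

theorem sum_split (f : chevF4.Idx → F) : ∑ x, f x = ∑ k, f (ιI k) + ∑ k, f (ιQ k) := by
  rw [← Fintype.sum_equiv splitEquiv (fun z => f (Sum.elim ιI ιQ z)) f (fun z => rfl), Fintype.sum_sum_type]
  rfl

theorem mul_props {g h : GL chevF4.Idx F} (hg : PresI g) (hh : PresI h) :
    PresI (g * h) ∧ rI (g * h) = rI g * rI h ∧ rQ (g * h) = rQ g * rQ h := by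
  refine ⟨fun i j => ?_, ?_, ?_⟩
  · rw [Units.val_mul, Matrix.mul_apply, sum_split]
    simp [hg i, hh _ j]
  · ext i j
    simp only [rI, Units.val_mul, Matrix.submatrix_apply, Matrix.mul_apply]
    rw [sum_split]
    simp [hh _ j]
  · ext i j
    simp only [rQ, Units.val_mul, Matrix.submatrix_apply, Matrix.mul_apply]
    rw [sum_split]
    simp [hg i]

theorem ιI_injective : Function.Injective ιI := fun i j e =>
  Sum.inl.inj (split_bijective.1 (a₁ := Sum.inl i) (a₂ := Sum.inl j) e)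

theorem ιQ_injective : Function.Injective ιQ := fun i j e =>
  Sum.inr.inj (split_bijective.1 (a₁ := Sum.inr i) (a₂ := Sum.inr j) e)

theorem one_props : PresI (1 : GL chevF4.Idx F) ∧ rI (1 : GL chevF4.Idx F) = 1 ∧
    rQ (1 : GL chevF4.Idx F) = 1 := by
  refine ⟨fun i j => ?_, Matrix.submatrix_one _ ιI_injective, Matrix.submatrix_one _ ιQ_injective⟩
  refine Matrix.one_apply_ne fun e => ?_
  have := split_bijective.1 (a₁ := Sum.inr i) (a₂ := Sum.inl j) e
  cases this

variable [CharP F 2]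

theorem group_pres {g : GL chevF4.Idx F} (hg : g ∈ chevF4.group F) : PresI g ∧ PresI g⁻¹ := by
  rw [cF.group_eq_closure] at hg
  induction hg using Subgroup.closure_induction with
  | mem x hx =>
    obtain ⟨r, -, t, rfl⟩ := hx
    exact ⟨fun i j => x_block r t i j, by rw [cF.xu_inv]; exact fun i j => x_block r _ i j⟩
  | one => exact ⟨one_props.1, by rw [inv_one]; exact one_props.1⟩
  | mul x y _ _ hx hy => exact ⟨(mul_props hx.1 hy.1).1, by rw [mul_inv_rev]; exact (mul_props hy.2 hx.2).1⟩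
  | inv x _ hx => exact ⟨hx.2, by rw [inv_inv]; exact hx.1⟩

theorem rI_mul {g h : GL chevF4.Idx F} (hg : g ∈ chevF4.group F) (hh : h ∈ chevF4.group F) :
    rI (g * h) = rI g * rI h := (mul_props (group_pres hg).1 (group_pres hh).1).2.1

theorem rQ_mul {g h : GL chevF4.Idx F} (hg : g ∈ chevF4.group F) (hh : h ∈ chevF4.group F) :
    rQ (g * h) = rQ g * rQ h := (mul_props (group_pres hg).1 (group_pres hh).1).2.2

theorem xu_intertwine {r : ℕ} (hr : r < 48) (t : F) :
    rI (cF.xu (bar r) (t ^ expo r)) = rQ (cF.xu r t) := by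
  ext i j
  exact x_intertwine hr t i j

/-- Some root element moves the ideal. -/
theorem exists_moving : ∃ r < 48, ∃ i j : Fin 26, i ≠ j ∧
    (coeffA r 1 (ιI i) (ιI j) + coeffA r 2 (ιI i) (ιI j) + coeffA r 3 (ιI i) (ιI j)) % 2 = 1 := by
  decide +kernel

/-- The kernel of the action on the ideal. -/
def kerI : Subgroup ↥(chevF4.group F) where
  carrier := {g | rI (g : GL chevF4.Idx F) = 1}
  one_mem' := one_props.2.1
  mul_mem' {a b} ha hb := by
    show rI ((a : GL chevF4.Idx F) * (b : GL chevF4.Idx F)) = 1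
    rw [rI_mul a.2 b.2, ha, hb, mul_one]
  inv_mem' {a} ha := by
    show rI ((a : GL chevF4.Idx F)⁻¹) = 1
    have h := rI_mul (inv_mem a.2) a.2
    rwa [inv_mul_cancel, one_props.2.1, ha, mul_one, eq_comm] at h

theorem kerI_eq_bot : kerI (F := F) = ⊥ := by
  have hD : chevF4 ∈ [chevG2, chevB2, chevD4, chevF4, chevE6, chevE7, chevE8] := by simp
  obtain ⟨M, hM⟩ := exists_cox hD
  obtain ⟨pa, hpa⟩ := exists_tree hD
  have hnd : chevF4 ≠ chevG2 ∧ chevF4 ≠ chevB2 :=
    ⟨fun e => absurd (congrArg ChevalleyDatum.rank e) (by decide +kernel),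
      fun e => absurd (congrArg ChevalleyDatum.rank e) (by decide +kernel)⟩
  have hperf : ⁅chevF4.group F, chevF4.group F⁆ = chevF4.group F :=
    group_perfect_of_mem cF.{u} hD fun h => (h.elim hnd.1 hnd.2).elim
  haveI : IsSimpleGroup ↥(chevF4.group F) :=
    (cF.{u}.isSimple_group hM hpa (by decide +kernel) (cF.{u}.commutator_eq_top hperf)).1
  have hn : (kerI (F := F)).Normal := ⟨fun g hg a => by
    show rI ((a : GL chevF4.Idx F) * (g : GL chevF4.Idx F) * (a : GL chevF4.Idx F)⁻¹) = 1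
    rw [rI_mul (mul_mem a.2 g.2) (inv_mem a.2), rI_mul a.2 g.2, show rI (g : GL chevF4.Idx F) = 1 from hg,
      mul_one, ← rI_mul a.2 (inv_mem a.2), mul_inv_cancel, one_props.2.1]⟩
  refine hn.eq_bot_or_eq_top.resolve_right fun htop => ?_
  obtain ⟨r, hr, i, j, hne, hc⟩ := exists_moving
  have h : (⟨cF.xu r 1, cF.xu_mem_group r (1 : F)⟩ : ↥(chevF4.group F)) ∈ kerI := htop ▸ Subgroup.mem_top _
  have h2 : chevF4.x F r 1 (ιI i) (ιI j) = 0 := by
    have := congrFun (congrFun (show rI (cF.xu r (1 : F)) = 1 from h) i) j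
    rw [Matrix.one_apply_ne hne] at this
    exact this
  rw [x_entry hr, if_neg fun e => hne (ιI_injective e), zero_add] at h2
  simp only [Finset.sum_range_succ, Finset.sum_range_zero, zero_add, one_pow, one_mul, ← Int.cast_add] at h2
  have h3 := cast_eq (F := F) (a := coeffA r 1 (ιI i) (ιI j) + coeffA r 2 (ιI i) (ιI j) +
    coeffA r 3 (ιI i) (ιI j)) (b := 1) (by simpa using hc)
  rw [show ((1 : ℤ) : F) = 1 from Int.cast_one] at h3
  exact one_ne_zero (h3.symm.trans h2)

theorem rI_inj {g g' : GL chevF4.Idx F} (hg : g ∈ chevF4.group F) (hg' : g' ∈ chevF4.group F)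
    (h : rI g = rI g') : g = g' := by
  refine mul_inv_eq_one.1 ?_
  have hk : (⟨g * g'⁻¹, mul_mem hg (inv_mem hg')⟩ : ↥(chevF4.group F)) ∈ kerI := by
    show rI (g * g'⁻¹) = 1
    rw [rI_mul hg (inv_mem hg'), h, ← rI_mul hg' (inv_mem hg'), mul_inv_cancel, one_props.2.1]
  rw [kerI_eq_bot, Subgroup.mem_bot] at hk
  exact congrArg Subtype.val hk

/-- `g'` is the image of `g` under the special isogeny. -/
def IsogRel (g g' : GL chevF4.Idx F) : Prop := g' ∈ chevF4.group F ∧ rI g' = rQ g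

theorem isogRel_unique {g a b : GL chevF4.Idx F} (ha : IsogRel g a) (hb : IsogRel g b) : a = b :=
  rI_inj ha.1 hb.1 (ha.2.trans hb.2.symm)

theorem exists_isogRel {g : GL chevF4.Idx F} (hg : g ∈ chevF4.group F) : ∃ g', IsogRel g g' := by
  rw [cF.group_eq_closure] at hg
  induction hg using Subgroup.closure_induction with
  | mem x hx => obtain ⟨r, hr, t, rfl⟩ := hx; exact ⟨_, cF.xu_mem_group _ _, xu_intertwine hr t⟩
  | one => exact ⟨1, one_mem _, by rw [one_props.2.1, one_props.2.2]⟩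
  | mul x y hx hy ix iy =>
    obtain ⟨a, ha⟩ := ix
    obtain ⟨b, hb⟩ := iy
    refine ⟨a * b, mul_mem ha.1 hb.1, ?_⟩
    rw [rI_mul ha.1 hb.1, ha.2, hb.2, rQ_mul ((cF.group_eq_closure (F := F)).symm ▸ hx)
      ((cF.group_eq_closure (F := F)).symm ▸ hy)]
  | inv x hx ix =>
    obtain ⟨a, ha⟩ := ix
    have hxG : x ∈ chevF4.group F := (cF.group_eq_closure (F := F)).symm ▸ hx
    refine ⟨a⁻¹, inv_mem ha.1, left_inv_eq_right_inv (a := rI a) ?_ ?_⟩
    · rw [← rI_mul (inv_mem ha.1) ha.1, inv_mul_cancel, one_props.2.1]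
    · rw [ha.2, ← rQ_mul hxG (inv_mem hxG), mul_inv_cancel, one_props.2.2]

/-- The special isogeny as an endomorphism. -/
noncomputable def isog : ↥(chevF4.group F) →* ↥(chevF4.group F) :=
  MonoidHom.mk' (fun g => ⟨(exists_isogRel g.2).choose, (exists_isogRel g.2).choose_spec.1⟩) fun g h =>
    Subtype.ext (isogRel_unique (exists_isogRel (g * h).2).choose_spec
      ⟨mul_mem (exists_isogRel g.2).choose_spec.1 (exists_isogRel h.2).choose_spec.1, by
        show rI ((exists_isogRel g.2).choose * (exists_isogRel h.2).choose) =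
          rQ ((g : GL chevF4.Idx F) * (h : GL chevF4.Idx F))
        rw [rI_mul (exists_isogRel g.2).choose_spec.1 (exists_isogRel h.2).choose_spec.1,
          (exists_isogRel g.2).choose_spec.2, (exists_isogRel h.2).choose_spec.2, rQ_mul g.2 h.2]⟩)

theorem isog_xu {r : ℕ} (hr : r < 48) (t : F) :
    isog ⟨cF.xu r t, cF.xu_mem_group r t⟩ = ⟨cF.xu (bar r) (t ^ expo r), cF.xu_mem_group _ _⟩ :=
  Subtype.ext (isogRel_unique (exists_isogRel (cF.xu_mem_group r t)).choose_spec
    ⟨cF.xu_mem_group _ _, xu_intertwine hr t⟩)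

variable [Finite F]

theorem isog_bijective : Function.Bijective (isog (F := F)) := by
  obtain ⟨Φ, hΦ⟩ := exists_frobenius F
  have h2 : ringChar F = 2 := ringChar.eq F 2
  have hsq : (isog (F := F)).comp isog = (ChevField.groupEquiv chevF4 Φ).toMonoidHom := by
    let E := (MonoidHom.eqLocus ((isog (F := F)).comp isog) (ChevField.groupEquiv chevF4 Φ).toMonoidHom).map
      (chevF4.group F).subtype
    have hle : chevF4.group F ≤ E := by
      nth_rw 1 [cF.group_eq_closure]
      refine (Subgroup.closure_le _).mpr ?_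
      rintro g ⟨r, hr, t, rfl⟩
      refine ⟨⟨cF.xu r t, cF.xu_mem_group r t⟩, ?_, rfl⟩
      show isog (isog _) = ChevField.groupEquiv chevF4 Φ _
      rw [isog_xu hr, isog_xu (bar_lt hr), bar_bar hr]
      refine Subtype.ext ?_
      show cF.xu r ((t ^ expo r) ^ expo (bar r)) = ChevField.glMap chevF4 Φ.toRingHom (cF.xu r t)
      rw [ChevField.glMap_xu]
      show _ = cF.xu r (Φ t)
      rw [hΦ, h2, ← pow_mul]
      congr 2
      unfold expo
      rw [isLong_bar hr]
      cases isLong r <;> rfl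
    refine MonoidHom.ext fun y => ?_
    obtain ⟨z, hz, hzy⟩ := hle y.2
    obtain rfl : z = y := Subtype.ext hzy
    exact hz
  refine Finite.injective_iff_bijective.mp ?_
  refine Function.Injective.of_comp (f := isog) ?_
  rw [← MonoidHom.coe_comp, hsq]
  exact (ChevField.groupEquiv chevF4 Φ).injective

theorem flip_mem (C : Cert.{u} chevF4) : flipF4 ∈ graphPerms (F := F) C := by
  have h2 : ringChar F = 2 := ringChar.eq F 2
  have hsym : ∀ i j : Fin chevF4.rank, i ≠ j → chevF4.bonds (flipF4 i) (flipF4 j) = chevF4.bonds i j := by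
    decide +kernel
  have hdata : ∀ i : Fin chevF4.rank, chevF4.simple i < 48 ∧ chevF4.neg (chevF4.simple i) < 48 ∧
      bar (chevF4.simple i) = chevF4.simple (flipF4 i) ∧
      bar (chevF4.neg (chevF4.simple i)) = chevF4.neg (chevF4.simple (flipF4 i)) ∧
      expo (chevF4.simple i) = chevF4.graphExp 2 i (flipF4 i) ∧
      expo (chevF4.neg (chevF4.simple i)) = chevF4.graphExp 2 i (flipF4 i) := by decide +kernel
  have hxu : ∀ (r : ℕ) (t : F), C.xu r t = cF.xu r t := fun r t => Units.ext (by rw [C.coe_xu, cF.coe_xu])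
  let φ : MulAut ↥(chevF4.group F) := MulEquiv.ofBijective isog isog_bijective
  have hφ : ∀ r < 48, ∀ t : F, apG φ (C.xu r t) = C.xu (bar r) (t ^ expo r) := fun r hr t => by
    rw [hxu, hxu, apG_eq _ (cF.xu_mem_group _ _)]
    exact congrArg Subtype.val (isog_xu hr t)
  refine ⟨φ, hsym, fun i t => ?_, fun i t => ?_⟩ <;> obtain ⟨h1, h2', h3, h4, h5, h6⟩ := hdata i
  · rw [hφ _ h1, h3, h5, h2]
  · rw [hφ _ h2', h4, h6, h2]

end rep

theorem flip_notMem {F : Type u} [Field F] [Finite F] (C : Cert.{u} chevF4) (hp : ringChar F ≠ 2) :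
    flipF4 ∉ graphPerms (F := F) C := by
  rintro ⟨φ, hφ⟩
  obtain ⟨σ, hstd, hσ⟩ := hφ.isStd C
  have hdata : ∃ i k : Fin chevF4.rank, chevF4.cartan i (chevF4.simple k) = -1 ∧
      chevF4.cartan (flipF4 i) (chevF4.simple (flipF4 k)) = -((2 : ℕ) : ℤ) := by decide +kernel
  obtain ⟨i, k, h1, h2⟩ := hdata
  have e := eq_pow_of_neg_one C hstd (i := i) (k := k) 2 (by decide) h1 h2
  have h := (e (1 + 1)).symm.trans (map_add (σ k) 1 1)
  rw [map_add, map_one, map_one] at h
  have h' : ((2 : ℕ) : F) = 0 := by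
    push_cast
    linear_combination h
  exact hp ((Nat.prime_dvd_prime_iff_eq (by
    haveI := ringChar.charP F
    exact CharP.char_is_prime F _) Nat.prime_two).mp ((ringChar.spec F 2).mp h'))

theorem card_out_F4 {F : Type u} [Field F] [Fintype F] :
    Nat.card (Cfsg.Out ↥(chevF4.group F)) = (if ringChar F = 2 then 2 else 1) * Nat.card (F ≃+* F) := by
  have hD : chevF4 ∈ [chevG2, chevB2, chevD4, chevF4, chevE6, chevE7, chevE8] := by simp
  obtain ⟨C⟩ := nonempty_cert.{u} hD
  rw [card_out C (Suzuki.chainSteps hD) hD,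
    index_innerChars C coxF4 (Suzuki.chainSteps hD) (k := 1) card_diagonalF4,
    one_mul, mul_comm]
  congr 1
  rw [Nat.card_coe_set_eq]
  split_ifs with h2
  · haveI : CharP F 2 := h2 ▸ ringChar.charP F
    refine Set.ncard_eq_two.mpr ⟨1, flipF4, ?_, Set.Subset.antisymm ?_
      (Set.pair_subset (one_mem_graphPerms C) (flip_mem C))⟩
    · decide +kernel
    · exact fun π hπ => perm_F4 (symm_of_mem_graphPerms C hπ)
  · refine Set.ncard_eq_one.mpr ⟨1, Set.eq_singleton_iff_unique_mem.mpr ⟨one_mem_graphPerms C, fun π hπ => ?_⟩⟩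
    exact (perm_F4 (symm_of_mem_graphPerms C hπ)).resolve_right fun e => flip_notMem C h2 (e ▸ hπ)

end Cfsg.Agent.LeadWork.Steinberg.F4
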