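/-
Twisted groups: Borel subgroup, opposite pairs and normal forms of automorphisms.
-/
import Cfsg.Agent.Chev.TwistSimple
import Cfsg.Agent.Chev.TwistWeyl
import Cfsg.Agent.Chev.TwistTorus
import Mathlib.GroupTheory.Sylow
import Mathlib.GroupTheory.Nilpotent

set_option autoImplicit false
set_option maxRecDepth 100000

universe u

namespace Cfsg.Agent.LeadWork.TwOut

open Cfsg.Lie Cfsg.Agent.Chev
open scoped Matrix MatrixGroups

section Ap

variable {W : Type*} [Group W] {T : Subgroup W}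

open Classical in
/-- An automorphism of a subgroup read on the ambient group. -/
noncomputable def ap (θ : MulAut ↥T) (g : W) : W := if hg : g ∈ T then (θ ⟨g, hg⟩ : W) else 1

theorem ap_eq (θ : MulAut ↥T) {g : W} (hg : g ∈ T) : ap θ g = (θ ⟨g, hg⟩ : W) := dif_pos hg

theorem ap_mem (θ : MulAut ↥T) (g : W) : ap θ g ∈ T := by
  unfold ap; split
  · exact (θ _).2
  · exact one_mem _

theorem ap_mul (θ : MulAut ↥T) {g g' : W} (hg : g ∈ T) (hg' : g' ∈ T) : ap θ (g * g') = ap θ g * ap θ g' := by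
  rw [ap_eq θ (mul_mem hg hg'), ap_eq θ hg, ap_eq θ hg']
  exact congrArg Subtype.val (map_mul θ ⟨g, hg⟩ ⟨g', hg'⟩)

theorem ap_inv (θ : MulAut ↥T) {g : W} (hg : g ∈ T) : ap θ g⁻¹ = (ap θ g)⁻¹ := by
  rw [ap_eq θ (inv_mem hg), ap_eq θ hg]
  exact congrArg Subtype.val (map_inv θ ⟨g, hg⟩)

theorem ap_one (θ : MulAut ↥T) : ap θ (1 : W) = 1 := by
  rw [ap_eq θ (one_mem _)]
  exact congrArg Subtype.val (map_one θ)

theorem ap_conj (θ : MulAut ↥T) {g x : W} (hg : g ∈ T) (hx : x ∈ T) :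
    ap θ (g * x * g⁻¹) = ap θ g * ap θ x * (ap θ g)⁻¹ := by
  rw [ap_mul θ (mul_mem hg hx) (inv_mem hg), ap_mul θ hg hx, ap_inv θ hg]

theorem ap_ap (θ ψ : MulAut ↥T) {g : W} (hg : g ∈ T) : ap θ (ap ψ g) = ap (θ * ψ) g := by
  rw [ap_eq ψ hg, ap_eq θ (ψ ⟨g, hg⟩).2, ap_eq (θ * ψ) hg]
  rfl

theorem ap_id {g : W} (hg : g ∈ T) : ap (1 : MulAut ↥T) g = g := by
  rw [ap_eq _ hg]; rfl

theorem ap_symm (θ : MulAut ↥T) {g : W} (hg : g ∈ T) : ap θ⁻¹ (ap θ g) = g := by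
  rw [ap_ap _ _ hg, inv_mul_cancel, ap_id hg]

theorem ap_symm' (θ : MulAut ↥T) {g : W} (hg : g ∈ T) : ap θ (ap θ⁻¹ g) = g := by
  rw [ap_ap _ _ hg, mul_inv_cancel, ap_id hg]

theorem ap_inj (θ : MulAut ↥T) {g g' : W} (hg : g ∈ T) (hg' : g' ∈ T) (e : ap θ g = ap θ g') : g = g' := by
  rw [← ap_symm θ hg, e, ap_symm θ hg']

theorem ap_inner (w : ↥T) {g : W} (hg : g ∈ T) :
    ap (MulAut.conj w) g = (w : W) * g * (w : W)⁻¹ := by
  rw [ap_eq _ hg]
  simp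

/-- `θ` carries `A` onto `B`. -/
def Im (θ : MulAut ↥T) (A B : Subgroup W) : Prop := ∀ g ∈ T, (ap θ g ∈ B ↔ g ∈ A)

theorem im_of [Finite W] (θ : MulAut ↥T) {A : Subgroup W} (hA : A ≤ T) (h1 : ∀ g ∈ A, ap θ g ∈ A) :
    Im θ A A := by
  intro g hg
  refine ⟨fun h => ?_, h1 g⟩
  let f : ↥A → ↥A := fun a => ⟨ap θ a, h1 _ a.2⟩
  have hf : Function.Injective f := fun a a' e =>
    Subtype.ext (ap_inj θ (hA a.2) (hA a'.2) (congrArg Subtype.val e))
  obtain ⟨a, ha⟩ := (Finite.injective_iff_surjective.mp hf) ⟨_, h⟩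
  exact ap_inj θ (hA a.2) hg (congrArg Subtype.val ha) ▸ a.2

theorem Im.inf {θ : MulAut ↥T} {A B A' B' : Subgroup W} (h : Im θ A B) (h' : Im θ A' B') :
    Im θ (A ⊓ A') (B ⊓ B') := fun g hg => by
  rw [Subgroup.mem_inf, Subgroup.mem_inf, h g hg, h' g hg]

theorem Im.symm {θ : MulAut ↥T} {A B : Subgroup W} (h : Im θ A B) : Im θ⁻¹ B A := fun g hg => by
  conv_rhs => rw [← ap_symm' θ hg]
  exact (h _ (ap_mem _ _)).symm

theorem Im.comp {θ ψ : MulAut ↥T} {A B E : Subgroup W} (h : Im θ B E) (h' : Im ψ A B) : Im (θ * ψ) A E :=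
  fun g hg => by rw [← ap_ap θ ψ hg, h _ (ap_mem _ _), h' g hg]

theorem Im.card {θ : MulAut ↥T} {A B : Subgroup W} (h : Im θ A B) (hA : A ≤ T) (hB : B ≤ T) :
    Nat.card A = Nat.card B :=
  Nat.card_congr
    { toFun := fun a => ⟨ap θ a, (h _ (hA a.2)).mpr a.2⟩
      invFun := fun b => ⟨ap θ⁻¹ b, (h.symm _ (hB b.2)).mpr b.2⟩
      left_inv := fun a => Subtype.ext (ap_symm θ (hA a.2))
      right_inv := fun b => Subtype.ext (ap_symm' θ (hB b.2)) }

/-- The conjugate of a subgroup. -/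
abbrev cj (g : W) (H : Subgroup W) : Subgroup W := H.map (MulAut.conj g).toMonoidHom

theorem mem_cj {g x : W} {H : Subgroup W} : x ∈ cj g H ↔ g⁻¹ * x * g ∈ H := by
  constructor
  · rintro ⟨y, hy, rfl⟩; simpa [mul_assoc] using hy
  · exact fun h => ⟨_, h, by simp [mul_assoc]⟩

theorem card_cj (g : W) (H : Subgroup W) : Nat.card ↥(cj g H) = Nat.card H :=
  Nat.card_congr (H.equivMapOfInjective _ (MulAut.conj g).injective).toEquiv.symm

theorem cj_eq [Finite W] {g g' : W} {A B : Subgroup W} (h : cj g A ≤ B) (h' : cj g' B ≤ A) : cj g A = B := by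
  refine Subgroup.eq_of_le_of_card_ge h ?_
  rw [card_cj]
  calc Nat.card B = Nat.card ↥(cj g' B) := (card_cj g' B).symm
    _ ≤ Nat.card A := Nat.card_le_card_of_injective _ (Subgroup.inclusion_injective h')

end Ap

variable {D : ChevalleyDatum} {K : Type u} [Field K] {C : Cert.{u} D} {M : CoxeterMatrix (Fin D.rank)}

/-- The data used to compute the outer automorphisms of a twisted group. -/
structure Ctx (S : Twist C K) (M : CoxeterMatrix (Fin D.rank)) (p f : ℕ) (R L0 : List ℕ) : Prop where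
  hM : CoxOK D M
  hT : S.TorusOK
  prime : p.Prime
  fpos : 1 ≤ f
  char : CharP K p
  fin : Finite K
  cardOK : S.CardOK (p ^ f)
  tau : ∀ x, S.τ x = x ^ p ^ f
  R_lt : ∀ i ∈ R, i < D.rank
  cover : ∀ j < D.rank, ∃ i ∈ R, j ∈ S.G.ow i
  uniq : ∀ i ∈ R, ∀ j ∈ R, i ∈ S.G.ow j → i = j
  L0_lt : ∀ a ∈ L0, a < D.rank
  long : ∀ r < D.nroots, D.IsPosRoot r → D.IsNegRoot (act D (S.G.oWord L0) r)
  long' : ∀ r < D.nroots, D.IsNegRoot r → D.IsPosRoot (act D (S.G.oWord L0) r)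
  opp : ∀ i ∈ R, ∀ k < S.G.nper i,
    act D (S.G.oWord L0) (D.simple (S.G.nodeF^[k] i)) ∈ S.G.orbF (D.neg (D.simple i)) ∧
    act D (S.G.oWord L0) (D.neg (D.simple (S.G.nodeF^[k] i))) ∈ S.G.orbF (D.simple i)
  inv_ow : ∀ i ∈ R, ∀ r < D.nroots, D.IsPosRoot r → D.IsNegRoot (act D (S.G.ow i) r) →
    r ∈ S.G.orbF (D.simple i)
  mixed : ∀ a < D.rank, ∀ b < D.rank, a ≠ b →
    D.commTerms (D.simple a) (D.neg (D.simple b)) = []
  simple : IsSimpleGroup ↥S.small ∧ ¬ IsMulCommutative ↥S.small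

variable (S : Twist C K)

/-- The unipotent subgroup. -/
noncomputable abbrev Ut : Subgroup (GL D.Idx K) := D.posUnipotent K ⊓ S.small

/-- The opposite unipotent subgroup. -/
noncomputable abbrev Vt : Subgroup (GL D.Idx K) := D.negUnipotent K ⊓ S.small

/-- The Borel subgroup. -/
noncomputable abbrev Bt : Subgroup (GL D.Idx K) := D.borelSubgroup K ⊓ S.small

/-- The root group of a node orbit. -/
noncomputable abbrev Xp (i : ℕ) : Subgroup (GL D.Idx K) :=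
  spanGroup D K (fun s => s ∈ S.G.orbF (D.simple i)) ⊓ S.small

/-- The opposite root group of a node orbit. -/
noncomputable abbrev Xn (i : ℕ) : Subgroup (GL D.Idx K) :=
  spanGroup D K (fun s => s ∈ S.G.orbF (D.neg (D.simple i))) ⊓ S.small

variable {S}

theorem ut_le_bt : Ut S ≤ Bt S := inf_le_inf_right _ C.pos_le_borel

theorem bt_inf_vt {x : GL D.Idx K} (hx : x ∈ Bt S) (hv : x ∈ Vt S) : x = 1 := by
  rw [← Subgroup.mem_bot, ← C.borel_inf_neg]
  exact Subgroup.mem_inf.mpr ⟨(Subgroup.mem_inf.mp hx).1, (Subgroup.mem_inf.mp hv).1⟩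

theorem conj_mem_ut {g x : GL D.Idx K} (hg : g ∈ Bt S) (hx : x ∈ Ut S) : g * x * g⁻¹ ∈ Ut S := by
  obtain ⟨hgb, hgs⟩ := Subgroup.mem_inf.mp hg
  obtain ⟨hxp, hxs⟩ := Subgroup.mem_inf.mp hx
  obtain ⟨a, ha, d, hd, rfl⟩ := C.mem_borel.mp hgb
  refine Subgroup.mem_inf.mpr ⟨?_, mul_mem (mul_mem hgs hxs) (inv_mem hgs)⟩
  have h1 := (Subgroup.mem_normalizer_iff.mp (C.posUnipotent_normalised hd) x).mp hxp
  rw [show a * d * x * (a * d)⁻¹ = a * (d * x * d⁻¹) * a⁻¹ by group]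
  exact mul_mem (mul_mem ha h1) (inv_mem ha)

/-- Conjugation by a word moves the fixed part of a span along the word. -/
theorem cj_span {L : List ℕ} (hL : ∀ a ∈ L, a < D.rank) (hn : C.nWordElt K L ∈ S.small) {P Q : ℕ → Prop}
    (h : ∀ r, P r → r < D.nroots ∧ Q (act D L r)) :
    cj (C.nWordElt K L) (spanGroup D K P ⊓ S.small) ≤ spanGroup D K Q ⊓ S.small := by
  have hle : spanGroup D K P ≤ (spanGroup D K Q).comap (MulAut.conj (C.nWordElt K L)).toMonoidHom := by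
    refine C.span_le fun r hr t => ?_
    obtain ⟨c, -, e⟩ := C.nWordElt_conj_xu (F := K) hL (h r hr).1
    rw [Subgroup.mem_comap]
    show C.nWordElt K L * C.xu r t * (C.nWordElt K L)⁻¹ ∈ _
    rw [e]
    exact C.xu_mem_span (h r hr).2 _
  rintro _ ⟨x, hx, rfl⟩
  exact Subgroup.mem_inf.mpr ⟨hle hx.1, mul_mem (mul_mem hn hx.2) (inv_mem hn)⟩

variable {p f : ℕ} {R L0 : List ℕ} (h : Ctx S M p f R L0)
include h

theorem finite_gl : Finite (GL D.Idx K) := by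
  have := h.fin
  infer_instance

theorem cj_long_ut : cj (S.nSeq L0) (Ut S) = Vt S := by
  have := finite_gl h
  have hL := S.oWord_lt h.L0_lt
  have hn := S.nSeq_mem (K := K) h.L0_lt
  refine cj_eq (g' := S.nSeq L0) ?_ ?_
  · exact cj_span (P := D.IsPosRoot) (Q := D.IsNegRoot) hL hn fun r hr => ⟨hr.1, h.long r hr.1 hr⟩
  · exact cj_span (P := D.IsNegRoot) (Q := D.IsPosRoot) hL hn fun r hr => ⟨hr.1, h.long' r hr.1 hr⟩

theorem cj_long_vt : cj (S.nSeq L0) (Vt S) = Ut S := by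
  have := finite_gl h
  have hL := S.oWord_lt h.L0_lt
  have hn := S.nSeq_mem (K := K) h.L0_lt
  refine cj_eq (g' := S.nSeq L0) ?_ ?_
  · exact cj_span (P := D.IsNegRoot) (Q := D.IsPosRoot) hL hn fun r hr => ⟨hr.1, h.long' r hr.1 hr⟩
  · exact cj_span (P := D.IsPosRoot) (Q := D.IsNegRoot) hL hn fun r hr => ⟨hr.1, h.long r hr.1 hr⟩

theorem orb_lt {i : ℕ} (hi : i ∈ R) {s : ℕ} (hs : s ∈ S.G.orbF (D.simple i)) : s < D.nroots :=
  (S.orbF_pos (C.pos_simple (h.R_lt i hi)) hs).1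

theorem orb_neg {i : ℕ} (hi : i ∈ R) {s : ℕ} (hs : s ∈ S.G.orbF (D.neg (D.simple i))) :
    ∃ k < S.G.nper i, s = D.neg (D.simple (S.G.nodeF^[k] i)) := by
  have hr := C.simple_lt i (h.R_lt i hi)
  obtain ⟨k, hk, e⟩ := TwistOK.mem_orbF.mp hs
  rw [S.ok.per_neg hr, S.ok.per_simple (h.R_lt i hi)] at hk
  exact ⟨k, hk, by rw [← e, S.ok.iter_neg hr, S.ok.iter_simple (h.R_lt i hi)]⟩

theorem orb_pos {i : ℕ} (hi : i ∈ R) {s : ℕ} (hs : s ∈ S.G.orbF (D.simple i)) :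
    ∃ k < S.G.nper i, s = D.simple (S.G.nodeF^[k] i) := by
  obtain ⟨k, hk, e⟩ := TwistOK.mem_orbF.mp hs
  rw [S.ok.per_simple (h.R_lt i hi)] at hk
  exact ⟨k, hk, by rw [← e, S.ok.iter_simple (h.R_lt i hi)]⟩

theorem cj_long_xp {i : ℕ} (hi : i ∈ R) :
    cj (S.nSeq L0) (Xp S i) = Xn S i ∧ cj (S.nSeq L0) (Xn S i) = Xp S i := by
  have := finite_gl h
  have hL := S.oWord_lt h.L0_lt
  have hn := S.nSeq_mem (K := K) h.L0_lt
  have hi' := h.R_lt i hi
  have a : cj (S.nSeq L0) (Xp S i) ≤ Xn S i :=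
    cj_span (P := fun s => s ∈ S.G.orbF (D.simple i)) (Q := fun s => s ∈ S.G.orbF (D.neg (D.simple i))) hL hn
      fun s hs => by
        refine ⟨orb_lt h hi hs, ?_⟩
        obtain ⟨k, hk, rfl⟩ := orb_pos h hi hs
        exact (h.opp i hi k hk).1
  have b : cj (S.nSeq L0) (Xn S i) ≤ Xp S i :=
    cj_span (P := fun s => s ∈ S.G.orbF (D.neg (D.simple i))) (Q := fun s => s ∈ S.G.orbF (D.simple i)) hL hn
      fun s hs => by
        obtain ⟨k, hk, rfl⟩ := orb_neg h hi hs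
        exact ⟨C.neg_lt _ (C.simple_lt _ (S.ok.graph.node_iter_lt hi' k)), (h.opp i hi k hk).2⟩
  exact ⟨cj_eq a b, cj_eq b a⟩

omit h in
theorem oe_kill {n : GL D.Idx K} (hns : n ∈ S.small) {i : ℕ} (hi : i < D.rank) {H : Subgroup (GL D.Idx K)}
    (hH : ∀ a ∈ S.G.ow i, ∀ t : K, n * C.xu (D.simple a) t * n⁻¹ ∈ H) :
    n * S.oe (D.simple i) 1 * n⁻¹ ∈ H ⊓ S.small ∧ S.oe (D.simple i) 1 ∈ Ut S := by
  have hm := S.oe_simple_mem (K := K) hi (S.valid_one _)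
  refine ⟨Subgroup.mem_inf.mpr ⟨?_, mul_mem (mul_mem hns hm) (inv_mem hns)⟩,
    Subgroup.mem_inf.mpr ⟨S.oe_mem_pos (C.pos_simple hi) 1, hm⟩⟩
  have hle : spanGroup D K (fun s => s ∈ S.G.orbF (D.simple i)) ≤ H.comap (MulAut.conj n).toMonoidHom := by
    refine C.span_le fun s hs t => ?_
    obtain ⟨k, hk, rfl⟩ := TwistOK.mem_orbF.mp hs
    rw [S.ok.per_simple hi] at hk
    rw [S.ok.iter_simple hi]
    exact hH _ (TwistOK.mem_ow.mpr ⟨k, hk, rfl⟩) t
  exact hle (S.oe_mem_span (C.simple_lt i hi) 1)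

omit h in
theorem inverts_xu {n : GL D.Idx K} {r : ℕ} (hr : Inverts D K n r) (t : K) :
    n * C.xu r t * n⁻¹ ∈ D.negUnipotent K :=
  hr.2 (Subgroup.mem_map_of_mem _ (C.mem_rootSubgroup.mpr ⟨t, rfl⟩))

theorem normaliser_ut {g : GL D.Idx K} (hg : g ∈ S.small) (hn : ∀ x ∈ Ut S, g * x * g⁻¹ ∈ Ut S) :
    g ∈ Bt S := by
  obtain ⟨L, hL, -, b, hb, u, hu, rfl⟩ :=
    S.exists_fixed_bruhat h.hM h.hT (S.small_le_group hg) (S.small_le_fixed hg)
  have huB : u ∈ Bt S := Subgroup.mem_inf.mpr ⟨C.pos_le_borel (C.span_mono (fun r hr => hr.1) hu.1), hu.2⟩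
  have hns := S.nSeq_mem (K := K) hL
  by_cases hd : S.nSeq L ∈ D.diagonalSubgroup K
  · exact mul_mem (mul_mem hb (Subgroup.mem_inf.mpr ⟨C.diagonal_le_borel hd, hns⟩)) huB
  exfalso
  obtain ⟨i, hi, hinv⟩ := C.exists_descent h.hM (S.nSeq_monomial hL) hd
  have hall := S.inverts_ow (S.fixed_mem_diag (S.nSeq_fixed hL)) hi (S.ok.self_mem_ow hi) hinv
  obtain ⟨h1, hx⟩ := oe_kill (H := D.negUnipotent K) hns hi fun a ha t => inverts_xu (hall a ha) t
  have h2 := conj_mem_ut (inv_mem hb) (hn _ (conj_mem_ut (inv_mem huB) hx))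
  have h3 : S.nSeq L * S.oe (D.simple i) 1 * (S.nSeq L)⁻¹ = 1 := by
    refine bt_inf_vt (ut_le_bt ?_) h1
    convert h2 using 1
    group
  exact S.oe_ne_one (C.pos_simple hi) (conj_eq_one_iff.mp h3)

theorem inverts_or_pos {n : GL D.Idx K} (hn : n ∈ D.monomialSubgroup K) {r : ℕ} (hr : D.IsPosRoot r)
    (hni : ¬ Inverts D K n r) (t : K) : n * C.xu r t * n⁻¹ ∈ D.posUnipotent K := by
  obtain ⟨L, -, hmap⟩ := C.monomial_map h.hM hn
  have hlt := C.act_lt (C.fin_word_lt L) hr.1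
  have hp : D.IsPosRoot (act D (L.map Fin.val) r) :=
    (C.posRoot_or_negRoot hlt).resolve_right fun hneg => hni ((C.inverts_iff hr hlt (hmap r hr.1)).mpr hneg)
  have h1 : n * C.xu r t * n⁻¹ ∈ (D.rootSubgroup K r).map (MulAut.conj n).toMonoidHom :=
    Subgroup.mem_map_of_mem _ (C.mem_rootSubgroup.mpr ⟨t, rfl⟩)
  rw [hmap r hr.1] at h1
  exact C.rootSubgroup_le_pos hp h1

theorem opposite {g : GL D.Idx K} (hg : g ∈ S.small) (hn : ∀ x ∈ cj g (Ut S), x ∈ Ut S → x = 1) :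
    ∃ b ∈ Bt S, cj g (Ut S) = cj b (Vt S) := by
  obtain ⟨L, hL, -, b, hb, u, hu, rfl⟩ :=
    S.exists_fixed_bruhat h.hM h.hT (S.small_le_group hg) (S.small_le_fixed hg)
  have huB : u ∈ Bt S := Subgroup.mem_inf.mpr ⟨C.pos_le_borel (C.span_mono (fun r hr => hr.1) hu.1), hu.2⟩
  set n := S.nSeq (K := K) L
  have hns : n ∈ S.small := S.nSeq_mem hL
  have hnm : n ∈ D.monomialSubgroup K := S.nSeq_monomial hL
  have hnd := S.fixed_mem_diag (S.nSeq_fixed (K := K) hL)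
  have hall : ∀ i < D.rank, Inverts D K n (D.simple i) := by
    intro i hi
    by_contra hni
    obtain ⟨h1, hx⟩ := oe_kill (H := D.posUnipotent K) hns hi fun a ha t =>
      inverts_or_pos h hnm (C.pos_simple (S.ok.ow_lt hi ha))
        (fun ha' => hni (S.inverts_ow hnd hi ha ha' i (S.ok.self_mem_ow hi))) t
    have hy := conj_mem_ut (inv_mem huB) hx
    have hc : b * (n * S.oe (D.simple i) 1 * n⁻¹) * b⁻¹ ∈ cj (b * n * u) (Ut S) := by
      rw [mem_cj]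
      convert hy using 1
      group
    have h3 := hn _ hc (conj_mem_ut hb h1)
    rw [conj_eq_one_iff, conj_eq_one_iff] at h3
    exact S.oe_ne_one (C.pos_simple hi) h3
  set nL := S.nSeq (K := K) L0
  have hLs : nL ∈ S.small := S.nSeq_mem h.L0_lt
  set m := nL⁻¹ * n with hm
  have hms : m ∈ S.small := mul_mem (inv_mem hLs) hns
  have hmm : m ∈ D.monomialSubgroup K := mul_mem (inv_mem (S.nSeq_monomial h.L0_lt)) hnm
  have hd : m ∈ D.diagonalSubgroup K := by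
    by_contra hd
    obtain ⟨i, hi, hinv⟩ := C.exists_descent h.hM hmm hd
    have hallm := S.inverts_ow (S.fixed_mem_diag (S.small_le_fixed hms)) hi (S.ok.self_mem_ow hi) hinv
    obtain ⟨h1, -⟩ := oe_kill (H := D.negUnipotent K) hms hi fun a ha t => inverts_xu (hallm a ha) t
    obtain ⟨h2, -⟩ := oe_kill (H := D.negUnipotent K) hns hi fun a ha t =>
      inverts_xu (hall a (S.ok.ow_lt hi ha)) t
    have h3 : m * S.oe (D.simple i) 1 * m⁻¹ ∈ Ut S := by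
      have h4 : n * S.oe (D.simple i) 1 * n⁻¹ ∈ cj (S.nSeq L0) (Ut S) := by rw [cj_long_ut h]; exact h2
      rw [mem_cj] at h4
      convert h4 using 1
      simp only [hm, nL]; group
    exact S.oe_ne_one (C.pos_simple hi) (conj_eq_one_iff.mp (bt_inf_vt (ut_le_bt h3) h1))
  have hmB : m ∈ Bt S := Subgroup.mem_inf.mpr ⟨C.diagonal_le_borel hd, hms⟩
  refine ⟨b, hb, ?_⟩
  rw [← cj_long_ut h, show b * n * u = b * nL * (m * u) by rw [hm]; group]
  ext x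
  rw [mem_cj, mem_cj, mem_cj]
  constructor <;> intro hx
  · have := conj_mem_ut (mul_mem hmB huB) hx
    convert this using 1; simp only [nL]; group
  · have := conj_mem_ut (inv_mem (mul_mem hmB huB)) hx
    convert this using 1; simp only [nL]; group

/-- The fixed part of the unipotent subgroup is a Sylow subgroup. -/
theorem exists_sylow : ∃ P : Sylow p ↥S.small, (P : Subgroup ↥S.small) = (Ut S).subgroupOf S.small := by
  classical
  have := h.fin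
  have := finite_gl h
  have : Fact p.Prime := ⟨h.prime⟩
  have := h.char
  have heq : Ut S = spanGroup D K D.IsPosRoot ⊓ S.fixed :=
    le_antisymm (inf_le_inf le_rfl S.small_le_fixed) (le_inf inf_le_left S.fixed_pos_le)
  have hP : IsPGroup p ↥((Ut S).subgroupOf S.small) := by
    have e : Nat.card ↥(Ut S) = _ := (congrArg (fun H : Subgroup (GL D.Idx K) => Nat.card ↥H) heq).trans
      (S.card_fixed_span C.closedSet_pos (fun _ hr => S.ok.pos_rho hr) h.cardOK)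
    rw [← pow_mul] at e
    exact IsPGroup.of_card ((Nat.card_congr (Subgroup.subgroupOfEquivOfLe inf_le_right).toEquiv).trans e)
  obtain ⟨P, hle⟩ := hP.exists_le_sylow
  refine ⟨P, ?_⟩
  by_contra hne
  have hlt : (Ut S).subgroupOf S.small < P := lt_of_le_of_ne hle (Ne.symm hne)
  have : Group.IsNilpotent ↥(P : Subgroup ↥S.small) := P.isPGroup'.isNilpotent
  have hlt' : ((Ut S).subgroupOf S.small).subgroupOf (P : Subgroup ↥S.small) < ⊤ :=
    lt_top_iff_ne_top.mpr fun e => hlt.not_ge (Subgroup.subgroupOf_eq_top.mp e)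
  have hN := Group.normalizerCondition_of_isNilpotent (G := ↥(P : Subgroup ↥S.small)) _ hlt'
  obtain ⟨x, hxN, hxU⟩ := SetLike.exists_of_lt hN
  have hxB : ((x : ↥S.small) : GL D.Idx K) ∈ Bt S := normaliser_ut h (x : ↥S.small).2 fun u hu => by
    have hu' : (⟨u, hu.2⟩ : ↥S.small) ∈ (Ut S).subgroupOf S.small := Subgroup.mem_subgroupOf.mpr hu
    have := (Subgroup.mem_normalizer_iff.mp hxN ⟨_, hle hu'⟩).mp (Subgroup.mem_subgroupOf.mpr hu')
    exact Subgroup.mem_subgroupOf.mp (Subgroup.mem_subgroupOf.mp this)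
  obtain ⟨a, ha, d, hd, e⟩ := C.mem_borel.mp (Subgroup.mem_inf.mp hxB).1
  have has : a ∈ S.small ∧ d ∈ S.small := by
    have hfix : S.sigma a * S.sigma d = a * d := by
      rw [← map_mul, e]; exact S.small_le_fixed (x : ↥S.small).2
    have h1 : a⁻¹ * S.sigma a = d * (S.sigma d)⁻¹ := by
      rw [eq_mul_inv_iff_mul_eq, mul_assoc, hfix, inv_mul_cancel_left]
    have h2 : a⁻¹ * S.sigma a ∈ (⊥ : Subgroup (GL D.Idx K)) := by
      rw [← C.posUnipotent_inf_diagonal]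
      exact Subgroup.mem_inf.mpr ⟨mul_mem (inv_mem ha) (S.sigma_pos ha),
        h1 ▸ mul_mem hd (inv_mem (S.sigma_diagonal hd))⟩
    have hsa : S.sigma a = a := (inv_mul_eq_one.mp (Subgroup.mem_bot.mp h2)).symm
    rw [hsa] at hfix
    exact ⟨S.fixed_pos_le (Subgroup.mem_inf.mpr ⟨ha, hsa⟩), h.hT (Subgroup.mem_inf.mpr ⟨hd, mul_left_cancel hfix⟩)⟩
  set d' : ↥S.small := ⟨d, has.2⟩
  have hdP : d' ∈ (P : Subgroup ↥S.small) := by
    have ha' : (⟨a, has.1⟩ : ↥S.small) ∈ (P : Subgroup ↥S.small) :=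
      hle (Subgroup.mem_subgroupOf.mpr (Subgroup.mem_inf.mpr ⟨ha, has.1⟩))
    have : d' = (⟨a, has.1⟩ : ↥S.small)⁻¹ * x := Subtype.ext (by
      rw [Subgroup.coe_mul, Subgroup.coe_inv, ← e]; group; rfl)
    rw [this]
    exact mul_mem (inv_mem ha') x.2
  obtain ⟨k, hk⟩ := P.isPGroup' ⟨d', hdP⟩
  have hk' : d ^ p ^ k = 1 := congrArg (fun y : ↥(P : Subgroup ↥S.small) => ((y : ↥S.small) : GL D.Idx K)) hk
  have hN' : d ^ Nat.card Kˣ = 1 := by
    obtain ⟨c, rfl⟩ := C.exists_torusHom hd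
    rw [← map_pow, show c ^ Nat.card Kˣ = 1 from funext fun j => pow_card_eq_one', map_one]
  have hcop : (p ^ k).Coprime (Nat.card Kˣ) := by
    refine Nat.Coprime.pow_left k ((h.prime.coprime_iff_not_dvd).mpr fun hdvd => ?_)
    rw [Nat.card_units, h.cardOK.card_eq, ← pow_mul] at hdvd
    have h0 : f * S.G.ord ≠ 0 := Nat.mul_ne_zero (by have := h.fpos; omega) S.ok.graph.ord_pos.ne'
    have h1 : p ∣ p ^ (f * S.G.ord) := dvd_pow_self p h0
    have h2 := Nat.dvd_sub h1 hdvd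
    rw [Nat.sub_sub_self (Nat.one_le_pow _ _ h.prime.pos)] at h2
    exact h.prime.one_lt.ne' (Nat.dvd_one.mp h2)
  have hd1 : d = 1 := by
    rw [← orderOf_eq_one_iff, ← Nat.dvd_one, ← hcop]
    exact Nat.dvd_gcd (orderOf_dvd_of_pow_eq_one hk') (orderOf_dvd_of_pow_eq_one hN')
  refine hxU (Subgroup.mem_subgroupOf.mpr (Subgroup.mem_subgroupOf.mpr (Subgroup.mem_inf.mpr ⟨?_, (x : ↥S.small).2⟩)))
  rw [← e, hd1, mul_one]
  exact ha

/-- An inner twist of an automorphism stabilises both unipotent subgroups. -/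
theorem exists_normal_form (θ : MulAut ↥S.small) :
    ∃ w : ↥S.small, Im (MulAut.conj w * θ) (Ut S) (Ut S) ∧ Im (MulAut.conj w * θ) (Vt S) (Vt S) := by
  have := h.fin
  have := finite_gl h
  have : Fact p.Prime := ⟨h.prime⟩
  obtain ⟨P, hP⟩ := exists_sylow h
  have hle : Ut S ≤ S.small := inf_le_right
  let Q : Sylow p ↥S.small := (P.comapOfInjective θ.symm.toMonoidHom θ.symm.injective
    (fun x _ => ⟨θ x, θ.symm_apply_apply x⟩))
  obtain ⟨c, hc⟩ := MulAction.exists_smul_eq ↥S.small Q P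
  have hU1 : Im (MulAut.conj c * θ) (Ut S) (Ut S) := by
    refine im_of _ hle fun g hg => ?_
    rw [← ap_ap _ _ hg.2, ap_eq θ hg.2, ap_inner c (θ _).2]
    have h1 : c * θ ⟨g, hg.2⟩ * c⁻¹ ∈ ((c • Q : Sylow p ↥S.small) : Subgroup ↥S.small) := by
      rw [Sylow.coe_subgroup_smul, Subgroup.mem_pointwise_smul_iff_inv_smul_mem]
      have h2 : θ ⟨g, hg.2⟩ ∈ (Q : Subgroup ↥S.small) := by
        show θ.symm (θ ⟨g, hg.2⟩) ∈ (P : Subgroup ↥S.small)
        rw [θ.symm_apply_apply, hP]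
        exact Subgroup.mem_subgroupOf.mpr hg
      simpa [MulAut.smul_def, mul_assoc] using h2
    rw [hc, hP] at h1
    exact Subgroup.mem_subgroupOf.mp h1
  set φ := MulAut.conj c * θ
  set nL := S.nSeq (K := K) L0
  have hnL : nL ∈ S.small := S.nSeq_mem h.L0_lt
  set g₀ := ap φ nL
  have hg₀ : g₀ ∈ S.small := ap_mem _ _
  have himg : ∀ x ∈ Vt S, ap φ x ∈ cj g₀ (Ut S) := by
    intro x hx
    rw [← cj_long_ut h] at hx
    obtain ⟨y, hy, rfl⟩ := hx
    refine ⟨ap φ y, (hU1 y hy.2).mpr hy, ?_⟩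
    exact (ap_conj φ hnL hy.2).symm
  have hn : ∀ x ∈ cj g₀ (Ut S), x ∈ Ut S → x = 1 := by
    rintro _ ⟨y, hy, rfl⟩ hxU
    simp only [MulEquiv.coe_toMonoidHom, MulAut.conj_apply] at hxU ⊢
    have hy' : ap φ⁻¹ y ∈ Ut S := by rw [← hU1 _ (ap_mem _ _), ap_symm' φ hy.2]; exact hy
    have e : ap φ⁻¹ (g₀ * y * g₀⁻¹) = nL * ap φ⁻¹ y * nL⁻¹ := by
      rw [ap_conj φ⁻¹ hg₀ hy.2, show ap φ⁻¹ g₀ = nL from ap_symm φ hnL]
    have h1 : ap φ⁻¹ (g₀ * y * g₀⁻¹) ∈ Ut S := by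
      rw [← hU1 _ (ap_mem _ _), ap_symm' φ hxU.2]; exact hxU
    have h2 : ap φ⁻¹ (g₀ * y * g₀⁻¹) ∈ Vt S := by
      rw [← cj_long_ut h, e]; exact ⟨_, hy', rfl⟩
    have h3 := congrArg (ap φ) (bt_inf_vt (ut_le_bt h1) h2)
    rwa [ap_symm' φ hxU.2, ap_one] at h3
  obtain ⟨b, hb, eb⟩ := opposite h hg₀ hn
  refine ⟨⟨b⁻¹, inv_mem hb.2⟩ * c, ?_⟩
  rw [map_mul, mul_assoc]
  constructor
  · refine im_of _ hle fun g hg => ?_
    rw [← ap_ap _ _ hg.2, ap_inner _ (ap_mem _ _)]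
    exact conj_mem_ut (inv_mem hb) ((hU1 g hg.2).mpr hg)
  · refine im_of _ inf_le_right fun g hg => ?_
    have h1 := himg g hg
    rw [eb, mem_cj] at h1
    rw [← ap_ap _ _ hg.2, ap_inner _ (ap_mem _ _)]
    simpa using h1

theorem stable_bt {θ : MulAut ↥S.small} (hU : Im θ (Ut S) (Ut S)) : Im θ (Bt S) (Bt S) := by
  have key : ∀ ψ : MulAut ↥S.small, Im ψ (Ut S) (Ut S) → ∀ g ∈ Bt S, ap ψ g ∈ Bt S := by
    intro ψ hψ g hg
    refine normaliser_ut h (ap_mem _ _) fun x hx => ?_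
    have hx' : ap ψ⁻¹ x ∈ Ut S := by
      rw [← hψ _ (ap_mem _ _), ap_symm' ψ hx.2]; exact hx
    have := (hψ _ (mul_mem (mul_mem hg.2 hx'.2) (inv_mem hg.2))).mpr (conj_mem_ut hg hx')
    rwa [ap_conj ψ hg.2 hx'.2, ap_symm' ψ hx.2] at this
  have := finite_gl h
  exact im_of θ inf_le_right (key θ hU)

end Cfsg.Agent.LeadWork.TwOut
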