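/-
Twisted groups: automorphisms normalising an opposite pair stabilise the root groups of the node orbits.
-/
import Cfsg.Agent.LeadWork.TwOutBase

set_option autoImplicit false
set_option maxRecDepth 100000

universe u

namespace Cfsg.Agent.LeadWork.TwOut

open Cfsg.Lie Cfsg.Agent.Chev
open scoped Matrix MatrixGroups

variable {D : ChevalleyDatum} {K : Type u} [Field K] {C : Cert.{u} D} {M : CoxeterMatrix (Fin D.rank)}
  {S : Twist C K}

/-- The nodes of two orbits carry commuting root elements. -/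
def Orth (D : ChevalleyDatum) (G : GData) (i j : ℕ) : Prop :=
  ∀ a ∈ G.ow i, ∀ b ∈ G.ow j, D.commTerms (D.simple a) (D.simple b) = []

/-- The orbit reflection of `j` fixes the orbit of `i`. -/
def FixOrb (D : ChevalleyDatum) (G : GData) (i j : ℕ) : Prop :=
  act D (G.ow j) (D.simple i) ∈ G.orbF (D.simple i) ∨ ¬ D.IsPosRoot (act D (G.ow j) (D.simple i))

/-- The numerical invariants fix every orbit of nodes. -/
def Rigid (D : ChevalleyDatum) (G : GData) (R : List ℕ) : Prop :=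
  ∀ π : ℕ → ℕ, (∀ i ∈ R, π i ∈ R ∧ G.nper (π i) = G.nper i) →
    (∀ i ∈ R, ∀ j ∈ R, π i = π j → i = j) →
    (∀ i ∈ R, ∀ j ∈ R, i ≠ j → Orth D G i j → FixOrb D G (π i) (π j)) → ∀ i ∈ R, π i = i

/-- The double coset of an orbit reflection. -/
def Cell (S : Twist C K) (i : ℕ) (g : GL D.Idx K) : Prop :=
  ∃ b ∈ Bt S, ∃ b' ∈ Bt S, g = b * S.nJ i 1 * b'

variable {p f : ℕ} {R L0 : List ℕ} (h : Ctx S M p f R L0)
include h

theorem ow_disjoint {i j : ℕ} (hi : i ∈ R) (hj : j ∈ R) (hne : i ≠ j) {a : ℕ} (ha : a ∈ S.G.ow i) :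
    a ∉ S.G.ow j := by
  intro hb
  refine hne (h.uniq i hi j hj ?_)
  obtain ⟨k, hk, e⟩ := TwistOK.mem_ow.mp ha
  have := S.ok.node_iter_mem_ow (h.R_lt j hj) hb (S.G.nper i - k)
  rwa [← e, ← Function.iterate_add_apply, Nat.sub_add_cancel hk.le, S.ok.node_iter_nper (h.R_lt i hi)] at this

theorem simple_orb_eq {i j : ℕ} (hi : i ∈ R) (hj : j ∈ R) {a : ℕ} (ha : a ∈ S.G.ow i)
    (hs : D.simple a ∈ S.G.orbF (D.simple j)) : i = j := by
  by_contra hne
  obtain ⟨k, hk, e⟩ := orb_pos h hj hs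
  have : a = S.G.nodeF^[k] j :=
    TwistOK.simple_inj (S.ok.ow_lt (h.R_lt i hi) ha) (S.ok.graph.node_iter_lt (h.R_lt j hj) k) C e
  exact ow_disjoint h hi hj hne ha (TwistOK.mem_ow.mpr ⟨k, hk, this.symm⟩)

theorem oe_mem_xp {i : ℕ} (hi : i ∈ R) {t : K} (ht : S.Valid (D.simple i) t) :
    S.oe (D.simple i) t ∈ Xp S i :=
  Subgroup.mem_inf.mpr ⟨S.oe_mem_span (C.simple_lt i (h.R_lt i hi)) t, S.oe_simple_mem (h.R_lt i hi) ht⟩

theorem oe_mem_xn {i : ℕ} (hi : i ∈ R) {t : K} (ht : S.Valid (D.simple i) t) :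
    S.oe (D.neg (D.simple i)) t ∈ Xn S i :=
  Subgroup.mem_inf.mpr ⟨S.oe_mem_span (C.neg_lt _ (C.simple_lt i (h.R_lt i hi))) t,
    S.oe_neg_simple_mem (h.R_lt i hi) ht⟩

theorem mem_xp {i : ℕ} (hi : i ∈ R) {x : GL D.Idx K} (hx : x ∈ Xp S i) :
    ∃ t, S.Valid (D.simple i) t ∧ x = S.oe (D.simple i) t :=
  S.fixed_orbit (C.pos_simple (h.R_lt i hi)) (S.small_le_fixed hx.2) hx.1

theorem xp_le_ut {i : ℕ} (hi : i ∈ R) : Xp S i ≤ Ut S :=
  inf_le_inf_right _ (C.span_mono fun _ hs => S.orbF_pos (C.pos_simple (h.R_lt i hi)) hs)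

theorem xn_le_vt {i : ℕ} (hi : i ∈ R) : Xn S i ≤ Vt S := by
  refine inf_le_inf_right _ (C.span_mono fun s hs => ?_)
  obtain ⟨k, -, rfl⟩ := orb_neg h hi hs
  exact C.negRoot_neg (C.pos_simple (S.ok.graph.node_iter_lt (h.R_lt i hi) k))

theorem cj_nJ_xp {i : ℕ} (hi : i ∈ R) :
    cj (S.nJ i 1) (Xp S i) = Xn S i ∧ cj (S.nJ i 1) (Xn S i) = Xp S i := by
  have := finite_gl h
  have hi' := h.R_lt i hi
  have hL : ∀ a ∈ S.G.ow i, a < D.rank := fun _ ha => S.ok.ow_lt hi' ha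
  have hn : C.nWordElt K (S.G.ow i) ∈ S.small := S.nJ_one (K := K) hi' ▸ S.nJ_mem hi' (S.valid_one _)
  have hs := C.simple_lt i hi'
  rw [S.nJ_one hi']
  have a : cj (C.nWordElt K (S.G.ow i)) (Xp S i) ≤ Xn S i :=
    cj_span (P := fun s => s ∈ S.G.orbF (D.simple i)) (Q := fun s => s ∈ S.G.orbF (D.neg (D.simple i))) hL hn
      fun s hs' => by
        refine ⟨orb_lt h hi hs', ?_⟩
        obtain ⟨k, -, e⟩ := TwistOK.mem_orbF.mp hs'
        rw [← e, S.ok.act_ow_iter hi' hs, S.ok.act_ow_self hi' (S.ok.self_mem_ow hi')]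
        exact S.ok.iter_mem_orbF (C.neg_lt _ hs) k
  have b : cj (C.nWordElt K (S.G.ow i)) (Xn S i) ≤ Xp S i :=
    cj_span (P := fun s => s ∈ S.G.orbF (D.neg (D.simple i))) (Q := fun s => s ∈ S.G.orbF (D.simple i)) hL hn
      fun s hs' => by
        obtain ⟨k, -, e⟩ := TwistOK.mem_orbF.mp hs'
        rw [← e, S.ok.act_ow_iter hi' (C.neg_lt _ hs), C.act_neg hL hs,
          S.ok.act_ow_self hi' (S.ok.self_mem_ow hi'), C.neg_neg _ hs]
        exact ⟨S.ok.graph.iter_lt (C.neg_lt _ hs) k, S.ok.iter_mem_orbF hs k⟩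
  exact ⟨cj_eq a b, cj_eq b a⟩

theorem mem_xn {i : ℕ} (hi : i ∈ R) {y : GL D.Idx K} (hy : y ∈ Xn S i) :
    ∃ t, S.Valid (D.simple i) t ∧ y = S.oe (D.neg (D.simple i)) t := by
  have hi' := h.R_lt i hi
  have hs := C.simple_lt i hi'
  have hn := S.nJ_mem (K := K) hi' (S.valid_one _)
  have hfix : S.sigma (S.nJ i (1 : K)) = S.nJ i 1 := S.small_le_fixed hn
  rw [← (cj_nJ_xp h hi).1] at hy
  obtain ⟨x, hx, rfl⟩ := hy
  obtain ⟨t, ht, rfl⟩ := mem_xp h hi hx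
  obtain ⟨c, -, e⟩ := C.nWordElt_conj_xu (F := K) (fun _ ha => S.ok.ow_lt hi' ha) hs
  rw [S.ok.act_ow_self hi' (S.ok.self_mem_ow hi'), ← S.nJ_one hi'] at e
  refine ⟨c * t, ?_, ?_⟩
  · have hcv : (S.τ)^[S.G.per (D.simple i)] c = c := by
      have h1 := congrArg (S.sigma)^[S.G.per (D.simple i)] (e 1)
      rw [S.iterate_mul, S.iterate_mul, Function.iterate_fixed hfix,
        Function.iterate_fixed (show S.sigma (S.nJ i 1)⁻¹ = (S.nJ i 1)⁻¹ by rw [map_inv, hfix]),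
        S.sigma_per_xu hs (S.valid_one _), e 1, mul_one, S.sigma_iter_xu (C.neg_lt _ hs)] at h1
      conv_rhs at h1 => rw [← S.ok.per_neg hs, S.ok.iter_per (C.neg_lt _ hs), S.eProd_per (C.neg_lt _ hs),
        one_mul, S.ok.per_neg hs]
      exact (C.xu_inj (C.neg_lt _ hs) h1).symm
    unfold Twist.Valid at ht ⊢
    rw [show (S.τ)^[S.G.per (D.simple i)] (c * t) = (S.τ)^[S.G.per (D.simple i)] c * (S.τ)^[S.G.per (D.simple i)] t
      from iterate_map_mul S.τ _ _ _, hcv, ht]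
  · exact S.conj_oe hfix (S.ok.per_neg hs) (e t)

theorem xp_ne_bot {i : ℕ} (hi : i ∈ R) : S.oe (D.simple i) (1 : K) ∈ Xp S i ∧ S.oe (D.simple i) (1 : K) ≠ 1 :=
  ⟨oe_mem_xp h hi (S.valid_one _), S.oe_ne_one (C.pos_simple (h.R_lt i hi))⟩

theorem card_xp {i : ℕ} (hi : i ∈ R) : Nat.card ↥(Xp S i) = (p ^ f) ^ S.G.nper i := by
  have hr := C.pos_simple (h.R_lt i hi)
  rw [← S.ok.per_simple (h.R_lt i hi), ← S.card_valid h.cardOK (D.simple i)]
  let e : {t : K // S.Valid (D.simple i) t} → ↥(Xp S i) := fun t => ⟨_, oe_mem_xp h hi t.2⟩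
  refine (Nat.card_congr (Equiv.ofBijective e ⟨fun a b hab => ?_, fun x => ?_⟩)).symm
  · exact Subtype.ext (S.oe_inj hr (congrArg Subtype.val hab))
  · obtain ⟨t, ht, e'⟩ := mem_xp h hi x.2
    exact ⟨⟨t, ht⟩, Subtype.ext e'.symm⟩

theorem inverts_nJ {i : ℕ} (hi : i ∈ R) {r : ℕ} (hr : Inverts D K (S.nJ i 1) r) : r ∈ S.G.orbF (D.simple i) := by
  have hi' := h.R_lt i hi
  have hL : ∀ a ∈ S.G.ow i, a < D.rank := fun _ ha => S.ok.ow_lt hi' ha
  have hpos : D.IsPosRoot r := hr.1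
  rw [S.nJ_one hi', C.inverts_iff hr.1 (C.act_lt hL hr.1.1) (C.map_rootSubgroup (C.nWordElt_conj_xu hL hr.1.1))] at hr
  exact h.inv_ow i hi r hpos.1 hpos hr

theorem nJ_not_borel {i : ℕ} (hi : i < D.rank) : S.nJ i (1 : K) ∉ Bt S := by
  intro hb
  obtain ⟨hB, hs⟩ := Subgroup.mem_inf.mp hb
  have hd : S.nJ i (1 : K) ∈ D.diagonalSubgroup K := by
    rw [← C.borel_inf_monomial h.hM]
    exact Subgroup.mem_inf.mpr ⟨hB, S.nJ_monomial hi⟩
  obtain ⟨h1, hx⟩ := oe_kill (H := D.negUnipotent K) hs hi fun a ha t =>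
    inverts_xu (S.nJ_inverts hi ha) t
  exact S.oe_ne_one (C.pos_simple hi) (conj_eq_one_iff.mp (bt_inf_vt (ut_le_bt (conj_mem_ut hb hx)) h1))

omit h in
theorem nJ_inv_cell {i : ℕ} (hi : i < D.rank) : Cell S i (S.nJ i (1 : K))⁻¹ := by
  have hn := S.nJ_mem (K := K) hi (S.valid_one _)
  refine ⟨(S.nJ i 1 * S.nJ i 1)⁻¹, inv_mem (Subgroup.mem_inf.mpr ⟨C.diagonal_le_borel (S.nJ_sq hi), mul_mem hn hn⟩),
    1, one_mem _, ?_⟩
  group

/-- The minimal parabolic subgroup of a node orbit. -/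
noncomputable def par (i : ℕ) (hi : i < D.rank) : Subgroup (GL D.Idx K) where
  carrier := {g | g ∈ Bt S ∨ Cell S i g}
  one_mem' := Or.inl (one_mem _)
  inv_mem' := by
    rintro g (hg | hg)
    · exact Or.inl (inv_mem hg)
    · obtain ⟨b, hb, b', hb', rfl⟩ := hg
      obtain ⟨c, hc, c', hc', e⟩ := nJ_inv_cell (S := S) hi
      exact Or.inr ⟨b'⁻¹ * c, mul_mem (inv_mem hb') hc, c' * b⁻¹, mul_mem hc' (inv_mem hb), by
        rw [mul_inv_rev, mul_inv_rev, e]; group⟩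
  mul_mem' := by
    rintro g g' (hg | hg) (hg' | hg')
    · exact Or.inl (mul_mem hg hg')
    · obtain ⟨b, hb, b', hb', rfl⟩ := hg'
      exact Or.inr ⟨g * b, mul_mem hg hb, b', hb', by group⟩
    · obtain ⟨b, hb, b', hb', rfl⟩ := hg
      exact Or.inr ⟨b, hb, b' * g', mul_mem hb' hg', by group⟩
    · obtain ⟨b, hb, b', hb', rfl⟩ := hg
      obtain ⟨c, hc, c', hc', rfl⟩ := hg'
      have hn : S.nJ i (1 : K) ∈ D.monomialSubgroup K ⊓ S.small :=
        Subgroup.mem_inf.mpr ⟨S.nJ_monomial hi, S.nJ_mem hi (S.valid_one _)⟩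
      obtain ⟨b₁, hb₁, b₂, hb₂, e | e⟩ := S.fixed_bn_mul h.hM h.hT hi (b := b' * c) (mul_mem hb' hc) hn
      · refine Or.inl ?_
        rw [show b * S.nJ i 1 * b' * (c * S.nJ i 1 * c') =
          b * (S.nJ i 1 * (b' * c) * S.nJ i 1) * c' by group, e]
        exact mul_mem (mul_mem hb (mul_mem (mul_mem hb₁
          (Subgroup.mem_inf.mpr ⟨C.diagonal_le_borel (S.nJ_sq hi), mul_mem hn.2 hn.2⟩)) hb₂)) hc'
      · refine Or.inr ⟨b * b₁, mul_mem hb hb₁, b₂ * c', mul_mem hb₂ hc', ?_⟩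
        rw [show b * S.nJ i 1 * b' * (c * S.nJ i 1 * c') =
          b * (S.nJ i 1 * (b' * c) * S.nJ i 1) * c' by group, e]
        group

theorem mem_par {i : ℕ} (hi : i < D.rank) {g : GL D.Idx K} : g ∈ par h i hi ↔ g ∈ Bt S ∨ Cell S i g := Iff.rfl

theorem par_le {i : ℕ} (hi : i < D.rank) : par h i hi ≤ S.small := by
  rintro g (hg | ⟨b, hb, b', hb', rfl⟩)
  · exact hg.2
  · exact mul_mem (mul_mem hb.2 (S.nJ_mem hi (S.valid_one _))) hb'.2

theorem vt_inf_par {i : ℕ} (hi : i ∈ R) : Vt S ⊓ par h i (h.R_lt i hi) = Xn S i := by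
  have := finite_gl h
  have hi' := h.R_lt i hi
  set n := S.nJ i (1 : K)
  have hn : n ∈ par h i hi' := Or.inr ⟨1, one_mem _, 1, one_mem _, by simp [n]⟩
  have hle : Xn S i ≤ Vt S ⊓ par h i hi' := by
    refine le_inf (xn_le_vt h hi) ?_
    rw [← (cj_nJ_xp h hi).1]
    rintro _ ⟨x, hx, rfl⟩
    exact mul_mem (mul_mem hn (Or.inl (ut_le_bt (xp_le_ut h hi hx)))) (inv_mem hn)
  refine (Subgroup.eq_of_le_of_card_ge hle ?_).symm
  set T := Vt S ⊓ par h i hi'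
  have hcell : ∀ y : ↥T, y ≠ 1 →
      ∃ u ∈ Xp S i, ∃ b ∈ Bt S, (y : GL D.Idx K) = b * n * u := by
    intro y hy
    obtain ⟨hyV, hyP⟩ := Subgroup.mem_inf.mp y.2
    obtain ⟨b, hb, b', hb', e⟩ := ((mem_par h hi').mp hyP).resolve_left
      fun hb => hy (Subtype.ext (bt_inf_vt hb hyV))
    have hns := S.nJ_mem (K := K) hi' (S.valid_one _)
    obtain ⟨c, hc, u, hu, e'⟩ := S.cell_fixed h.hM h.hT (S.nJ_monomial hi') (S.small_le_fixed hns)
      (S.small_le_fixed hyV.2) ⟨b, hb.1, b', hb'.1, e⟩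
    exact ⟨u, Subgroup.mem_inf.mpr ⟨C.span_mono (fun r hr => inverts_nJ h hi hr) hu.1, hu.2⟩, c, hc, e'⟩
  classical
  let F : ↥T → Option ↥(Xp S i) := fun y =>
    if hy : y = 1 then none else some ⟨(hcell y hy).choose, (hcell y hy).choose_spec.1⟩
  have hF : Function.Injective F := by
    intro y y' e
    by_cases hy : y = 1 <;> by_cases hy' : y' = 1
    · exact hy.trans hy'.symm
    · simp [F, hy, hy'] at e
    · simp [F, hy, hy'] at e
    · simp only [F, dif_neg hy, dif_neg hy', Option.some.injEq, Subtype.mk.injEq] at e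
      obtain ⟨b, hb, eb⟩ := (hcell y hy).choose_spec.2
      obtain ⟨b', hb', eb'⟩ := (hcell y' hy').choose_spec.2
      have hB : (y : GL D.Idx K) * (y' : GL D.Idx K)⁻¹ ∈ Bt S := by
        rw [eb, eb', e, show ∀ z : GL D.Idx K, b * n * z * (b' * n * z)⁻¹ = b * b'⁻¹ by intro z; group]
        exact mul_mem hb (inv_mem hb')
      have hV : (y : GL D.Idx K) * (y' : GL D.Idx K)⁻¹ ∈ Vt S :=
        mul_mem (Subgroup.mem_inf.mp y.2).1 (inv_mem (Subgroup.mem_inf.mp y'.2).1)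
      exact Subtype.ext (mul_inv_eq_one.mp (bt_inf_vt hB hV))
  have h1 : Nat.card ↥T ≤ Nat.card ↥(Xp S i) + 1 := by
    rw [← Finite.card_option]
    exact Nat.card_le_card_of_injective F hF
  have hcard : Nat.card ↥(Xn S i) = Nat.card ↥(Xp S i) := by rw [← (cj_nJ_xp h hi).1, card_cj]
  obtain ⟨d, hd⟩ := Subgroup.card_dvd_of_le hle
  have h2 : 1 < Nat.card ↥(Xp S i) := by
    haveI : Nontrivial ↥(Xp S i) := ⟨⟨⟨_, (xp_ne_bot h hi).1⟩, 1, fun e => (xp_ne_bot h hi).2 (congrArg Subtype.val e)⟩⟩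
    exact Finite.one_lt_card
  rw [hd, hcard] at h1 ⊢
  rcases d with _ | _ | d
  · simp
  · simp
  · rw [show d + 1 + 1 = d + 2 from rfl, Nat.mul_add] at h1
    omega

variable {θ : MulAut ↥S.small} (hU : Im θ (Ut S) (Ut S)) (hV : Im θ (Vt S) (Vt S))
include hU

theorem im_par {i : ℕ} (hi : i ∈ R) :
    ∃ j, ∃ hj : j ∈ R, Im θ (par h i (h.R_lt i hi)) (par h j (h.R_lt j hj)) := by
  have := finite_gl h
  have hi' := h.R_lt i hi
  have hB := stable_bt h hU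
  set n := S.nJ i (1 : K) with hndef
  have hn : n ∈ S.small := S.nJ_mem hi' (S.valid_one _)
  let Q : Subgroup (GL D.Idx K) :=
    { carrier := {g | g ∈ S.small ∧ ap θ⁻¹ g ∈ par h i hi'}
      one_mem' := ⟨one_mem _, by rw [ap_one]; exact one_mem _⟩
      mul_mem' := fun {a b} ha hb => ⟨mul_mem ha.1 hb.1, by rw [ap_mul _ ha.1 hb.1]; exact mul_mem ha.2 hb.2⟩
      inv_mem' := fun {a} ha => ⟨inv_mem ha.1, by rw [ap_inv _ ha.1]; exact inv_mem ha.2⟩ }
  have hBQ : D.borelSubgroup K ⊓ S.small ≤ Q := fun g hg =>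
    ⟨hg.2, Or.inl ((hB.symm g hg.2).mpr hg)⟩
  have hmQ : ap θ n ∈ Q :=
    ⟨ap_mem _ _, by rw [ap_symm θ hn]; exact Or.inr ⟨1, one_mem _, 1, one_mem _, by simp [n]⟩⟩
  obtain ⟨L, hL, -, b, hb, u, hu, e⟩ :=
    S.exists_fixed_bruhat h.hM h.hT (S.small_le_group (ap_mem θ n)) (S.small_le_fixed (ap_mem θ n))
  have huB : u ∈ Bt S := Subgroup.mem_inf.mpr ⟨C.pos_le_borel (C.span_mono (fun r hr => hr.1) hu.1), hu.2⟩
  have hwQ : S.nSeq L ∈ Q := by
    have h1 := mul_mem (mul_mem (inv_mem (hBQ hb)) hmQ) (inv_mem (hBQ huB))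
    rwa [e, show b⁻¹ * (b * S.nSeq L * u) * u⁻¹ = S.nSeq L by group] at h1
  have hd : S.nSeq L ∉ D.diagonalSubgroup K := fun hd => by
    refine nJ_not_borel h hi' ((hB n hn).mp ?_)
    rw [e]
    exact mul_mem (mul_mem hb (Subgroup.mem_inf.mpr ⟨C.diagonal_le_borel hd, S.nSeq_mem hL⟩)) huB
  obtain ⟨j₀, hj₀, hinv⟩ := C.exists_descent h.hM (S.nSeq_monomial hL) hd
  obtain ⟨j, hj, hjm⟩ := h.cover j₀ hj₀
  have hj' := h.R_lt j hj
  have hjQ : S.nJ j (1 : K) ∈ Q := by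
    have := S.nJ_mem_of_inverts h.hM hBQ (S.nSeq_monomial hL) (S.nSeq_mem hL) hwQ hj₀ hinv
    rwa [S.nJ_eq_of_mem hj' hjm] at this
  set m := S.nJ j (1 : K) with hmdef
  have hm : m ∈ S.small := S.nJ_mem hj' (S.valid_one _)
  obtain ⟨c, hc, c', hc', ec⟩ := ((mem_par h hi').mp hjQ.2).resolve_left fun hb' => nJ_not_borel h hj'
    (by show m ∈ Bt S; rw [← ap_symm' θ hm]; exact (hB _ (ap_mem _ _)).mpr hb')
  have eθ : m = ap θ c * ap θ n * ap θ c' := by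
    rw [← ap_mul θ hc.2 hn, ← ap_mul θ (mul_mem hc.2 hn) hc'.2, ← ec, ap_symm' θ hm]
  have hθc := (hB c hc.2).mpr hc
  have hθc' := (hB c' hc'.2).mpr hc'
  refine ⟨j, hj, fun g hg => ⟨fun hgj => ?_, fun hgi => ?_⟩⟩
  · rcases hgj with hgB | ⟨d, hd', d', hd'', ed⟩
    · exact Or.inl ((hB g hg).mp hgB)
    · have hq : ap θ g ∈ Q := by
        rw [ed]
        exact mul_mem (mul_mem (hBQ hd') hjQ) (hBQ hd'')
      have := hq.2
      rwa [ap_symm θ hg] at this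
  · rcases hgi with hgB | ⟨d, hd', d', hd'', ed⟩
    · exact Or.inl ((hB g hg).mpr hgB)
    · refine Or.inr ⟨ap θ d * (ap θ c)⁻¹, mul_mem ((hB d hd'.2).mpr hd') (inv_mem hθc),
        (ap θ c')⁻¹ * ap θ d', mul_mem (inv_mem hθc') ((hB d' hd''.2).mpr hd''), ?_⟩
      rw [ed, ap_mul θ (mul_mem hd'.2 hn) hd''.2, ap_mul θ hd'.2 hn, ← hmdef, eθ]
      group

include hV

theorem im_xn {i : ℕ} (hi : i ∈ R) : ∃ j ∈ R, Im θ (Xn S i) (Xn S j) := by
  obtain ⟨j, hj, hP⟩ := im_par h hU hi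
  exact ⟨j, hj, vt_inf_par h hi ▸ vt_inf_par h hj ▸ hV.inf hP⟩

omit hU hV in
theorem im_flip {A B : Subgroup (GL D.Idx K)} {θ : MulAut ↥S.small} {g : ↥S.small}
    (hAB : Im θ A B) :
    Im (MulAut.conj g * θ * (MulAut.conj g)⁻¹) (cj (g : GL D.Idx K) A) (cj (g : GL D.Idx K) B) := by
  intro x hx
  have hgi : ∀ y ∈ S.small, ap (MulAut.conj g)⁻¹ y = (g : GL D.Idx K)⁻¹ * y * g := fun y hy => by
    rw [← map_inv, ap_inner g⁻¹ hy, Subgroup.coe_inv, inv_inv]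
  have hm : (g : GL D.Idx K)⁻¹ * x * g ∈ S.small := mul_mem (mul_mem (inv_mem g.2) hx) g.2
  rw [← ap_ap _ _ hx, hgi x hx, ← ap_ap _ _ hm, ap_inner g (ap_mem _ _), mem_cj, mem_cj, ← hAB _ hm,
    show (g : GL D.Idx K)⁻¹ * ((g : GL D.Idx K) * ap θ ((g : GL D.Idx K)⁻¹ * x * g) * (g : GL D.Idx K)⁻¹) * g =
      ap θ ((g : GL D.Idx K)⁻¹ * x * g) by group]

theorem im_xp {i : ℕ} (hi : i ∈ R) : ∃ j ∈ R, Im θ (Xp S i) (Xp S j) := by
  set w : ↥S.small := ⟨S.nSeq L0, S.nSeq_mem h.L0_lt⟩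
  have hψU := im_flip h (g := w) hV
  have hψV := im_flip h (g := w) hU
  rw [show cj (w : GL D.Idx K) (Vt S) = Ut S from cj_long_vt h] at hψU
  rw [show cj (w : GL D.Idx K) (Ut S) = Vt S from cj_long_ut h] at hψV
  obtain ⟨j, hj, hψ⟩ := im_xn h hψU hψV hi
  refine ⟨j, hj, fun g hg => ?_⟩
  have hx : (w : GL D.Idx K) * g * (w : GL D.Idx K)⁻¹ ∈ S.small := mul_mem (mul_mem w.2 hg) (inv_mem w.2)
  have h1 := hψ _ hx
  rw [← (cj_long_xp h hi).1, ← (cj_long_xp h hj).1, ← ap_ap _ _ hx, ← map_inv, ap_inner w⁻¹ hx,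
    Subgroup.coe_inv, inv_inv, show (w : GL D.Idx K)⁻¹ * ((w : GL D.Idx K) * g * (w : GL D.Idx K)⁻¹) * w = g by group,
    ← ap_ap _ _ hg, ap_inner w (ap_mem _ _)] at h1
  have hw : ∀ (A : Subgroup (GL D.Idx K)) (z : GL D.Idx K),
      (w : GL D.Idx K) * z * (w : GL D.Idx K)⁻¹ ∈ cj (S.nSeq L0) A ↔ z ∈ A := fun A z => by
    rw [mem_cj, show (S.nSeq L0)⁻¹ * ((w : GL D.Idx K) * z * (w : GL D.Idx K)⁻¹) * S.nSeq L0 = z by
      simp only [w]; group]
  rwa [hw, hw] at h1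

omit hU hV in
theorem orth_commute {i j : ℕ} (hi : i ∈ R) (hj : j ∈ R) (hne : i ≠ j) (ho : Orth D S.G i j) (a b : K) :
    Commute (S.oe (D.simple i) a) (S.oe (D.simple j) b) := by
  have hi' := h.R_lt i hi
  have hj' := h.R_lt j hj
  unfold Twist.oe
  refine Commute.list_prod_left _ _ fun x hx => Commute.list_prod_right _ _ fun y hy => ?_
  obtain ⟨k, hk, rfl⟩ := List.mem_map.mp hx
  obtain ⟨l, hl, rfl⟩ := List.mem_map.mp hy
  rw [List.mem_range, S.ok.per_simple hi'] at hk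
  rw [List.mem_range, S.ok.per_simple hj'] at hl
  rw [S.sigma_iter_simple hi', S.sigma_iter_simple hj']
  have hA : S.G.nodeF^[k] i < D.rank := S.ok.graph.node_iter_lt hi' k
  have hB : S.G.nodeF^[l] j < D.rank := S.ok.graph.node_iter_lt hj' l
  have hab : S.G.nodeF^[l] j ≠ S.G.nodeF^[k] i := fun e =>
    ow_disjoint h hi hj hne (TwistOK.mem_ow.mpr ⟨k, hk, rfl⟩) (TwistOK.mem_ow.mpr ⟨l, hl, e⟩)
  have := C.xu_comm (C.simple_lt _ hA) (C.simple_lt _ hB) (fun e => hab (TwistOK.simple_inj hB hA C e))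
    (fun e => C.not_pos_and_neg (C.pos_simple hB) (e ▸ C.negRoot_neg (C.pos_simple hA)))
    ((S.τ)^[k] a) ((S.τ)^[l] b)
  simp only [ChevalleyDatum.commWord, ho _ (TwistOK.mem_ow.mpr ⟨k, hk, rfl⟩) _ (TwistOK.mem_ow.mpr ⟨l, hl, rfl⟩),
    List.map_nil, Cert.wu, List.prod_nil, mul_one] at this
  exact this.symm

omit hU hV in
theorem fixOrb_of_commute {i j : ℕ} (hi : i ∈ R) (hj : j ∈ R) (hne : i ≠ j)
    (hc : ∀ x ∈ Xp S i, ∀ y ∈ Xp S j, Commute x y) : FixOrb D S.G i j := by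
  have hi' := h.R_lt i hi
  have hj' := h.R_lt j hj
  have hs := C.simple_lt i hi'
  set r' := act D (S.G.ow j) (D.simple i) with hr'
  by_contra hno
  simp only [FixOrb, ← hr', not_or, not_not] at hno
  obtain ⟨hmem, hpos⟩ := hno
  set x := S.oe (D.simple i) (1 : K) with hx
  have hneg : Commute x (S.oe (D.neg (D.simple j)) (-1 : K)) := by
    rw [hx]
    unfold Twist.oe
    refine Commute.list_prod_left _ _ fun a ha => Commute.list_prod_right _ _ fun b hb => ?_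
    obtain ⟨k, hk, rfl⟩ := List.mem_map.mp ha
    obtain ⟨l, hl, rfl⟩ := List.mem_map.mp hb
    rw [List.mem_range, S.ok.per_simple hi'] at hk
    rw [List.mem_range, S.ok.per_neg (C.simple_lt j hj'), S.ok.per_simple hj'] at hl
    rw [S.sigma_iter_simple hi', S.sigma_iter_neg_simple hj']
    have hA : S.G.nodeF^[k] i < D.rank := S.ok.graph.node_iter_lt hi' k
    have hB : S.G.nodeF^[l] j < D.rank := S.ok.graph.node_iter_lt hj' l
    have hab : S.G.nodeF^[k] i ≠ S.G.nodeF^[l] j := fun e =>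
      ow_disjoint h hi hj hne (TwistOK.mem_ow.mpr ⟨k, hk, rfl⟩) (TwistOK.mem_ow.mpr ⟨l, hl, e.symm⟩)
    have hsA := C.simple_lt _ hA
    have hsB := C.simple_lt _ hB
    have := C.xu_comm hsA (C.neg_lt _ hsB)
      (fun e => C.not_pos_and_neg (C.pos_simple hA) (e ▸ C.negRoot_neg (C.pos_simple hB)))
      (fun e => hab (TwistOK.simple_inj hA hB C (by rw [← C.neg_neg _ hsA, ← e, C.neg_neg _ hsB])))
      ((S.τ)^[k] (1 : K)) ((S.τ)^[l] (-1 : K))
    simp only [ChevalleyDatum.commWord, h.mixed _ hA _ hB hab, List.map_nil, Cert.wu, List.prod_nil,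
      mul_one] at this
    exact this.symm
  have hpo := hc x (oe_mem_xp h hi (S.valid_one _)) (S.oe (D.simple j) 1) (oe_mem_xp h hj (S.valid_one _))
  have hN : Commute x (S.nJ j (1 : K)) := by
    unfold Twist.nJ
    rw [inv_one]
    exact (hpo.mul_right hneg).mul_right hpo
  have hle : spanGroup D K (fun s => s ∈ S.G.orbF (D.simple i)) ≤
      (spanGroup D K (fun s => s ∈ S.G.orbF r')).comap (MulAut.conj (S.nJ j (1 : K))).toMonoidHom := by
    refine C.span_le fun s hs' t => ?_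
    obtain ⟨k, -, e⟩ := TwistOK.mem_orbF.mp hs'
    obtain ⟨c, -, ec⟩ := C.nWordElt_conj_xu (F := K) (fun _ ha => S.ok.ow_lt hj' ha) (orb_lt h hi hs')
    rw [Subgroup.mem_comap]
    show S.nJ j 1 * C.xu s t * (S.nJ j 1)⁻¹ ∈ _
    rw [S.nJ_one hj', ec, ← e, S.ok.act_ow_iter hj' hs]
    exact C.xu_mem_span (P := fun s => s ∈ S.G.orbF r') (S.ok.iter_mem_orbF hpos.1 k) _
  have h1 : x ∈ spanGroup D K (fun s => s ∈ S.G.orbF r') := by
    have := hle (S.oe_mem_span hs (1 : K))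
    rwa [Subgroup.mem_comap, MulEquiv.coe_toMonoidHom, MulAut.conj_apply, ← hx, ← hN.eq, mul_inv_cancel_right] at this
  have h2 := C.span_inf (S.closedSet_sub_orbit (C.pos_simple hi') fun s hs => hs)
    (S.closedSet_sub_orbit hpos fun s hs => hs) (S.oe_mem_span hs (1 : K)) h1
  rw [C.span_empty fun s hs' => ?_, Subgroup.mem_bot] at h2
  · exact S.oe_ne_one (C.pos_simple hi') h2
  · obtain ⟨k, hk, e⟩ := TwistOK.mem_orbF.mp hs'.2
    obtain ⟨l, -, e'⟩ := TwistOK.mem_orbF.mp hs'.1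
    apply hmem
    have : r' = S.G.rhoF^[S.G.per r' - k + l] (D.simple i) := by
      rw [Function.iterate_add_apply, e', ← e, ← Function.iterate_add_apply, Nat.sub_add_cancel hk.le,
        S.ok.iter_per hpos.1]
    exact this ▸ S.ok.iter_mem_orbF hs _

/-- The root groups of the orbits are stable. -/
theorem stable_root (hrig : Rigid D S.G R) {i : ℕ} (hi : i ∈ R) :
    Im θ (Xp S i) (Xp S i) ∧ Im θ (Xn S i) (Xn S i) := by
  classical
  have hfix : ∀ {φ : MulAut ↥S.small}, Im φ (Ut S) (Ut S) → Im φ (Vt S) (Vt S) → ∀ i ∈ R,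
      Im φ (Xp S i) (Xp S i) := by
    intro φ hφU hφV
    choose π hπR hπ using fun i => im_xp h hφU hφV (i := i)
    let π' : ℕ → ℕ := fun i => if hi : i ∈ R then π i hi else i
    have hπ' : ∀ i ∈ R, π' i ∈ R ∧ Im φ (Xp S i) (Xp S (π' i)) := fun i hi => by
      simp only [π', dif_pos hi]
      exact ⟨hπR i hi, hπ i hi⟩
    have hinj : ∀ i ∈ R, ∀ j ∈ R, π' i = π' j → i = j := by
      intro i hi j hj e
      have hm := S.oe_simple_mem (K := K) (h.R_lt i hi) (S.valid_one _)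
      have h1 := (((hπ' j hj).2 _ hm).mp (e ▸ ((hπ' i hi).2 _ hm).mpr (oe_mem_xp h hi (S.valid_one _))))
      by_contra hne
      have h2 := C.span_inf (S.closedSet_sub_orbit (C.pos_simple (h.R_lt i hi)) fun s hs => hs)
        (S.closedSet_sub_orbit (C.pos_simple (h.R_lt j hj)) fun s hs => hs)
        (S.oe_mem_span (C.simple_lt i (h.R_lt i hi)) (1 : K)) h1.1
      rw [C.span_empty fun s hs => ?_, Subgroup.mem_bot] at h2
      · exact S.oe_ne_one (C.pos_simple (h.R_lt i hi)) h2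
      · obtain ⟨k, hk, rfl⟩ := orb_pos h hi hs.1
        exact hne (simple_orb_eq h hi hj (TwistOK.mem_ow.mpr ⟨k, hk, rfl⟩) hs.2)
    have hid := hrig π' (fun i hi => ⟨(hπ' i hi).1, ?_⟩) ?_ ?_
    · intro i hi
      have := (hπ' i hi).2
      rwa [hid i hi] at this
    · have := (hπ' i hi).2.card inf_le_right inf_le_right
      rw [card_xp h hi, card_xp h (hπ' i hi).1] at this
      exact (Nat.pow_right_injective (Nat.one_lt_pow (by have := h.fpos; omega) h.prime.one_lt) this).symm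
    · exact hinj
    · intro i hi j hj hne ho
      refine fixOrb_of_commute h (hπ' i hi).1 (hπ' j hj).1 (fun e => hne (hinj i hi j hj e))
        fun x hx y hy => ?_
      have hx' := ((hπ' i hi).2.symm x hx.2).mpr hx
      have hy' := ((hπ' j hj).2.symm y hy.2).mpr hy
      obtain ⟨a, -, ea⟩ := mem_xp h hi hx'
      obtain ⟨b, -, eb⟩ := mem_xp h hj hy'
      have hab := orth_commute h hi hj hne ho a b
      rw [← ea, ← eb] at hab
      have := congrArg (ap φ) hab.eq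
      rwa [ap_mul φ (ap_mem _ _) (ap_mem _ _), ap_mul φ (ap_mem _ _) (ap_mem _ _), ap_symm' φ hx.2,
        ap_symm' φ hy.2] at this
  refine ⟨hfix hU hV i hi, ?_⟩
  set w : ↥S.small := ⟨S.nSeq L0, S.nSeq_mem h.L0_lt⟩
  have hψU := im_flip h (g := w) hV
  have hψV := im_flip h (g := w) hU
  rw [show cj (w : GL D.Idx K) (Vt S) = Ut S from cj_long_vt h] at hψU
  rw [show cj (w : GL D.Idx K) (Ut S) = Vt S from cj_long_ut h] at hψV
  have hψ := hfix hψU hψV i hi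
  intro g hg
  have hx : (w : GL D.Idx K) * g * (w : GL D.Idx K)⁻¹ ∈ S.small := mul_mem (mul_mem w.2 hg) (inv_mem w.2)
  have h1 := hψ _ hx
  rw [← (cj_long_xp h hi).2, ← ap_ap _ _ hx, ← map_inv, ap_inner w⁻¹ hx,
    Subgroup.coe_inv, inv_inv, show (w : GL D.Idx K)⁻¹ * ((w : GL D.Idx K) * g * (w : GL D.Idx K)⁻¹) * w = g by group,
    ← ap_ap _ _ hg, ap_inner w (ap_mem _ _)] at h1
  have hw : ∀ (A : Subgroup (GL D.Idx K)) (z : GL D.Idx K),
      (w : GL D.Idx K) * z * (w : GL D.Idx K)⁻¹ ∈ cj (S.nSeq L0) A ↔ z ∈ A := fun A z => by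
    rw [mem_cj, show (S.nSeq L0)⁻¹ * ((w : GL D.Idx K) * z * (w : GL D.Idx K)⁻¹) * S.nSeq L0 = z by
      simp only [w]; group]
  rwa [hw, hw] at h1

end Cfsg.Agent.LeadWork.TwOut
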