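/-
Twisted groups: field automorphisms and diagonal automorphisms.
-/
import Cfsg.Agent.LeadWork.TwOutRoots
import Cfsg.Agent.LeadWork.SteinbergField

set_option autoImplicit false
set_option maxRecDepth 100000

universe u

namespace Cfsg.Agent.LeadWork.TwOut

open Cfsg.Lie Cfsg.Agent.Chev Cfsg.Agent.LeadWork
open scoped Matrix MatrixGroups

variable {D : ChevalleyDatum} {K : Type u} [Field K] {C : Cert.{u} D} {M : CoxeterMatrix (Fin D.rank)}
  {S : Twist C K}

theorem valid_mul {r : ℕ} {a b : K} (ha : S.Valid r a) (hb : S.Valid r b) : S.Valid r (a * b) := by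
  unfold Twist.Valid at ha hb ⊢
  rw [show (S.τ)^[S.G.per r] (a * b) = (S.τ)^[S.G.per r] a * (S.τ)^[S.G.per r] b from
    iterate_map_mul S.τ _ _ _, ha, hb]

theorem valid_add {r : ℕ} {a b : K} (ha : S.Valid r a) (hb : S.Valid r b) : S.Valid r (a + b) := by
  unfold Twist.Valid at ha hb ⊢
  rw [show (S.τ)^[S.G.per r] (a + b) = (S.τ)^[S.G.per r] a + (S.τ)^[S.G.per r] b from
    iterate_map_add S.τ _ _ _, ha, hb]

theorem valid_zero (r : ℕ) : S.Valid r (0 : K) := Function.iterate_fixed (map_zero S.τ) _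

variable {p f : ℕ} {R L0 : List ℕ} (h : Ctx S M p f R L0)
include h

theorem small_le {H : Subgroup (GL D.Idx K)}
    (hH : ∀ i ∈ R, ∀ t, S.Valid (D.simple i) t →
      S.oe (D.simple i) t ∈ H ∧ S.oe (D.neg (D.simple i)) t ∈ H) : S.small ≤ H :=
  S.small_le_of_reps (R := R)
    (fun j hj => (h.cover j hj).elim fun i hi => ⟨i, hi.1, h.R_lt i hi.1, hi.2⟩) hH

theorem aut_ext {θ ψ : MulAut ↥S.small}
    (e : ∀ i ∈ R, ∀ t, S.Valid (D.simple i) t → ap θ (S.oe (D.simple i) t) = ap ψ (S.oe (D.simple i) t) ∧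
      ap θ (S.oe (D.neg (D.simple i)) t) = ap ψ (S.oe (D.neg (D.simple i)) t)) : θ = ψ := by
  let H : Subgroup (GL D.Idx K) :=
    { carrier := {g | g ∈ S.small ∧ ap θ g = ap ψ g}
      one_mem' := ⟨one_mem _, by rw [ap_one, ap_one]⟩
      mul_mem' := fun {a b} ha hb => ⟨mul_mem ha.1 hb.1, by
        rw [ap_mul θ ha.1 hb.1, ap_mul ψ ha.1 hb.1, ha.2, hb.2]⟩
      inv_mem' := fun {a} ha => ⟨inv_mem ha.1, by rw [ap_inv θ ha.1, ap_inv ψ ha.1, ha.2]⟩ }
  have hle : S.small ≤ H := small_le h fun i hi t ht =>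
    ⟨⟨S.oe_simple_mem (h.R_lt i hi) ht, (e i hi t ht).1⟩, ⟨S.oe_neg_simple_mem (h.R_lt i hi) ht, (e i hi t ht).2⟩⟩
  refine MulEquiv.ext fun g => Subtype.ext ?_
  have := (hle g.2).2
  rwa [ap_eq θ g.2, ap_eq ψ g.2] at this

/-! ### Field automorphisms -/

theorem sigma_comm (σ : K →+* K) (t : K) : σ (S.τ t) = S.τ (σ t) := by rw [h.tau, h.tau, map_pow]

theorem sigma_comm_iter (σ : K →+* K) (k : ℕ) (t : K) : σ ((S.τ)^[k] t) = (S.τ)^[k] (σ t) :=
  ((Function.Commute.iterate_right (fun x => sigma_comm h σ x) k).eq t)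

theorem valid_map (σ : K →+* K) {r : ℕ} {t : K} (ht : S.Valid r t) : S.Valid r (σ t) := by
  unfold Twist.Valid at ht ⊢
  rw [← sigma_comm_iter h, ht]

theorem glMap_oe (σ : K →+* K) {r : ℕ} (hr : r < D.nroots) (t : K) :
    ChevField.glMap D σ (S.oe r t) = S.oe r (σ t) := by
  unfold Twist.oe
  rw [map_list_prod, List.map_map]
  refine congrArg List.prod (List.map_congr_left fun k _ => ?_)
  rw [Function.comp_apply, S.sigma_iter_xu hr, S.sigma_iter_xu hr, ChevField.glMap_xu, map_mul,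
    sigma_comm_iter h, Twist.eProd, map_intCast]

theorem glMap_mem (σ : K →+* K) {g : GL D.Idx K} (hg : g ∈ S.small) : ChevField.glMap D σ g ∈ S.small := by
  have hle : S.small ≤ S.small.comap (ChevField.glMap D σ) := by
    refine small_le h fun i hi t ht => ?_
    have hi' := h.R_lt i hi
    rw [Subgroup.mem_comap, Subgroup.mem_comap, glMap_oe h σ (C.simple_lt i hi'),
      glMap_oe h σ (C.neg_lt _ (C.simple_lt i hi'))]
    exact ⟨S.oe_simple_mem hi' (valid_map h σ ht), S.oe_neg_simple_mem hi' (valid_map h σ ht)⟩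
  exact hle hg

/-- The action of a field endomorphism on the twisted group. -/
noncomputable def smallMap (σ : K →+* K) : ↥S.small →* ↥S.small :=
  ((ChevField.glMap D σ).comp S.small.subtype).codRestrict _ fun g => glMap_mem h σ g.2

/-- The field automorphisms of the twisted group. -/
noncomputable def fieldAut : (K ≃+* K) →* MulAut ↥S.small :=
  MonoidHom.mk' (fun σ => MonoidHom.toMulEquiv (smallMap h σ.toRingHom) (smallMap h σ.symm.toRingHom)
    (MonoidHom.ext fun g => Subtype.ext (Units.ext (Matrix.ext fun i j => σ.symm_apply_apply _)))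
    (MonoidHom.ext fun g => Subtype.ext (Units.ext (Matrix.ext fun i j => σ.apply_symm_apply _))))
    fun _ _ => MulEquiv.ext fun _ => Subtype.ext (Units.ext (Matrix.ext fun _ _ => rfl))

theorem ap_fieldAut (σ : K ≃+* K) {g : GL D.Idx K} (hg : g ∈ S.small) :
    ap (fieldAut h σ) g = ChevField.glMap D σ.toRingHom g := by
  rw [ap_eq _ hg]; rfl

theorem fieldAut_oe (σ : K ≃+* K) {i : ℕ} (hi : i ∈ R) {t : K} (ht : S.Valid (D.simple i) t) :
    ap (fieldAut h σ) (S.oe (D.simple i) t) = S.oe (D.simple i) (σ t) ∧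
    ap (fieldAut h σ) (S.oe (D.neg (D.simple i)) t) = S.oe (D.neg (D.simple i)) (σ t) := by
  have hi' := h.R_lt i hi
  rw [ap_fieldAut h σ (S.oe_simple_mem hi' ht), ap_fieldAut h σ (S.oe_neg_simple_mem hi' ht),
    glMap_oe h _ (C.simple_lt i hi'), glMap_oe h _ (C.neg_lt _ (C.simple_lt i hi'))]
  exact ⟨rfl, rfl⟩

theorem fieldAut_stable (σ : K ≃+* K) :
    Im (fieldAut h σ) (Ut S) (Ut S) ∧ Im (fieldAut h σ) (Vt S) (Vt S) := by
  have := finite_gl h
  constructor
  · refine im_of _ inf_le_right fun g hg => ?_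
    rw [ap_fieldAut h σ hg.2]
    exact Subgroup.mem_inf.mpr ⟨ChevField.glMap_mem_pos C _ hg.1, glMap_mem h _ hg.2⟩
  · refine im_of _ inf_le_right fun g hg => ?_
    rw [ap_fieldAut h σ hg.2]
    refine Subgroup.mem_inf.mpr ⟨?_, glMap_mem h _ hg.2⟩
    have hle : spanGroup D K D.IsNegRoot ≤
        (spanGroup D K D.IsNegRoot).comap (ChevField.glMap D σ.toRingHom) :=
      C.span_le fun r hr t => by
        rw [Subgroup.mem_comap, ChevField.glMap_xu C]
        exact C.xu_mem_span hr _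
    exact hle hg.1

/-! ### Diagonal automorphisms -/

omit h in
/-- The units of the field of an orbit. -/
def vU (S : Twist C K) (i : ℕ) : Subgroup Kˣ where
  carrier := {u | S.Valid (D.simple i) (u : K)}
  one_mem' := S.valid_one _
  mul_mem' := fun {a b} ha hb => valid_mul ha hb
  inv_mem' := fun {a} ha => by
    show S.Valid (D.simple i) ((a⁻¹ : Kˣ) : K)
    rw [Units.val_inv_eq_inv_val]
    exact S.valid_inv ha

omit h in
/-- Scalars for the node orbits. -/
abbrev Lam (S : Twist C K) (R : List ℕ) : Type u := (i : {i : ℕ // i ∈ R}) → ↥(vU S i.1)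

/-- The representative of the orbit of a node. -/
noncomputable def rep (j : Fin D.rank) : {i : ℕ // i ∈ R} :=
  ⟨(h.cover j j.isLt).choose, (h.cover j j.isLt).choose_spec.1⟩

/-- The position of a node in its orbit. -/
noncomputable def pos (j : Fin D.rank) : ℕ :=
  (TwistOK.mem_ow.mp (h.cover j j.isLt).choose_spec.2).choose

theorem pos_spec (j : Fin D.rank) :
    pos h j < S.G.nper (rep h j).1 ∧ S.G.nodeF^[pos h j] (rep h j).1 = j :=
  (TwistOK.mem_ow.mp (h.cover j j.isLt).choose_spec.2).choose_spec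

/-- The scalars of all nodes attached to scalars of the orbits. -/
noncomputable def nodeScal : Lam S R →* (Fin D.rank → Kˣ) where
  toFun l j := (Units.map (S.τ : K →* K))^[pos h j] (l (rep h j) : Kˣ)
  map_one' := funext fun j => Function.iterate_fixed (map_one _) _
  map_mul' l l' := funext fun j => iterate_map_mul (Units.map (S.τ : K →* K)) _ _ _

theorem nodeScal_iter (l : Lam S R) {i : ℕ} (hi : i ∈ R) {k : ℕ} (hk : k < S.G.nper i)
    (hj : S.G.nodeF^[k] i < D.rank) :
    ((nodeScal h l ⟨S.G.nodeF^[k] i, hj⟩ : Kˣ) : K) = (S.τ)^[k] ((l ⟨i, hi⟩ : Kˣ) : K) := by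
  set j : Fin D.rank := ⟨S.G.nodeF^[k] i, hj⟩
  obtain ⟨h1, h2⟩ := pos_spec h j
  have hrep : rep h j = ⟨i, hi⟩ := Subtype.ext (by
    by_contra hne
    exact ow_disjoint h (rep h j).2 hi hne (TwistOK.mem_ow.mpr ⟨_, h1, h2⟩) (TwistOK.mem_ow.mpr ⟨k, hk, rfl⟩))
  have hval : ∀ m (u : Kˣ), (((Units.map (S.τ : K →* K))^[m] u : Kˣ) : K) = (S.τ)^[m] (u : K) := by
    intro m u
    induction m with
    | zero => rfl
    | succ m ih =>
      rw [Function.iterate_succ_apply', Function.iterate_succ_apply', ← ih]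
      rfl
  show (((Units.map (S.τ : K →* K))^[pos h j] (l (rep h j) : Kˣ) : Kˣ) : K) = _
  rw [hrep] at h1 h2 ⊢
  have hpk : pos h j = k := by
    by_contra hne
    exact S.node_iter_ne (h.R_lt i hi) h1 hk hne h2
  rw [hpk, hval]

/-- The diagonal matrix of orbit scalars. -/
noncomputable def dMatrix (l : Lam S R) : GL D.Idx K :=
  Steinberg.charUnit D (Steinberg.rootChar C (nodeScal h l))

theorem dMatrix_mul (l l' : Lam S R) : dMatrix h (l * l') = dMatrix h l * dMatrix h l' := by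
  apply Units.ext
  show dMat D (fun s => ((Steinberg.rootChar C (nodeScal h (l * l')) s : Kˣ) : K)) =
    dMat D (fun s => ((Steinberg.rootChar C (nodeScal h l) s : Kˣ) : K)) *
      dMat D (fun s => ((Steinberg.rootChar C (nodeScal h l') s : Kˣ) : K))
  rw [dMat_mul]
  refine dMat_congr fun s _ => ?_
  simp only [Pi.mul_apply, Steinberg.rootChar, map_mul, mul_zpow, Finset.prod_mul_distrib, Units.val_mul]

variable (hst : Suzuki.ChainSteps D)
include hst

theorem dMatrix_oe (l : Lam S R) {i : ℕ} (hi : i ∈ R) (t : K) :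
    dMatrix h l * S.oe (D.simple i) t * (dMatrix h l)⁻¹ = S.oe (D.simple i) (((l ⟨i, hi⟩ : Kˣ) : K) * t) ∧
    dMatrix h l * S.oe (D.neg (D.simple i)) t * (dMatrix h l)⁻¹ =
      S.oe (D.neg (D.simple i)) ((((l ⟨i, hi⟩ : Kˣ) : K))⁻¹ * t) := by
  have hi' := h.R_lt i hi
  have hχ := Steinberg.isRootCharacter_rootChar C (nodeScal h l)
  have hv : ∀ k < S.G.nper i, ∀ hj : S.G.nodeF^[k] i < D.rank,
      ((Steinberg.rootChar C (nodeScal h l) (D.simple (S.G.nodeF^[k] i)) : Kˣ) : K) =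
        (S.τ)^[k] ((l ⟨i, hi⟩ : Kˣ) : K) := fun k hk hj => by
    rw [← nodeScal_iter h l hi hk hj, ← Steinberg.rootChar_simple C (nodeScal h l) ⟨_, hj⟩]
  constructor
  · show MulAut.conj (dMatrix h l) _ = _
    unfold Twist.oe
    rw [map_list_prod, List.map_map]
    refine congrArg List.prod (List.map_congr_left fun k hk => ?_)
    rw [List.mem_range, S.ok.per_simple hi'] at hk
    have hj := S.ok.graph.node_iter_lt hi' k
    rw [Function.comp_apply, S.sigma_iter_simple hi', S.sigma_iter_simple hi', MulAut.conj_apply, dMatrix,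
      Steinberg.charUnit_conj C hst hχ (C.simple_lt _ hj), hv k hk hj,
      show (S.τ)^[k] (((l ⟨i, hi⟩ : Kˣ) : K) * t) = (S.τ)^[k] ((l ⟨i, hi⟩ : Kˣ) : K) * (S.τ)^[k] t from
        iterate_map_mul S.τ _ _ _]
  · show MulAut.conj (dMatrix h l) _ = _
    unfold Twist.oe
    rw [map_list_prod, List.map_map]
    refine congrArg List.prod (List.map_congr_left fun k hk => ?_)
    rw [List.mem_range, S.ok.per_neg (C.simple_lt i hi'), S.ok.per_simple hi'] at hk
    have hj := S.ok.graph.node_iter_lt hi' k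
    rw [Function.comp_apply, S.sigma_iter_neg_simple hi', S.sigma_iter_neg_simple hi', MulAut.conj_apply, dMatrix,
      Steinberg.charUnit_conj C hst hχ (C.neg_lt _ (C.simple_lt _ hj)), hχ.1 _ (C.simple_lt _ hj),
      Units.val_inv_eq_inv_val, hv k hk hj,
      show (S.τ)^[k] ((((l ⟨i, hi⟩ : Kˣ) : K))⁻¹ * t) = (S.τ)^[k] ((((l ⟨i, hi⟩ : Kˣ) : K))⁻¹) * (S.τ)^[k] t from
        iterate_map_mul S.τ _ _ _,
      S.iterate_tau_map (fun x => x⁻¹) (fun x => map_inv₀ _ x)]

theorem dMatrix_mem (l : Lam S R) {g : GL D.Idx K} (hg : g ∈ S.small) :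
    dMatrix h l * g * (dMatrix h l)⁻¹ ∈ S.small := by
  have hle : S.small ≤ S.small.comap (MulAut.conj (dMatrix h l)).toMonoidHom := by
    refine small_le h fun i hi t ht => ?_
    simp only [Subgroup.mem_comap, MulEquiv.coe_toMonoidHom, MulAut.conj_apply]
    rw [(dMatrix_oe h hst l hi t).1, (dMatrix_oe h hst l hi t).2]
    have hl : S.Valid (D.simple i) ((l ⟨i, hi⟩ : Kˣ) : K) := (l ⟨i, hi⟩).2
    exact ⟨S.oe_simple_mem (h.R_lt i hi) (valid_mul hl ht),
      S.oe_neg_simple_mem (h.R_lt i hi) (valid_mul (S.valid_inv hl) ht)⟩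
  exact hle hg

omit hst in
theorem dMatrix_one : dMatrix h (1 : Lam S R) = 1 := by
  have := dMatrix_mul h (1 : Lam S R) 1
  rw [one_mul] at this
  exact left_eq_mul.mp this

/-- The diagonal automorphisms. -/
noncomputable def diagHom : Lam S R →* MulAut ↥S.small :=
  MonoidHom.mk' (fun l => MonoidHom.toMulEquiv
    (((MulAut.conj (dMatrix h l)).toMonoidHom.comp S.small.subtype).codRestrict _
      fun g => dMatrix_mem h hst l g.2)
    (((MulAut.conj (dMatrix h l⁻¹)).toMonoidHom.comp S.small.subtype).codRestrict _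
      fun g => dMatrix_mem h hst l⁻¹ g.2)
    (MonoidHom.ext fun g => Subtype.ext (by
      show dMatrix h l⁻¹ * (dMatrix h l * g * (dMatrix h l)⁻¹) * (dMatrix h l⁻¹)⁻¹ = (g : GL D.Idx K)
      have e : dMatrix h l⁻¹ * dMatrix h l = 1 := by rw [← dMatrix_mul, inv_mul_cancel, dMatrix_one h]
      rw [eq_inv_of_mul_eq_one_left e]; group))
    (MonoidHom.ext fun g => Subtype.ext (by
      show dMatrix h l * (dMatrix h l⁻¹ * g * (dMatrix h l⁻¹)⁻¹) * (dMatrix h l)⁻¹ = (g : GL D.Idx K)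
      have e : dMatrix h l⁻¹ * dMatrix h l = 1 := by rw [← dMatrix_mul, inv_mul_cancel, dMatrix_one h]
      rw [eq_inv_of_mul_eq_one_left e]; group)))
    fun l l' => MulEquiv.ext fun g => Subtype.ext (by
      show dMatrix h (l * l') * g * (dMatrix h (l * l'))⁻¹ =
        dMatrix h l * (dMatrix h l' * g * (dMatrix h l')⁻¹) * (dMatrix h l)⁻¹
      rw [dMatrix_mul]; group)

theorem ap_diagHom (l : Lam S R) {g : GL D.Idx K} (hg : g ∈ S.small) :
    ap (diagHom h hst l) g = dMatrix h l * g * (dMatrix h l)⁻¹ := by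
  rw [ap_eq _ hg]; rfl

theorem diagHom_oe (l : Lam S R) {i : ℕ} (hi : i ∈ R) {t : K} (ht : S.Valid (D.simple i) t) :
    ap (diagHom h hst l) (S.oe (D.simple i) t) = S.oe (D.simple i) (((l ⟨i, hi⟩ : Kˣ) : K) * t) ∧
    ap (diagHom h hst l) (S.oe (D.neg (D.simple i)) t) =
      S.oe (D.neg (D.simple i)) ((((l ⟨i, hi⟩ : Kˣ) : K))⁻¹ * t) := by
  rw [ap_diagHom h hst l (S.oe_simple_mem (h.R_lt i hi) ht),
    ap_diagHom h hst l (S.oe_neg_simple_mem (h.R_lt i hi) ht)]
  exact dMatrix_oe h hst l hi t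

theorem diagHom_stable (l : Lam S R) :
    Im (diagHom h hst l) (Ut S) (Ut S) ∧ Im (diagHom h hst l) (Vt S) (Vt S) := by
  have := finite_gl h
  have hχ := Steinberg.isRootCharacter_rootChar C (nodeScal h l)
  have key : ∀ P : ℕ → Prop, (∀ r, P r → r < D.nroots) → ∀ g ∈ spanGroup D K P,
      dMatrix h l * g * (dMatrix h l)⁻¹ ∈ spanGroup D K P := by
    intro P hP g hg
    have hle : spanGroup D K P ≤ (spanGroup D K P).comap (MulAut.conj (dMatrix h l)).toMonoidHom := by
      refine C.span_le fun r hr t => ?_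
      simp only [Subgroup.mem_comap, MulEquiv.coe_toMonoidHom, MulAut.conj_apply]
      rw [dMatrix, Steinberg.charUnit_conj C hst hχ (hP r hr)]
      exact C.xu_mem_span hr _
    exact hle hg
  constructor
  · refine im_of _ inf_le_right fun g hg => ?_
    rw [ap_diagHom h hst l hg.2]
    exact Subgroup.mem_inf.mpr ⟨key _ (fun r hr => hr.1) g hg.1, dMatrix_mem h hst l hg.2⟩
  · refine im_of _ inf_le_right fun g hg => ?_
    rw [ap_diagHom h hst l hg.2]
    exact Subgroup.mem_inf.mpr ⟨key _ (fun r hr => hr.1) g hg.1, dMatrix_mem h hst l hg.2⟩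

end Cfsg.Agent.LeadWork.TwOut
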