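/-
Twisted groups: a normalised automorphism acts on every orbit root group through one field automorphism.
-/
import Cfsg.Agent.LeadWork.TwOutAuts

set_option autoImplicit false
set_option maxRecDepth 100000

universe u

namespace Cfsg.Agent.LeadWork.TwOut

open Cfsg.Lie Cfsg.Agent.Chev Cfsg.Agent.LeadWork
open scoped Matrix MatrixGroups

variable {D : ChevalleyDatum} {K : Type u} [Field K] {C : Cert.{u} D} {M : CoxeterMatrix (Fin D.rank)}
  {S : Twist C K}

/-- The torus of `i` acts by the inverse character on the root group of `j`. -/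
def Link (D : ChevalleyDatum) (G : GData) (i j : ℕ) : Prop :=
  D.cartan i (D.simple j) = -1 ∧ (∀ k < G.nper i, 0 < k → D.cartan (G.nodeF^[k] i) (D.simple j) = 0) ∧
    (G.nper j = G.ord ∨ G.nper j = G.nper i)

/-- A root group of full size reaches all the others through links. -/
def Linked (D : ChevalleyDatum) (G : GData) (R : List ℕ) (i₀ : ℕ) : Prop :=
  i₀ ∈ R ∧ G.nper i₀ = G.ord ∧
    ∀ P : ℕ → Prop, P i₀ → (∀ i ∈ R, ∀ j ∈ R, Link D G i j → P j → P i) → ∀ i ∈ R, P i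

variable {p f : ℕ} {R L0 : List ℕ} (h : Ctx S M p f R L0)
include h

theorem nJ_neg_one {i : ℕ} (hi : i < D.rank) : S.nJ i (-1 : K) = (S.nJ i 1)⁻¹ := by
  refine (inv_eq_of_mul_eq_one_right ?_).symm
  rw [S.hJ_eq hi]
  refine List.prod_eq_one fun x hx => ?_
  obtain ⟨k, -, rfl⟩ := List.mem_map.mp hx
  rw [Function.iterate_fixed (map_one S.τ), C.hu_one]

theorem cj_nJ_t {i : ℕ} (hi : i ∈ R) {t : K} (ht : S.Valid (D.simple i) t) (ht0 : t ≠ 0) :
    cj (S.nJ i t) (Xp S i) = Xn S i := by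
  have := finite_gl h
  have hi' := h.R_lt i hi
  set d := S.nJ i t * S.nJ i (-1)
  have hd : d ∈ D.diagonalSubgroup K := by
    simp only [d]
    rw [S.hJ_eq hi']
    refine Subgroup.list_prod_mem _ fun x hx => ?_
    obtain ⟨k, -, rfl⟩ := List.mem_map.mp hx
    exact C.hu_simple_mem_diagonal (C.simple_lt _ (S.ok.graph.node_iter_lt hi' k))
      (by rw [← RingHom.coe_pow]; exact (map_ne_zero _).mpr ht0)
  have hds : d ∈ S.small := mul_mem (S.nJ_mem hi' ht) (S.nJ_mem hi' (S.valid_neg (S.valid_one _)))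
  have e : S.nJ i t = d * S.nJ i 1 := by simp only [d]; rw [nJ_neg_one h hi', inv_mul_cancel_right]
  refine Subgroup.eq_of_le_of_card_ge ?_ (by rw [card_cj, ← (cj_nJ_xp h hi).1, card_cj])
  rintro _ ⟨x, hx, rfl⟩
  have h1 : S.nJ i 1 * x * (S.nJ i 1)⁻¹ ∈ Xn S i := (cj_nJ_xp h hi).1 ▸ ⟨x, hx, rfl⟩
  show S.nJ i t * x * (S.nJ i t)⁻¹ ∈ Xn S i
  rw [e, show d * S.nJ i 1 * x * (d * S.nJ i 1)⁻¹ = d * (S.nJ i 1 * x * (S.nJ i 1)⁻¹) * d⁻¹ by group]
  refine Subgroup.mem_inf.mpr ⟨?_, mul_mem (mul_mem hds h1.2) (inv_mem hds)⟩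
  refine (Subgroup.mem_normalizer_iff.mp (C.diag_normalises _ (fun s hs => ?_) hd) _).mp h1.1
  obtain ⟨k, -, rfl⟩ := orb_neg h hi hs
  exact C.neg_lt _ (C.simple_lt _ (S.ok.graph.node_iter_lt hi' k))

/-- The normaliser of a root group in its opposite is trivial. -/
theorem xn_normalise {i : ℕ} (hi : i ∈ R) {y : GL D.Idx K} (hy : y ∈ Xn S i)
    (hn : ∀ z ∈ Xp S i, y * z * y⁻¹ ∈ Xp S i) : y = 1 := by
  have hi' := h.R_lt i hi
  obtain ⟨s, hs, rfl⟩ := mem_xn h hi hy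
  by_contra hy1
  have hs0 : s ≠ 0 := fun e => hy1 (by rw [e, S.oe_zero (C.neg_lt _ (C.simple_lt i hi'))])
  set t := -s⁻¹ with htdef
  have ht : S.Valid (D.simple i) t := S.valid_neg (S.valid_inv hs)
  have hts : -t⁻¹ = s := by rw [htdef, inv_neg, inv_inv, neg_neg]
  set x := S.oe (D.simple i) t with hx
  set y := S.oe (D.neg (D.simple i)) s with hy'
  set N := S.nJ i t with hN
  have eN : N = x * y * x := by rw [hN, hx, hy', ← hts]; rfl
  obtain ⟨hz, hz1⟩ := xp_ne_bot h hi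
  set z := S.oe (D.simple i) (1 : K) with hzdef
  have hcomm : x * z * x⁻¹ = z := by
    rw [hx, hzdef, S.oe_add (C.pos_simple hi'), add_comm t 1, ← S.oe_add (C.pos_simple hi'), mul_inv_cancel_right]
  have h1 : N * z * N⁻¹ ∈ Xn S i := by
    rw [← cj_nJ_t h hi ht (neg_ne_zero.mpr (inv_ne_zero hs0))]
    exact ⟨z, hz, rfl⟩
  have h2 : N * z * N⁻¹ ∈ Xp S i := by
    rw [eN, show x * y * x * z * (x * y * x)⁻¹ = x * (y * (x * z * x⁻¹) * y⁻¹) * x⁻¹ by group, hcomm]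
    exact mul_mem (mul_mem (oe_mem_xp h hi ht) (hn z hz)) (inv_mem (oe_mem_xp h hi ht))
  exact hz1 (conj_eq_one_iff.mp (bt_inf_vt (ut_le_bt (xp_le_ut h hi h2)) (xn_le_vt h hi h1)))

/-- Conjugation by an element of the orbit torus. -/
theorem hI_conj {i : ℕ} (hi : i < D.rank) {j : ℕ} (hj : j < D.rank) {c : K} (hc : S.Valid (D.simple i) c)
    (hc0 : c ≠ 0) {m : ℤ} (hm : D.cartan i (D.simple j) = m)
    (h0 : ∀ k < S.G.nper i, 0 < k → D.cartan (S.G.nodeF^[k] i) (D.simple j) = 0) (t : K) :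
    (S.nJ i c * S.nJ i (-1)) * S.oe (D.simple j) t * (S.nJ i c * S.nJ i (-1))⁻¹ =
      S.oe (D.simple j) (c ^ m * t) := by
  refine S.conj_oe (S.small_le_fixed (mul_mem (S.nJ_mem hi hc) (S.nJ_mem hi (S.valid_neg (S.valid_one _))))) rfl ?_
  have hs := C.simple_lt j hj
  obtain ⟨q, hq⟩ : ∃ q, S.G.nper i = q + 1 :=
    ⟨S.G.nper i - 1, by have := S.ok.per_simple hi ▸ S.ok.per_pos (D.simple i); omega⟩
  have step : ∀ k, ∀ v : K, C.hu (D.simple (S.G.nodeF^[k] i)) ((S.τ)^[k] c) * C.xu (D.simple j) v =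
      C.xu (D.simple j) (((S.τ)^[k] c) ^ D.cartan (S.G.nodeF^[k] i) (D.simple j) * v) *
        C.hu (D.simple (S.G.nodeF^[k] i)) ((S.τ)^[k] c) := fun k v => by
    have hk := S.ok.graph.node_iter_lt hi k
    rw [C.hu_conj_xu (C.simple_lt _ hk) hs (by rw [← RingHom.coe_pow]; exact (map_ne_zero _).mpr hc0), pairChar,
      C.pairInt_simple hk]
  rw [S.hJ_eq hi, hq, List.range_succ_eq_map, List.map_cons, List.prod_cons, List.map_map]
  set Q := ((List.range q).map ((fun k => C.hu (D.simple (S.G.nodeF^[k] i)) ((S.τ)^[k] c)) ∘ Nat.succ)).prod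
  have hQ : Commute Q (C.xu (D.simple j) t) := Commute.list_prod_left _ _ fun x hx => by
    obtain ⟨k, hk, rfl⟩ := List.mem_map.mp hx
    have := step (k + 1) t
    rw [h0 (k + 1) (by rw [hq]; have := List.mem_range.mp hk; omega) (Nat.succ_pos k), zpow_zero, one_mul] at this
    exact this
  have e0 := step 0 t
  simp only [Function.iterate_zero, id, hm] at e0 ⊢
  rw [mul_inv_eq_iff_eq_mul, mul_assoc, hQ.eq, ← mul_assoc, e0, mul_assoc]

variable (hrig : Rigid D S.G R)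
include hrig
variable {θ : MulAut ↥S.small} (hU : Im θ (Ut S) (Ut S)) (hV : Im θ (Vt S) (Vt S))
include hU hV

theorem exists_param {i : ℕ} (hi : i ∈ R) :
    ∃ g : K → K, (∀ t, S.Valid (D.simple i) t → S.Valid (D.simple i) (g t) ∧
        ap θ (S.oe (D.simple i) t) = S.oe (D.simple i) (g t)) ∧
      (∀ a b, S.Valid (D.simple i) a → S.Valid (D.simple i) b → g (a + b) = g a + g b) ∧
      (∀ a b, S.Valid (D.simple i) a → S.Valid (D.simple i) b → g a = g b → a = b) ∧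
      ∀ t, S.Valid (D.simple i) t → t ≠ 0 →
        ap θ (S.oe (D.neg (D.simple i)) (-t⁻¹)) = S.oe (D.neg (D.simple i)) (-(g t)⁻¹) := by
  classical
  have hi' := h.R_lt i hi
  have hr := C.pos_simple hi'
  obtain ⟨hXp, hXn⟩ := stable_root h hU hV hrig hi
  have hm : ∀ {t}, S.Valid (D.simple i) t → S.oe (D.simple i) t ∈ S.small := fun ht => S.oe_simple_mem hi' ht
  have ex : ∀ t, ∃ v, S.Valid (D.simple i) t →
      S.Valid (D.simple i) v ∧ ap θ (S.oe (D.simple i) t) = S.oe (D.simple i) v := fun t => by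
    by_cases ht : S.Valid (D.simple i) t
    · obtain ⟨v, hv, e⟩ := mem_xp h hi ((hXp _ (hm ht)).mpr (oe_mem_xp h hi ht))
      exact ⟨v, fun _ => ⟨hv, e⟩⟩
    · exact ⟨0, fun e => absurd e ht⟩
  choose g hg using ex
  have hinj : ∀ a b, S.Valid (D.simple i) a → S.Valid (D.simple i) b → g a = g b → a = b := fun a b ha hb e =>
    S.oe_inj hr (ap_inj θ (hm ha) (hm hb) (by rw [(hg a ha).2, (hg b hb).2, e]))
  refine ⟨g, hg, fun a b ha hb => S.oe_inj hr ?_, hinj, fun t ht ht0 => ?_⟩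
  · rw [← (hg _ (valid_add ha hb)).2, ← S.oe_add hr, ap_mul θ (hm ha) (hm hb), (hg a ha).2, (hg b hb).2,
      S.oe_add hr]
  have hg0 : g t ≠ 0 := fun e => ht0 (hinj t 0 ht (valid_zero _) (by
    have h0 : g 0 = 0 := S.oe_inj hr (by
      rw [← (hg 0 (valid_zero _)).2, S.oe_zero hr.1, ap_one])
    rw [e, h0]))
  obtain ⟨hgv, hgt⟩ := hg t ht
  have hyv : S.Valid (D.simple i) (-t⁻¹) := S.valid_neg (S.valid_inv ht)
  set y := ap θ (S.oe (D.neg (D.simple i)) (-t⁻¹)) with hy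
  set y' := S.oe (D.neg (D.simple i)) (-(g t)⁻¹) with hy'
  set x' := S.oe (D.simple i) (g t) with hx'
  have hyX : y ∈ Xn S i := (hXn _ (S.oe_neg_simple_mem hi' hyv)).mpr (oe_mem_xn h hi hyv)
  have hy'X : y' ∈ Xn S i := oe_mem_xn h hi (S.valid_neg (S.valid_inv hgv))
  have hM : ap θ (S.nJ i t) = x' * y * x' := by
    unfold Twist.nJ
    rw [ap_mul θ (mul_mem (hm ht) (S.oe_neg_simple_mem hi' hyv)) (hm ht),
      ap_mul θ (hm ht) (S.oe_neg_simple_mem hi' hyv), hgt]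
  have eN' : S.nJ i (g t) = x' * y' * x' := rfl
  have hmap : ∀ z ∈ Xp S i, x' * y * z * (x' * y)⁻¹ ∈ Xn S i := by
    intro z hz
    have hzc : x' * z * x'⁻¹ = z := by
      obtain ⟨a, -, rfl⟩ := mem_xp h hi hz
      rw [hx', S.oe_add hr, add_comm (g t) a, ← S.oe_add hr, mul_inv_cancel_right]
    set z₀ := ap θ⁻¹ z
    have hz₀ : z₀ ∈ Xp S i := by rw [← hXp _ (ap_mem _ _), ap_symm' θ hz.2]; exact hz
    have h1 : S.nJ i t * z₀ * (S.nJ i t)⁻¹ ∈ Xn S i := cj_nJ_t h hi ht ht0 ▸ ⟨z₀, hz₀, rfl⟩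
    have h2 := (hXn _ h1.2).mpr h1
    rw [ap_conj θ (S.nJ_mem hi' ht) hz₀.2, hM, ap_symm' θ hz.2,
      show x' * y * x' * z * (x' * y * x')⁻¹ = x' * y * (x' * z * x'⁻¹) * (x' * y)⁻¹ by group, hzc] at h2
    exact h2
  refine (inv_mul_eq_one.mp (xn_normalise h hi (mul_mem (inv_mem hy'X) hyX) fun z hz => ?_)).symm
  obtain ⟨z₁, hz₁, e⟩ : x' * y * z * (x' * y)⁻¹ ∈ cj (S.nJ i (g t)) (Xp S i) :=
    (cj_nJ_t h hi hgv hg0).symm ▸ hmap z hz
  have hz1c : x' * z₁ * x'⁻¹ = z₁ := by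
    obtain ⟨a, -, rfl⟩ := mem_xp h hi hz₁
    rw [hx', S.oe_add hr, add_comm (g t) a, ← S.oe_add hr, mul_inv_cancel_right]
  simp only [MulEquiv.coe_toMonoidHom, MulAut.conj_apply] at e
  rw [eN', show x' * y' * x' * z₁ * (x' * y' * x')⁻¹ = x' * y' * (x' * z₁ * x'⁻¹) * (x' * y')⁻¹ by group, hz1c] at e
  suffices hzz : y'⁻¹ * y * z * (y'⁻¹ * y)⁻¹ = z₁ by rw [hzz]; exact hz₁
  calc y'⁻¹ * y * z * (y'⁻¹ * y)⁻¹ = (x' * y')⁻¹ * (x' * y * z * (x' * y)⁻¹) * (x' * y') := by group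
    _ = (x' * y')⁻¹ * (x' * y' * z₁ * (x' * y')⁻¹) * (x' * y') := by rw [e]
    _ = z₁ := by group

/-- A normalised automorphism is a field automorphism. -/
theorem eq_field {i₀ : ℕ} (hlink : Linked D S.G R i₀)
    (hone : ∀ i ∈ R, ap θ (S.oe (D.simple i) (1 : K)) = S.oe (D.simple i) 1) :
    ∃ σ : K ≃+* K, θ = fieldAut h σ := by
  classical
  have := h.fin
  have := h.char
  have : Fact p.Prime := ⟨h.prime⟩
  have ex : ∀ i, ∃ g : K → K, i ∈ R → (∀ t, S.Valid (D.simple i) t → S.Valid (D.simple i) (g t) ∧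
        ap θ (S.oe (D.simple i) t) = S.oe (D.simple i) (g t)) ∧
      (∀ a b, S.Valid (D.simple i) a → S.Valid (D.simple i) b → g (a + b) = g a + g b) ∧
      (∀ a b, S.Valid (D.simple i) a → S.Valid (D.simple i) b → g a = g b → a = b) ∧
      ∀ t, S.Valid (D.simple i) t → t ≠ 0 →
        ap θ (S.oe (D.neg (D.simple i)) (-t⁻¹)) = S.oe (D.neg (D.simple i)) (-(g t)⁻¹) := fun i => by
    by_cases hi : i ∈ R
    · obtain ⟨g, hg⟩ := exists_param h hrig hU hV hi
      exact ⟨g, fun _ => hg⟩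
    · exact ⟨id, fun e => absurd e hi⟩
  choose g hg using ex
  have g1 : ∀ i ∈ R, g i 1 = 1 := fun i hi => S.oe_inj (C.pos_simple (h.R_lt i hi))
    (((hg i hi).1 1 (S.valid_one _)).2.symm.trans (hone i hi))
  have g0 : ∀ i ∈ R, g i 0 = 0 := fun i hi => by
    have := (hg i hi).2.1 0 0 (valid_zero _) (valid_zero _)
    rwa [add_zero, left_eq_add] at this
  have gneg : ∀ i ∈ R, g i (-1) = -1 := fun i hi => by
    have := (hg i hi).2.1 (-1) 1 (S.valid_neg (S.valid_one _)) (S.valid_one _)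
    rw [neg_add_cancel, g0 i hi, g1 i hi] at this
    exact eq_neg_of_add_eq_zero_left this.symm
  have gne : ∀ i ∈ R, ∀ t, S.Valid (D.simple i) t → t ≠ 0 → g i t ≠ 0 := fun i hi t ht ht0 e =>
    ht0 ((hg i hi).2.2.1 t 0 ht (valid_zero _) (e.trans (g0 i hi).symm))
  -- the orbit monomial elements
  have hnJ : ∀ i ∈ R, ∀ t, S.Valid (D.simple i) t → t ≠ 0 → ap θ (S.nJ i t) = S.nJ i (g i t) := by
    intro i hi t ht ht0
    have hi' := h.R_lt i hi
    obtain ⟨h1, -, -, h4⟩ := hg i hi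
    have hn := S.oe_neg_simple_mem hi' (S.valid_neg (S.valid_inv ht))
    unfold Twist.nJ
    rw [ap_mul θ (mul_mem (S.oe_simple_mem hi' ht) hn) (S.oe_simple_mem hi' ht),
      ap_mul θ (S.oe_simple_mem hi' ht) hn, (h1 t ht).2, h4 t ht ht0]
  -- the orbit tori
  have hchar : ∀ i ∈ R, ∀ j ∈ R, ∀ m : ℤ, D.cartan i (D.simple j) = m →
      (∀ k < S.G.nper i, 0 < k → D.cartan (S.G.nodeF^[k] i) (D.simple j) = 0) →
      ∀ c t, S.Valid (D.simple i) c → c ≠ 0 → S.Valid (D.simple j) t → S.Valid (D.simple j) (c ^ m * t) →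
        g j (c ^ m * t) = g i c ^ m * g j t := by
    intro i hi j hj m hm h0 c t hc hc0 ht hct
    have hi' := h.R_lt i hi
    have hj' := h.R_lt j hj
    obtain ⟨hgc, -⟩ := (hg i hi).1 c hc
    have e := hI_conj h hi' hj' hc hc0 hm h0 t
    have hn1 := S.nJ_mem hi' (S.valid_neg (S.valid_one (D.simple i)))
    have hH : S.nJ i c * S.nJ i (-1 : K) ∈ S.small := mul_mem (S.nJ_mem hi' hc) hn1
    have e1 : ap θ ((S.nJ i c * S.nJ i (-1)) * S.oe (D.simple j) t * (S.nJ i c * S.nJ i (-1))⁻¹) =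
        ap θ (S.oe (D.simple j) (c ^ m * t)) := by rw [e]
    rw [ap_conj θ hH (S.oe_simple_mem hj' ht), ap_mul θ (S.nJ_mem hi' hc) hn1, hnJ i hi c hc hc0,
      hnJ i hi (-1) (S.valid_neg (S.valid_one _)) (neg_ne_zero.mpr one_ne_zero), gneg i hi,
      ((hg j hj).1 t ht).2, ((hg j hj).1 _ hct).2,
      hI_conj h hi' hj' hgc (gne i hi c hc hc0) hm h0] at e1
    exact (S.oe_inj (C.pos_simple hj') e1).symm
  -- squares
  have hsq : ∀ i ∈ R, ∀ c t, S.Valid (D.simple i) c → S.Valid (D.simple i) t →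
      g i (c ^ 2 * t) = g i c ^ 2 * g i t := by
    intro i hi c t hc ht
    by_cases hc0 : c = 0
    · simp [hc0, g0 i hi]
    have hi' := h.R_lt i hi
    have h0 : ∀ k < S.G.nper i, 0 < k → D.cartan (S.G.nodeF^[k] i) (D.simple i) = 0 := fun k hk hk0 =>
      (S.ok.orth i hi' _ (TwistOK.mem_ow.mpr ⟨k, hk, rfl⟩) i (S.ok.self_mem_ow hi')
        (fun e => S.node_iter_ne hi' hk (by omega : 0 < S.G.nper i) (by omega) e)).1
    have := hchar i hi i hi 2 (C.cartan_diag i hi') h0 c t hc hc0 ht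
      (by rw [zpow_ofNat]; exact valid_mul (pow_two c ▸ valid_mul hc hc) ht)
    rwa [zpow_ofNat, zpow_ofNat] at this
  have hmul : ∀ i ∈ R, ∀ a b, S.Valid (D.simple i) a → S.Valid (D.simple i) b →
      g i (a * b) = g i a * g i b := by
    intro i hi a b ha hb
    obtain ⟨-, hadd, -, -⟩ := hg i hi
    have hva : ∀ {x y}, S.Valid (D.simple i) x → S.Valid (D.simple i) y → S.Valid (D.simple i) (x * y) :=
      fun hx hy => valid_mul hx hy
    by_cases h2 : (2 : K) = 0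
    · haveI : CharP K 2 := CharTwo.of_one_ne_zero_of_two_eq_zero one_ne_zero h2
      obtain ⟨c, hc⟩ : ∃ c : K, c ^ 2 = a :=
        (Finite.injective_iff_surjective.mp fun x y (e : x ^ 2 = y ^ 2) => CharTwo.sq_injective e) a
      have hcv : S.Valid (D.simple i) c := by
        unfold Twist.Valid at ha ⊢
        refine CharTwo.sq_injective ?_
        show ((S.τ)^[S.G.per (D.simple i)] c) ^ 2 = c ^ 2
        rw [← iterate_map_pow S.τ, hc, ha]
      have e1 := hsq i hi c b hcv hb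
      have e2 := hsq i hi c 1 hcv (S.valid_one _)
      rw [mul_one, g1 i hi, mul_one, hc] at e2
      rw [hc, ← e2] at e1
      exact e1
    · have hc1 : S.Valid (D.simple i) (a + 1) := valid_add ha (S.valid_one _)
      have e1 := hsq i hi (a + 1) b hc1 hb
      rw [hadd a 1 ha (S.valid_one _), g1 i hi,
        show (a + 1) ^ 2 * b = a ^ 2 * b + ((a * b + a * b) + b) by ring,
        hadd _ _ (hva (pow_two a ▸ hva ha ha) hb) (valid_add (valid_add (hva ha hb) (hva ha hb)) hb),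
        hadd _ _ (valid_add (hva ha hb) (hva ha hb)) hb, hadd _ _ (hva ha hb) (hva ha hb), hsq i hi a b ha hb] at e1
      have : (2 : K) * (g i (a * b) - g i a * g i b) = 0 := by linear_combination e1
      exact sub_eq_zero.mp ((mul_eq_zero.mp this).resolve_left h2)
  obtain ⟨hi₀, hfull, hprop⟩ := hlink
  have hall : ∀ t : K, S.Valid (D.simple i₀) t := fun t =>
    S.valid_of_per_ord (by rw [S.ok.per_simple (h.R_lt i₀ hi₀), hfull]) t
  have hinj₀ : Function.Injective (g i₀) := fun a b e => (hg i₀ hi₀).2.2.1 a b (hall a) (hall b) e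
  let σ : K ≃+* K :=
    { Equiv.ofBijective (g i₀) ⟨hinj₀, Finite.injective_iff_surjective.mp hinj₀⟩ with
      map_mul' := fun a b => hmul i₀ hi₀ a b (hall a) (hall b)
      map_add' := fun a b => (hg i₀ hi₀).2.1 a b (hall a) (hall b) }
  have hσ : ∀ i ∈ R, ∀ t, S.Valid (D.simple i) t → g i t = σ t := by
    refine hprop (fun i => ∀ t, S.Valid (D.simple i) t → g i t = σ t) (fun t _ => rfl) ?_
    intro i hi j hj ⟨hm, h0, hper⟩ hPj c hc
    by_cases hc0 : c = 0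
    · rw [hc0, g0 i hi, map_zero]
    have hcj : S.Valid (D.simple j) c := by
      rcases hper with e | e
      · exact S.valid_of_per_ord (by rw [S.ok.per_simple (h.R_lt j hj), e]) c
      · rw [S.valid_iff_nper (h.R_lt j hj), e, ← S.valid_iff_nper (h.R_lt i hi)]
        exact hc
    have hv : S.Valid (D.simple j) (c ^ (-1 : ℤ) * 1) := by
      rw [zpow_neg_one, mul_one]; exact S.valid_inv hcj
    have e := hchar i hi j hj (-1) hm h0 c 1 hc hc0 (S.valid_one _) hv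
    rw [zpow_neg_one, zpow_neg_one, mul_one, g1 j hj, mul_one, hPj _ (S.valid_inv hcj), map_inv₀, inv_inj] at e
    exact e.symm
  refine ⟨σ, aut_ext h fun i hi t ht => ?_⟩
  obtain ⟨e1, e2⟩ := fieldAut_oe h σ hi ht
  rw [e1, e2]
  refine ⟨by rw [((hg i hi).1 t ht).2, hσ i hi t ht], ?_⟩
  by_cases ht0 : t = 0
  · rw [ht0, map_zero, S.oe_zero (C.neg_lt _ (C.simple_lt i (h.R_lt i hi))), ap_one]
  have hv : S.Valid (D.simple i) (-t⁻¹) := S.valid_neg (S.valid_inv ht)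
  have := (hg i hi).2.2.2 _ hv (neg_ne_zero.mpr (inv_ne_zero ht0))
  rwa [inv_neg, inv_inv, neg_neg, hσ i hi _ hv, map_neg, map_inv₀, inv_neg, inv_inv, neg_neg] at this

end Cfsg.Agent.LeadWork.TwOut
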