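/-
Twisted groups: the order of the outer automorphism group.
-/
import Cfsg.Agent.LeadWork.TwOutParams
import Cfsg.Prelude.Def_KGroupFacts

set_option autoImplicit false
set_option maxRecDepth 100000

universe u

namespace Cfsg.Agent.LeadWork.TwOut

open Cfsg.Lie Cfsg.Agent.Chev Cfsg.Agent.LeadWork
open scoped Matrix MatrixGroups

variable {D : ChevalleyDatum} {K : Type u} [Field K] {C : Cert.{u} D} {M : CoxeterMatrix (Fin D.rank)}
  {S : Twist C K} {p f : ℕ} {R L0 : List ℕ} (h : Ctx S M p f R L0)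
include h

theorem torus_scalar {x : GL D.Idx K} (hx : x ∈ D.diagonalSubgroup K ⊓ S.small) {i : ℕ} (hi : i ∈ R) :
    ∃ c : ↥(vU S i), ∀ t, x * S.oe (D.simple i) t * x⁻¹ = S.oe (D.simple i) (((c : Kˣ) : K) * t) ∧
      x * S.oe (D.neg (D.simple i)) t * x⁻¹ = S.oe (D.neg (D.simple i)) ((((c : Kˣ) : K))⁻¹ * t) := by
  have hi' := h.R_lt i hi
  have hs := C.simple_lt i hi'
  obtain ⟨χ, hχ, hne, e⟩ := C.diagonal_char hx.1
  have hc : ∀ r < D.nroots, ∀ t, x * C.xu r t * x⁻¹ = C.xu r (χ r * t) := fun r hr t => by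
    rw [mul_inv_eq_iff_eq_mul]
    exact Units.ext (by simp [e, C.dMat_conj hχ hr t])
  have hfix : S.sigma x = x := S.small_le_fixed hx.2
  have hpos : ∀ t, x * S.oe (D.simple i) t * x⁻¹ = S.oe (D.simple i) (χ (D.simple i) * t) := fun t =>
    S.conj_oe hfix rfl (hc _ hs t)
  have hv : S.Valid (D.simple i) (χ (D.simple i)) := by
    have hm := S.oe_simple_mem (K := K) hi' (S.valid_one _)
    have h1 : x * S.oe (D.simple i) 1 * x⁻¹ ∈ Xp S i := by
      refine Subgroup.mem_inf.mpr ⟨?_, mul_mem (mul_mem hx.2 hm) (inv_mem hx.2)⟩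
      rw [hpos]
      exact S.oe_mem_span hs _
    obtain ⟨v, hv, ev⟩ := mem_xp h hi h1
    rw [hpos, mul_one] at ev
    rwa [S.oe_inj (C.pos_simple hi') ev]
  refine ⟨⟨Units.mk0 _ (hne _), hv⟩, fun t => ⟨hpos t, ?_⟩⟩
  have hn := C.neg_lt _ hs
  rw [S.conj_oe hfix rfl (hc _ hn t)]
  congr 1
  show χ (D.neg (D.simple i)) * t = (χ (D.simple i))⁻¹ * t
  rw [eq_inv_of_mul_eq_one_left (hχ.neg _ hs)]

/-- The scalars by which the torus acts on the orbit root groups. -/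
noncomputable def chiH : ↥(D.diagonalSubgroup K ⊓ S.small) →* Lam S R :=
  MonoidHom.mk' (fun x i => (torus_scalar h x.2 i.2).choose) fun x y => funext fun i => by
    have hs := h.R_lt i.1 i.2
    refine Subtype.ext (Units.ext (S.oe_inj (C.pos_simple hs) ?_))
    have hx := (torus_scalar h x.2 i.2).choose_spec
    have hy := (torus_scalar h y.2 i.2).choose_spec
    have hxy := (torus_scalar h (x * y).2 i.2).choose_spec
    simp only [Pi.mul_apply, Subgroup.coe_mul, Units.val_mul]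
    have e := (hxy 1).1
    conv_lhs at e => simp only [Subgroup.coe_mul]
    rw [show (x : GL D.Idx K) * y * S.oe (D.simple i.1) 1 * ((x : GL D.Idx K) * y)⁻¹ =
      (x : GL D.Idx K) * ((y : GL D.Idx K) * S.oe (D.simple i.1) 1 * (y : GL D.Idx K)⁻¹) * (x : GL D.Idx K)⁻¹ by group,
      (hy 1).1, (hx _).1, mul_one, mul_one] at e
    exact e.symm

theorem chiH_spec (x : ↥(D.diagonalSubgroup K ⊓ S.small)) {i : ℕ} (hi : i ∈ R) (t : K) :
    (x : GL D.Idx K) * S.oe (D.simple i) t * (x : GL D.Idx K)⁻¹ =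
        S.oe (D.simple i) (((chiH h x ⟨i, hi⟩ : Kˣ) : K) * t) ∧
      (x : GL D.Idx K) * S.oe (D.neg (D.simple i)) t * (x : GL D.Idx K)⁻¹ =
        S.oe (D.neg (D.simple i)) ((((chiH h x ⟨i, hi⟩ : Kˣ) : K))⁻¹ * t) :=
  (torus_scalar h x.2 hi).choose_spec t

theorem chiH_inj : Function.Injective (chiH h) := by
  rw [injective_iff_map_eq_one]
  intro x hx
  set x' : ↥S.small := ⟨x, x.2.2⟩
  have hconj : MulAut.conj x' = 1 := by
    refine aut_ext h fun i hi t ht => ?_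
    have hi' := h.R_lt i hi
    obtain ⟨e1, e2⟩ := chiH_spec h x hi t
    rw [hx] at e1 e2
    simp only [Pi.one_apply, OneMemClass.coe_one, Units.val_one, inv_one, one_mul] at e1 e2
    rw [ap_inner x' (S.oe_simple_mem hi' ht), ap_inner x' (S.oe_neg_simple_mem hi' ht),
      ap_id (S.oe_simple_mem hi' ht), ap_id (S.oe_neg_simple_mem hi' ht)]
    exact ⟨e1, e2⟩
  have hc : x' ∈ Subgroup.center ↥S.small := Subgroup.mem_center_iff.mpr fun g => by
    have := congrArg (fun φ : MulAut ↥S.small => φ g) hconj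
    simp only [MulAut.conj_apply, MulAut.one_apply] at this
    conv_lhs => rw [← this]
    group
  haveI := h.simple.1
  rcases Subgroup.Normal.eq_bot_or_eq_top (H := Subgroup.center ↥S.small) inferInstance with e | e
  · rw [e, Subgroup.mem_bot] at hc
    exact Subtype.ext (congrArg (fun y : ↥S.small => (y : GL D.Idx K)) hc)
  · refine absurd ⟨⟨fun a b => ?_⟩⟩ h.simple.2
    exact (Subgroup.mem_center_iff.mp (e ▸ Subgroup.mem_top b) a)

variable (hst : Suzuki.ChainSteps D)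
include hst

theorem conj_eq_diag (x : ↥(D.diagonalSubgroup K ⊓ S.small)) :
    MulAut.conj (⟨x, x.2.2⟩ : ↥S.small) = diagHom h hst (chiH h x) := by
  refine aut_ext h fun i hi t ht => ?_
  have hi' := h.R_lt i hi
  obtain ⟨e1, e2⟩ := chiH_spec h x hi t
  obtain ⟨d1, d2⟩ := diagHom_oe h hst (chiH h x) hi ht
  rw [ap_inner _ (S.oe_simple_mem hi' ht), ap_inner _ (S.oe_neg_simple_mem hi' ht), d1, d2]
  exact ⟨e1, e2⟩

omit hst in
theorem inner_stable {g : ↥S.small} (hU : Im (MulAut.conj g) (Ut S) (Ut S))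
    (hV : Im (MulAut.conj g) (Vt S) (Vt S)) : (g : GL D.Idx K) ∈ D.diagonalSubgroup K := by
  have hB : (g : GL D.Idx K) ∈ Bt S := normaliser_ut h g.2 fun u hu => by
    rw [← ap_inner g hu.2]; exact (hU u hu.2).mpr hu
  set n := S.nSeq (K := K) L0
  have hn : n ∈ S.small := S.nSeq_mem h.L0_lt
  have hm : n⁻¹ * (g : GL D.Idx K) * n ∈ Bt S := normaliser_ut h (mul_mem (mul_mem (inv_mem hn) g.2) hn) fun u hu => by
    have h1 : n * u * n⁻¹ ∈ Vt S := by rw [← cj_long_ut h]; exact ⟨u, hu, rfl⟩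
    have h2 := (hV _ h1.2).mpr h1
    rw [ap_inner g h1.2, ← cj_long_ut h, mem_cj] at h2
    convert h2 using 1
    simp only [n]; group
  obtain ⟨a, ha, d, hd, e⟩ := C.mem_borel.mp (Subgroup.mem_inf.mp hm).1
  rw [← C.borel_inf_negBorel]
  refine Subgroup.mem_inf.mpr ⟨(Subgroup.mem_inf.mp hB).1, ?_⟩
  rw [show (g : GL D.Idx K) = (n * a * n⁻¹) * (n * d * n⁻¹) by
    rw [show n * a * n⁻¹ * (n * d * n⁻¹) = n * (a * d) * n⁻¹ by group, e]; group]
  refine Subgroup.mul_mem_sup ?_ (C.monomial_conj_diagonal (S.nSeq_monomial h.L0_lt) hd)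
  have hle : spanGroup D K D.IsPosRoot ≤ (spanGroup D K D.IsNegRoot).comap (MulAut.conj n).toMonoidHom := by
    refine C.span_le fun r hr t => ?_
    obtain ⟨c, -, ec⟩ := C.nWordElt_conj_xu (F := K) (S.oWord_lt h.L0_lt) hr.1
    simp only [Subgroup.mem_comap, MulEquiv.coe_toMonoidHom, MulAut.conj_apply, n, Twist.nSeq]
    rw [ec]
    exact C.xu_mem_span (P := D.IsNegRoot) (h.long r hr.1 hr) _
  exact hle ha

variable (hrig : Rigid D S.G R) {i₀ : ℕ} (hlink : Linked D S.G R i₀)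
include hrig hlink

omit hrig in
theorem eq_one_of_inner {l : Lam S R} {σ : K ≃+* K}
    (hinn : diagHom h hst l * fieldAut h σ ∈ Cfsg.Inn ↥S.small) : σ = 1 ∧ l ∈ (chiH h).range := by
  obtain ⟨g, hg⟩ := hinn
  obtain ⟨dU, dV⟩ := diagHom_stable h hst l
  obtain ⟨fU, fV⟩ := fieldAut_stable h σ
  have hd := inner_stable h (g := g) (hg ▸ dU.comp fU) (hg ▸ dV.comp fV)
  set x : ↥(D.diagonalSubgroup K ⊓ S.small) := ⟨g, Subgroup.mem_inf.mpr ⟨hd, g.2⟩⟩
  have key : ∀ i (hi : i ∈ R) (t : K), S.Valid (D.simple i) t →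
      ((l ⟨i, hi⟩ : Kˣ) : K) * σ t = ((chiH h x ⟨i, hi⟩ : Kˣ) : K) * t := by
    intro i hi t ht
    have hm := S.oe_simple_mem (h.R_lt i hi) ht
    have e1 : ap (diagHom h hst l * fieldAut h σ) (S.oe (D.simple i) t) = ap (MulAut.conj g) (S.oe (D.simple i) t) := by
      rw [hg]
    rw [← ap_ap _ _ hm, (fieldAut_oe h σ hi ht).1, ap_inner g hm,
      (diagHom_oe h hst l hi (show S.Valid (D.simple i) (σ t) from valid_map h σ.toRingHom ht)).1] at e1
    exact S.oe_inj (C.pos_simple (h.R_lt i hi)) (e1.trans (chiH_spec h x hi t).1)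
  have hl : l = chiH h x := funext fun ⟨i, hi⟩ => Subtype.ext (Units.ext (by
    have := key i hi 1 (S.valid_one _)
    rwa [map_one, mul_one, mul_one] at this))
  refine ⟨RingEquiv.ext fun t => ?_, ⟨x, hl.symm⟩⟩
  obtain ⟨hi₀, hfull, -⟩ := hlink
  have := key i₀ hi₀ t (S.valid_of_per_ord (by rw [S.ok.per_simple (h.R_lt i₀ hi₀), hfull]) t)
  rw [hl] at this
  exact mul_left_cancel₀ (Units.ne_zero _) this

theorem exists_decomp (θ : MulAut ↥S.small) :
    ∃ (l : Lam S R) (σ : K ≃+* K), (diagHom h hst l * fieldAut h σ)⁻¹ * θ ∈ Cfsg.Inn ↥S.small := by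
  classical
  obtain ⟨w, hU, hV⟩ := exists_normal_form h θ
  set φ := MulAut.conj w * θ with hφ
  have ex : ∀ i : {i : ℕ // i ∈ R}, ∃ c : ↥(vU S i.1),
      ap φ (S.oe (D.simple i.1) 1) = S.oe (D.simple i.1) ((c : Kˣ) : K) := fun i => by
    obtain ⟨g, hg, -, hinj, -⟩ := exists_param h hrig hU hV i.2
    obtain ⟨hv, e⟩ := hg 1 (S.valid_one _)
    have hne : g 1 ≠ 0 := fun e0 => one_ne_zero (S.oe_inj (C.pos_simple (h.R_lt i.1 i.2)) (by
      rw [e0, S.oe_zero (C.simple_lt _ (h.R_lt i.1 i.2)), ← ap_one φ] at e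
      rw [ap_inj φ (S.oe_simple_mem (h.R_lt i.1 i.2) (S.valid_one _)) (one_mem _) e,
        S.oe_zero (C.simple_lt _ (h.R_lt i.1 i.2))]) : (1 : K) = 0)
    exact ⟨⟨Units.mk0 _ hne, hv⟩, e⟩
  choose l hl using ex
  obtain ⟨dU, dV⟩ := diagHom_stable h hst l
  set ψ := (diagHom h hst l)⁻¹ * φ
  have hψ1 : ∀ i ∈ R, ap ψ (S.oe (D.simple i) (1 : K)) = S.oe (D.simple i) 1 := fun i hi => by
    have hm := S.oe_simple_mem (K := K) (h.R_lt i hi) (S.valid_one _)
    have e := (diagHom_oe h hst l hi (S.valid_one _)).1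
    rw [mul_one] at e
    rw [← ap_ap _ _ hm, hl ⟨i, hi⟩, ← e]
    exact ap_symm _ hm
  obtain ⟨σ, hσ⟩ := eq_field h hrig (dU.symm.comp hU) (dV.symm.comp hV) hlink hψ1
  refine ⟨l, σ, ?_⟩
  have e : θ = (MulAut.conj w)⁻¹ * (diagHom h hst l * fieldAut h σ) := by
    rw [← (show (diagHom h hst l)⁻¹ * (MulAut.conj w * θ) = fieldAut h σ from hσ)]; group
  rw [e, ← mul_assoc]
  have hn := (inferInstance : (Cfsg.Inn ↥S.small).Normal).conj_mem _
    (inv_mem (show MulAut.conj w ∈ Cfsg.Inn ↥S.small from ⟨_, rfl⟩)) (diagHom h hst l * fieldAut h σ)⁻¹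
  simpa [mul_assoc] using hn

/-- The outer automorphism group has order `[Λ : H] · |Aut K|`. -/
theorem card_out :
    Nat.card (Cfsg.Out ↥S.small) * Nat.card ↥(D.diagonalSubgroup K ⊓ S.small) =
      Nat.card (Lam S R) * Nat.card (K ≃+* K) := by
  let Fd : Lam S R →* Cfsg.Out ↥S.small := (QuotientGroup.mk' _).comp (diagHom h hst)
  let Fs : (K ≃+* K) →* Cfsg.Out ↥S.small := (QuotientGroup.mk' _).comp (fieldAut h)
  have hker : Fd.ker = (chiH h).range := by
    ext l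
    rw [MonoidHom.mem_ker]
    constructor
    · intro hl
      refine (eq_one_of_inner h hst hlink (σ := 1) ?_).2
      rw [map_one, mul_one]
      exact (QuotientGroup.eq_one_iff _).mp hl
    · rintro ⟨x, rfl⟩
      exact (QuotientGroup.eq_one_iff _).mpr ⟨⟨x, x.2.2⟩, conj_eq_diag h hst x⟩
  let Φ : ↥Fd.range × (K ≃+* K) → Cfsg.Out ↥S.small := fun q => q.1 * Fs q.2
  have hΦ : Function.Bijective Φ := by
    constructor
    · rintro ⟨⟨_, l, rfl⟩, σ⟩ ⟨⟨_, l', rfl⟩, σ'⟩ e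
      have e1 : Fd (l'⁻¹ * l) * Fs (σ * σ'⁻¹) = 1 := by
        rw [map_mul, map_inv, map_mul, map_inv]
        change Fd l * Fs σ = Fd l' * Fs σ' at e
        calc (Fd l')⁻¹ * Fd l * (Fs σ * (Fs σ')⁻¹) = (Fd l')⁻¹ * (Fd l * Fs σ) * (Fs σ')⁻¹ := by group
          _ = 1 := by rw [e]; group
      have hσ := (eq_one_of_inner h hst hlink ((QuotientGroup.eq_one_iff _).mp e1)).1
      have hσ' : σ = σ' := mul_inv_eq_one.mp hσ
      subst hσ'
      exact Prod.ext (Subtype.ext (mul_right_cancel e)) rfl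
    · intro q
      obtain ⟨θ, rfl⟩ := QuotientGroup.mk'_surjective _ q
      obtain ⟨l, σ, hl⟩ := exists_decomp h hst hrig hlink θ
      exact ⟨(⟨Fd l, l, rfl⟩, σ), QuotientGroup.eq.mpr hl⟩
  rw [← Nat.card_congr (Equiv.ofBijective Φ hΦ), Nat.card_prod, mul_right_comm,
    Nat.card_congr (MonoidHom.ofInjective (chiH_inj h)).toEquiv, ← hker, ← Subgroup.index_ker, mul_comm Fd.ker.index,
    Subgroup.card_mul_index]

end Cfsg.Agent.LeadWork.TwOut
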