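/-
The outer automorphism groups of the twisted groups of types D4 and E6.
-/
import Cfsg.Agent.LeadWork.TwOutCard
import Cfsg.Agent.Chev.TwistD4
import Cfsg.Agent.Chev.TwistE6
import Cfsg.Agent.Chev.TwistWeylData
import Cfsg.Agent.Suzuki.SzAut

set_option autoImplicit false
set_option maxRecDepth 100000

universe u

namespace Cfsg.Agent.LeadWork.TwOut

open Cfsg.Lie Cfsg.Agent.Chev
open scoped Matrix MatrixGroups

variable {K : Type u} [Field K]

theorem card_vU {D : ChevalleyDatum} {C : Cert.{u} D} {M : CoxeterMatrix (Fin D.rank)} {S : Twist C K} {p f : ℕ}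
    {R L0 : List ℕ} (h : Ctx S M p f R L0) {i : ℕ} (hi : i ∈ R) :
    Nat.card ↥(vU S i) = (p ^ f) ^ S.G.nper i - 1 := by
  classical
  have := h.fin
  rw [← S.ok.per_simple (h.R_lt i hi), ← S.card_valid h.cardOK (D.simple i)]
  let e : {t : K // S.Valid (D.simple i) t} ≃ Option ↥(vU S i) :=
    { toFun := fun t => if ht : t.1 = 0 then none else some ⟨Units.mk0 t.1 ht, t.2⟩
      invFun := fun o => match o with
        | none => ⟨0, valid_zero _⟩
        | some u => ⟨((u : Kˣ) : K), u.2⟩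
      left_inv := fun t => by
        by_cases ht : t.1 = 0
        · simp only [ht, dite_true]; exact Subtype.ext ht.symm
        · simp only [ht, dite_false]; rfl
      right_inv := fun o => by
        rcases o with _ | u
        · simp
        · simp only [Units.ne_zero, dite_false]
          exact congrArg some (Subtype.ext (Units.ext rfl)) }
  rw [Nat.card_congr e, Finite.card_option]
  omega

/-- The longest word of the twisted Weyl group of type D4. -/
def longD4 : List ℕ := [0, 1, 0, 1, 0, 1]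

/-- The longest word of the twisted Weyl group of type E6. -/
def longE6 : List ℕ := [0, 2, 3, 1, 2, 3, 0, 2, 3, 1, 0, 2, 3, 2, 0, 2, 3, 1, 2, 3, 2, 1, 3, 1]

theorem factD41 :
    ∀ i ∈ [0, 1], i < chevD4.rank := by
  decide +kernel

theorem factD42 :
    ∀ j < chevD4.rank, ∃ i ∈ [0, 1], j ∈ gD4a.ow i := by
  decide +kernel

theorem factD43 :
    ∀ i ∈ [0, 1], ∀ j ∈ [0, 1], i ∈ gD4a.ow j → i = j := by
  decide +kernel

theorem factD44 :
    ∀ a ∈ longD4, a < chevD4.rank := by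
  decide +kernel

theorem factD45 :
    ∀ r < chevD4.nroots, chevD4.IsPosRoot r → chevD4.IsNegRoot (act chevD4 (gD4a.oWord longD4) r) := by
  unfold ChevalleyDatum.IsPosRoot ChevalleyDatum.IsNegRoot
  decide +kernel

theorem factD46 :
    ∀ r < chevD4.nroots, chevD4.IsNegRoot r → chevD4.IsPosRoot (act chevD4 (gD4a.oWord longD4) r) := by
  unfold ChevalleyDatum.IsPosRoot ChevalleyDatum.IsNegRoot
  decide +kernel

theorem factD47 :
    ∀ i ∈ [0, 1], ∀ k < gD4a.nper i,
      act chevD4 (gD4a.oWord longD4) (chevD4.simple (gD4a.nodeF^[k] i)) ∈ gD4a.orbF (chevD4.neg (chevD4.simple i)) ∧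
      act chevD4 (gD4a.oWord longD4) (chevD4.neg (chevD4.simple (gD4a.nodeF^[k] i))) ∈ gD4a.orbF (chevD4.simple i) := by
  decide +kernel

theorem factD48 :
    ∀ i ∈ [0, 1], ∀ r < chevD4.nroots, chevD4.IsPosRoot r → chevD4.IsNegRoot (act chevD4 (gD4a.ow i) r) →
      r ∈ gD4a.orbF (chevD4.simple i) := by
  unfold ChevalleyDatum.IsPosRoot ChevalleyDatum.IsNegRoot
  decide +kernel

theorem factD49 :
    ∀ a < chevD4.rank, ∀ b < chevD4.rank, a ≠ b →
      chevD4.commTerms (chevD4.simple a) (chevD4.neg (chevD4.simple b)) = [] := by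
  decide +kernel

theorem factE61 :
    ∀ i ∈ [0, 1, 2, 3], i < chevE6.rank := by
  decide +kernel

theorem factE62 :
    ∀ j < chevE6.rank, ∃ i ∈ [0, 1, 2, 3], j ∈ gE6.ow i := by
  decide +kernel

theorem factE63 :
    ∀ i ∈ [0, 1, 2, 3], ∀ j ∈ [0, 1, 2, 3], i ∈ gE6.ow j → i = j := by
  decide +kernel

theorem factE64 :
    ∀ a ∈ longE6, a < chevE6.rank := by
  decide +kernel

theorem factE65 :
    ∀ r < chevE6.nroots, chevE6.IsPosRoot r → chevE6.IsNegRoot (act chevE6 (gE6.oWord longE6) r) := by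
  unfold ChevalleyDatum.IsPosRoot ChevalleyDatum.IsNegRoot
  decide +kernel

theorem factE66 :
    ∀ r < chevE6.nroots, chevE6.IsNegRoot r → chevE6.IsPosRoot (act chevE6 (gE6.oWord longE6) r) := by
  unfold ChevalleyDatum.IsPosRoot ChevalleyDatum.IsNegRoot
  decide +kernel

theorem factE67 :
    ∀ i ∈ [0, 1, 2, 3], ∀ k < gE6.nper i,
      act chevE6 (gE6.oWord longE6) (chevE6.simple (gE6.nodeF^[k] i)) ∈ gE6.orbF (chevE6.neg (chevE6.simple i)) ∧
      act chevE6 (gE6.oWord longE6) (chevE6.neg (chevE6.simple (gE6.nodeF^[k] i))) ∈ gE6.orbF (chevE6.simple i) := by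
  decide +kernel

theorem factE68 :
    ∀ i ∈ [0, 1, 2, 3], ∀ r < chevE6.nroots, chevE6.IsPosRoot r → chevE6.IsNegRoot (act chevE6 (gE6.ow i) r) →
      r ∈ gE6.orbF (chevE6.simple i) := by
  unfold ChevalleyDatum.IsPosRoot ChevalleyDatum.IsNegRoot
  decide +kernel

theorem factE69 :
    ∀ a < chevE6.rank, ∀ b < chevE6.rank, a ≠ b →
      chevE6.commTerms (chevE6.simple a) (chevE6.neg (chevE6.simple b)) = [] := by
  decide +kernel

theorem rigidD4 : Rigid chevD4 gD4a [0, 1] := by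
  intro π h1 _ _ i hi
  have key : ∀ i ∈ [0, 1], ∀ j ∈ [0, 1], gD4a.nper j = gD4a.nper i → j = i := by decide +kernel
  exact key i hi _ (h1 i hi).1 (h1 i hi).2

theorem rigidE6 : Rigid chevE6 gE6 [0, 1, 2, 3] := by
  intro π h1 hinj h3
  have kind : ∀ i ∈ [0, 1, 2, 3], ∀ j ∈ [0, 1, 2, 3], gE6.nper j = gE6.nper i →
      j = i ∨ (i = 0 ∧ j = 2) ∨ (i = 2 ∧ j = 0) ∨ (i = 1 ∧ j = 3) ∨ (i = 3 ∧ j = 1) := by decide +kernel
  have ho : Orth chevE6 gE6 1 0 ∧ Orth chevE6 gE6 1 2 ∧ Orth chevE6 gE6 0 3 := by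
    unfold Orth; decide +kernel
  have hn : ¬ FixOrb chevE6 gE6 3 2 ∧ ¬ FixOrb chevE6 gE6 2 3 := by
    unfold FixOrb ChevalleyDatum.IsPosRoot; decide +kernel
  have p : ∀ i ∈ [0, 1, 2, 3], π i = i ∨ (i = 0 ∧ π i = 2) ∨ (i = 2 ∧ π i = 0) ∨ (i = 1 ∧ π i = 3) ∨
      (i = 3 ∧ π i = 1) := fun i hi => kind i hi _ (h1 i hi).1 (h1 i hi).2
  have p1 : π 1 = 1 := by
    have e1 : π 1 = 1 ∨ π 1 = 3 := by have := p 1 (by decide); omega
    refine e1.resolve_right fun e => hn.1 ?_
    have f0 := h3 1 (by decide) 0 (by decide) (by decide) ho.1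
    have f2 := h3 1 (by decide) 2 (by decide) (by decide) ho.2.1
    rw [e] at f0 f2
    have hne : π 0 ≠ π 2 := fun e' => absurd (hinj 0 (by decide) 2 (by decide) e') (by decide)
    have a0 : π 0 = 0 ∨ π 0 = 2 := by have := p 0 (by decide); omega
    have a2 : π 2 = 0 ∨ π 2 = 2 := by have := p 2 (by decide); omega
    rcases a0 with a | a
    · rcases a2 with b | b
      · exact absurd (a.trans b.symm) hne
      · exact b ▸ f2
    · exact a ▸ f0
  have p3 : π 3 = 3 := by
    have := p 3 (by decide)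
    have hne : π 3 ≠ π 1 := fun e => absurd (hinj 3 (by decide) 1 (by decide) e) (by decide)
    omega
  have p0 : π 0 = 0 := by
    have e1 : π 0 = 0 ∨ π 0 = 2 := by have := p 0 (by decide); omega
    refine e1.resolve_right fun e => hn.2 ?_
    have f3 := h3 0 (by decide) 3 (by decide) (by decide) ho.2.2
    rwa [e, p3] at f3
  have p2 : π 2 = 2 := by
    have := p 2 (by decide)
    have hne : π 2 ≠ π 0 := fun e => absurd (hinj 2 (by decide) 0 (by decide) e) (by decide)
    omega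
  intro i hi
  simp only [List.mem_cons, List.not_mem_nil, or_false] at hi
  rcases hi with rfl | rfl | rfl | rfl <;> assumption

theorem linkedD4 : Linked chevD4 gD4a [0, 1] 0 := by
  have hl : Link chevD4 gD4a 1 0 ∧ gD4a.nper 0 = gD4a.ord := by unfold Link; decide +kernel
  refine ⟨by decide, hl.2, fun P h0 hs i hi => ?_⟩
  simp only [List.mem_cons, List.not_mem_nil, or_false] at hi
  rcases hi with rfl | rfl
  exacts [h0, hs 1 (by decide) 0 (by decide) hl.1 h0]

theorem linkedE6 : Linked chevE6 gE6 [0, 1, 2, 3] 0 := by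
  have hl : Link chevE6 gE6 2 0 ∧ Link chevE6 gE6 3 2 ∧ Link chevE6 gE6 1 3 ∧ gE6.nper 0 = gE6.ord := by
    unfold Link; decide +kernel
  refine ⟨by decide, hl.2.2.2, fun P h0 hs i hi => ?_⟩
  have h2 := hs 2 (by decide) 0 (by decide) hl.1 h0
  have h3 := hs 3 (by decide) 2 (by decide) hl.2.1 h2
  have h1 := hs 1 (by decide) 3 (by decide) hl.2.2.1 h3
  simp only [List.mem_cons, List.not_mem_nil, or_false] at hi
  rcases hi with rfl | rfl | rfl | rfl <;> assumption

variable [Fintype K] {p f : ℕ} [Fact p.Prime] [CharP K p]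

theorem out_D4 (hK : Fintype.card K = p ^ (3 * f)) (hf : 1 ≤ f) :
    Nat.card (Cfsg.Out ↥(twistedD4 K (p ^ f))) = 3 * f := by
  have hp : p.Prime := Fact.out
  have hq : IsPrimePow (p ^ f) := hp.isPrimePow.pow (by omega)
  have hK' : Fintype.card K = (p ^ f) ^ 3 := by rw [hK, ← pow_mul, mul_comm]
  obtain ⟨τ, hτ, e, hτq, hfix, -⟩ := exists_tD4 hq hK'
  have hT := D4_torus_card hq hK'
  have hS := D4_simple hq hK'
  rw [e] at hT hS ⊢
  have h : Ctx (tD4 τ hτ) coxeterD4 p f [0, 1] longD4 :=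
    { hM := coxD4, hT := D4_torusOK τ hτ, prime := hp, fpos := hf, char := inferInstance, fin := inferInstance
      cardOK := ⟨hfix, by rw [Nat.card_eq_fintype_card, hK']; rfl⟩
      tau := hτq
      R_lt := factD41, cover := factD42, uniq := factD43, L0_lt := factD44, long := factD45, long' := factD46, opp := factD47, inv_ow := factD48,
      mixed := factD49, simple := hS }
  have hc := card_out h (Suzuki.chainSteps (by simp)) rigidD4 linkedD4
  have hLam : Nat.card (Lam (tD4 τ hτ) [0, 1]) = ((p ^ f) ^ 3 - 1) * (p ^ f - 1) := by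
    rw [Nat.card_pi, ← Finset.prod_subtype (p := fun i => i ∈ [0, 1]) ({0, 1} : Finset ℕ) (fun i => by simp)
      (fun i => Nat.card ↥(vU (tD4 τ hτ) i)), Finset.prod_pair (by norm_num), card_vU h (by simp),
      card_vU h (by simp)]
    have : gD4a.nper 0 = 3 ∧ gD4a.nper 1 = 1 := by decide +kernel
    rw [show (tD4 τ hτ).G.nper 0 = 3 from this.1, show (tD4 τ hτ).G.nper 1 = 1 from this.2, pow_one]
  rw [hLam, hT, Cfsg.Agent.Suzuki.card_ringEquiv (p := p) (n := 3 * f) (by rw [Nat.card_eq_fintype_card, hK])] at hc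
  have hq2 : 2 ≤ p ^ f := hq.two_le
  have hid : (p ^ f - 1) ^ 2 * ((p ^ f) ^ 2 + p ^ f + 1) = ((p ^ f) ^ 3 - 1) * (p ^ f - 1) := by
    have h1 : 1 ≤ p ^ f := by omega
    have h3 : 1 ≤ (p ^ f) ^ 3 := Nat.one_le_pow _ _ h1
    zify [h1, h3]
    ring
  rw [hid, mul_comm] at hc
  refine Nat.eq_of_mul_eq_mul_left (Nat.mul_pos ?_ (by omega)) hc
  have : 2 ≤ (p ^ f) ^ 3 := le_trans hq2 (Nat.le_self_pow (by norm_num) _)
  omega

theorem out_E6 (hK : Fintype.card K = p ^ (2 * f)) (hf : 1 ≤ f) :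
    Nat.card (Cfsg.Out ↥(twistedE6 K (p ^ f))) = 2 * Nat.gcd 3 (p ^ f + 1) * f := by
  have hp : p.Prime := Fact.out
  have hq : IsPrimePow (p ^ f) := hp.isPrimePow.pow (by omega)
  have hK' : Fintype.card K = (p ^ f) ^ 2 := by rw [hK, ← pow_mul, mul_comm]
  obtain ⟨τ, hτ, e, hτq, hfix, -⟩ := exists_tE6 hq hK'
  have hT := E6_torus_card hq hK'
  have hS := E6_simple hq hK'
  rw [e] at hT hS ⊢
  have h : Ctx (tE6 τ hτ) CoxeterMatrix.E₆ p f [0, 1, 2, 3] longE6 :=
    { hM := coxE6, hT := E6_torusOK τ hτ, prime := hp, fpos := hf, char := inferInstance, fin := inferInstance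
      cardOK := ⟨hfix, by rw [Nat.card_eq_fintype_card, hK']; rfl⟩
      tau := hτq
      R_lt := factE61, cover := factE62, uniq := factE63, L0_lt := factE64, long := factE65, long' := factE66, opp := factE67, inv_ow := factE68,
      mixed := factE69, simple := hS }
  have hc := card_out h (Suzuki.chainSteps (by simp)) rigidE6 linkedE6
  have hLam : Nat.card (Lam (tE6 τ hτ) [0, 1, 2, 3]) = ((p ^ f) ^ 2 - 1) ^ 2 * (p ^ f - 1) ^ 2 := by
    rw [Nat.card_pi, ← Finset.prod_subtype (p := fun i => i ∈ [0, 1, 2, 3]) ({0, 1, 2, 3} : Finset ℕ) (fun i => by simp)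
      (fun i => Nat.card ↥(vU (tE6 τ hτ) i)), Finset.prod_insert (by decide), Finset.prod_insert (by decide),
      Finset.prod_insert (by decide), Finset.prod_singleton, card_vU h (by simp), card_vU h (by simp),
      card_vU h (by simp), card_vU h (by simp)]
    have : gE6.nper 0 = 2 ∧ gE6.nper 1 = 1 ∧ gE6.nper 2 = 2 ∧ gE6.nper 3 = 1 := by decide +kernel
    rw [show (tE6 τ hτ).G.nper 0 = 2 from this.1, show (tE6 τ hτ).G.nper 1 = 1 from this.2.1,
      show (tE6 τ hτ).G.nper 2 = 2 from this.2.2.1, show (tE6 τ hτ).G.nper 3 = 1 from this.2.2.2, pow_one]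
    ring
  rw [hLam, Cfsg.Agent.Suzuki.card_ringEquiv (p := p) (n := 2 * f) (by rw [Nat.card_eq_fintype_card, hK])] at hc
  set T := Nat.card ↥(chevE6.diagonalSubgroup K ⊓ (tE6 τ hτ).small)
  have h4 : ((p ^ f) ^ 2 - 1) ^ 2 * (p ^ f - 1) ^ 2 = Nat.gcd 3 (p ^ f + 1) * T := by
    rw [hT, show (p ^ f) ^ 2 - 1 = (p ^ f + 1) * (p ^ f - 1) by rw [← Nat.sq_sub_sq, one_pow]]
    ring
  rw [h4] at hc
  have hTpos : 0 < T := Nat.card_pos
  refine Nat.eq_of_mul_eq_mul_left hTpos ?_
  rw [mul_comm, hc]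
  ring

end Cfsg.Agent.LeadWork.TwOut
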