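/-
Counting unipotent elements of a finite Tits system through the alternating sums of the parabolic
permutation characters.
-/
import Cfsg.Agent.KnownA.Steinberg.BNChar

set_option autoImplicit false

namespace Cfsg.Agent.LeadWork.UnipotentBN

open Cfsg.Agent.Suzuki.BN Cfsg.Agent.KnownA.Steinberg

variable {G : Type*} [Group G] {P : Cfsg.BNPair G} {ι : Type*} {s : ι → G}

/-- The parabolic subgroup attached to a set of generators. -/
def par (P : Cfsg.BNPair G) (s : ι → G) (J : Finset ι) : Subgroup G := P.parabolic (s '' (J : Set ι))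

/-- A coset of `B` inside `P_J` in a cell shortened by every generator in `J`. -/
def IsTop (P : Cfsg.BNPair G) (s : ι → G) (J : Finset ι) (q : G ⧸ P.B) : Prop :=
  q.out ∈ par P s J ∧ ∀ i ∈ J, Dg P q.out⁻¹ (s i)

theorem B_le_par (J : Finset ι) : P.B ≤ par P s J := le_sup_left

theorem par_mono {K J : Finset ι} (h : K ⊆ J) : par P s K ≤ par P s J :=
  sup_le_sup_left (Subgroup.closure_mono (Set.image_mono (Finset.coe_subset.mpr h))) _

theorem out_mem_iff {K : Subgroup G} {H : Subgroup G} (hKH : K ≤ H) (g : G) :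
    ((g : G ⧸ K)).out ∈ H ↔ g ∈ H := by
  have h := hKH (out_spec K g)
  refine ⟨fun h' => ?_, fun h' => ?_⟩
  · simpa using mul_mem h' (inv_mem h)
  · simpa using mul_mem h' h

theorem isTop_mk (J : Finset ι) (g : G) :
    IsTop P s J (g : G ⧸ P.B) ↔ g ∈ par P s J ∧ ∀ i ∈ J, Dg P g⁻¹ (s i) := by
  simp only [IsTop, out_mem_iff (B_le_par J), dg_out]

theorem alt_sum_powerset {X : Type*} [Finite X] (D : X → ι → Prop) (J : Finset ι) :
    ∑ K ∈ J.powerset, (-1 : ℤ) ^ K.card * (Nat.card {q : X // ∀ i ∈ K, D q i} : ℤ) =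
      (Nat.card {q : X // ∀ i ∈ J, ¬ D q i} : ℤ) := by
  classical
  haveI := Fintype.ofFinite X
  have e : ∀ p : X → Prop, (Nat.card {q : X // p q} : ℤ) = ∑ q : X, if p q then 1 else 0 := by
    intro p
    rw [Nat.card_eq_fintype_card, Fintype.card_subtype, Finset.sum_boole]
  simp only [e, Finset.mul_sum]
  rw [Finset.sum_comm]
  refine Finset.sum_congr rfl fun q _ => ?_
  simp only [mul_ite, mul_one, mul_zero]
  rw [← Finset.sum_filter]
  have hset : (J.powerset.filter fun K : Finset ι => ∀ i ∈ K, D q i) = (J.filter fun i => D q i).powerset := by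
    ext K
    simp only [Finset.mem_filter, Finset.mem_powerset]
    exact ⟨fun h i hi => Finset.mem_filter.mpr ⟨h.1 hi, h.2 i hi⟩,
      fun h => ⟨fun i hi => (Finset.mem_filter.mp (h hi)).1, fun i hi => (Finset.mem_filter.mp (h hi)).2⟩⟩
  rw [hset, Finset.sum_powerset_neg_one_pow_card]
  simp [Finset.filter_eq_empty_iff]

section finite

variable [Finite G] (hs : Set.range s = P.S)
include hs

/-- The fixed cosets of `P_K` inside a larger parabolic subgroup are the fixed cosets of `B` in shortest cells. -/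
theorem card_fixed_in {K : Finset ι} {H : Subgroup G} (hKH : par P s K ≤ H) {b : G} (hb : b ∈ P.B) :
    Nat.card {q : G ⧸ par P s K // b • q = q ∧ q.out ∈ H} =
      Nat.card {q : G ⧸ P.B // (b • q = q ∧ q.out ∈ H) ∧ ∀ i ∈ K, ¬ Dg P q.out⁻¹ (s i)} := by
  have hB : P.B ≤ par P s K := B_le_par K
  have hS : s '' (K : Set ι) ⊆ P.S := hs ▸ Set.image_subset_range _ _
  have hnd : ∀ {g n : G}, n ∈ P.N → g ∈ dc P n → (∀ i ∈ K, ¬ Dg P g (s i)) →
      NoDesc P (s '' (K : Set ι)) n := fun hn hx h => (noDesc_iff _ hn hx).1 (by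
    rw [Set.forall_mem_image]; exact h)
  let f : {q : G ⧸ P.B // (b • q = q ∧ q.out ∈ H) ∧ ∀ i ∈ K, ¬ Dg P q.out⁻¹ (s i)} →
      {q : G ⧸ par P s K // b • q = q ∧ q.out ∈ H} := fun q =>
    ⟨((q.1.out : G) : G ⧸ par P s K), by
      refine ⟨?_, (out_mem_iff hKH _).2 q.2.1.2⟩
      refine (mem_fixed_iff (par P s K) b _).2 (hB ((mem_fixed_iff P.B b _).1 ?_))
      rw [QuotientGroup.out_eq']
      exact q.2.1.1⟩
  refine (Nat.card_eq_of_bijective f ⟨?_, ?_⟩).symm
  · rintro ⟨q, ⟨hq, hqH⟩, hqK⟩ ⟨q', ⟨hq', hqH'⟩, hqK'⟩ e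
    obtain ⟨g, rfl⟩ := QuotientGroup.mk_surjective q
    obtain ⟨g', rfl⟩ := QuotientGroup.mk_surjective q'
    simp only [f, Subtype.mk.injEq] at e
    obtain ⟨n, hn, hx⟩ := exists_bruhat (P := P) ((g : G ⧸ P.B)).out⁻¹
    obtain ⟨n', hn', hx'⟩ := exists_bruhat (P := P) ((g' : G ⧸ P.B)).out⁻¹
    have he := QuotientGroup.eq.1 e
    have hp := mem_B_of_noDesc hS he hn' (hnd hn' hx' hqK') hx' hn (hnd hn hx hqK)
      (by rwa [mul_inv_cancel_right])
    apply Subtype.ext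
    show (g : G ⧸ P.B) = (g' : G ⧸ P.B)
    rw [← QuotientGroup.out_eq' (g : G ⧸ P.B), ← QuotientGroup.out_eq' (g' : G ⧸ P.B)]
    exact mk_eq_of_mem _ hp
  · rintro ⟨q, hq, hqH⟩
    obtain ⟨g, rfl⟩ := QuotientGroup.mk_surjective q
    obtain ⟨n, hn, hx⟩ := exists_bruhat (P := P) g⁻¹
    obtain ⟨u, hu, v, hv, huv⟩ := mem_dc.1 hx
    obtain ⟨m, hm, hndm, hmem⟩ := exists_noDesc hS hn
    set g' := g * (m * n⁻¹ * u⁻¹)⁻¹ with hg'
    have hgg : g⁻¹ * g' ∈ par P s K := by
      rw [hg', inv_mul_cancel_left]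
      refine inv_mem (mul_mem ?_ (inv_mem (hB hu)))
      have h := inv_mem hmem
      rwa [mul_inv_rev, inv_inv] at h
    have hx' : g'⁻¹ ∈ dc P m := by
      refine mem_dc.2 ⟨1, one_mem _, v, hv, ?_⟩
      rw [hg', mul_inv_rev, inv_inv, huv]; group
    have hg'H : g' ∈ H := by
      have := mul_mem ((out_mem_iff hKH g).1 hqH) (hKH hgg)
      rwa [mul_inv_cancel_left] at this
    have hfixB : b • (g' : G ⧸ P.B) = (g' : G ⧸ P.B) := by
      rw [mk_eq_of_mem _ hgg] at hq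
      have hfix := (mem_fixed_iff (par P s K) b g').1 hq
      refine (mem_fixed_iff P.B b g').2 (mem_B_of_noDesc hS hfix hm hndm hx' hm hndm ?_)
      rw [mul_inv_cancel_right, mul_inv_rev]
      exact mul_right_mem (inv_mem hb) hx'
    refine ⟨⟨(g' : G ⧸ P.B), ⟨hfixB, (out_mem_iff (hB.trans hKH) g').2 hg'H⟩, fun i hi => ?_⟩, ?_⟩
    · rw [dg_out]
      exact (noDesc_iff _ hm hx').2 hndm _ ⟨i, hi, rfl⟩
    · apply Subtype.ext
      show (((g' : G ⧸ P.B)).out : G ⧸ par P s K) = (g : G ⧸ par P s K)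
      exact (mk_eq_of_mem _ (hB (out_spec P.B g'))).symm.trans (mk_eq_of_mem _ hgg).symm

/-- The cosets of `P_K` in `P_J`. -/
theorem card_cosets {K J : Finset ι} (hKJ : K ⊆ J) :
    Nat.card {q : G ⧸ par P s K // q.out ∈ par P s J} =
      Nat.card {q : G ⧸ P.B // q.out ∈ par P s J ∧ ∀ i ∈ K, ¬ Dg P q.out⁻¹ (s i)} := by
  have h := card_fixed_in hs (K := K) (par_mono hKJ) (b := 1) (one_mem _)
  simpa only [one_smul, true_and] using h

/-- The cosets of `B` in `P_J` shortened by all of `K` are products of a coset of `P_K` and a top coset of `P_K`. -/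
theorem card_all_desc {K J : Finset ι} (hKJ : K ⊆ J) :
    Nat.card {q : G ⧸ P.B // q.out ∈ par P s J ∧ ∀ i ∈ K, Dg P q.out⁻¹ (s i)} =
      Nat.card {q : G ⧸ par P s K // q.out ∈ par P s J} * Nat.card {q : G ⧸ P.B // IsTop P s K q} := by
  rw [card_cosets hs hKJ, ← Nat.card_prod]
  have hS : s '' (K : Set ι) ⊆ P.S := hs ▸ Set.image_subset_range _ _
  let M := {q : G ⧸ P.B // q.out ∈ par P s J ∧ ∀ i ∈ K, ¬ Dg P q.out⁻¹ (s i)}
  -- the product of a shortest element and an element of `P_K`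
  have key : ∀ (m : M) (c : G), c ∈ par P s K → ∀ (n : G) (R : List G), n ∈ P.N → m.1.out⁻¹ ∈ dc P n →
      (∀ x ∈ R, x ∈ s '' (K : Set ι)) → Red P R → c⁻¹ ∈ dc P R.prod →
      (R.prod * n ∈ P.N ∧ (m.1.out * c)⁻¹ ∈ dc P (R.prod * n) ∧ len P (R.prod * n) = R.length + len P n ∧
        ∀ i ∈ K, ∀ R' : List G, (∀ x ∈ R', x ∈ s '' (K : Set ι)) → Red P R' → Sim P R'.prod (s i * R.prod) →
          len P (s i * (R.prod * n)) = R'.length + len P n) := by
    intro m c hc n R hn hx hR hRr hcR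
    have hnd : NoDesc P (s '' (K : Set ι)) n := (noDesc_iff _ hn hx).1 (by
      rw [Set.forall_mem_image]; exact m.2.2)
    refine ⟨mul_mem (prod_mem (word_subset hS hR)) hn, ?_, len_add hS hn hnd hR hRr, fun i hi R' hR' hr' hsim => ?_⟩
    · rw [mul_inv_rev]; exact dc_word_mul hS hn hnd hR hRr hcR hx
    · rw [← len_add hS hn hnd hR' hr', ← mul_assoc]
      refine len_congr (Sim.symm ?_)
      exact hsim.mul_right (prod_mem (word_subset hS hR'))
        (mul_mem (s_mem (hS ⟨i, hi, rfl⟩)) (prod_mem (word_subset hS hR))) hn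
  have hword : ∀ c ∈ par P s K, ∃ R : List G,
      (∀ x ∈ R, x ∈ s '' (K : Set ι)) ∧ Red P R ∧ c⁻¹ ∈ dc P R.prod := by
    intro c hc
    obtain ⟨L, hL, hcL⟩ := (mem_parabolic hS).1 (inv_mem hc)
    obtain ⟨R, hR, hRs, hRr⟩ := exists_red hS hL
    exact ⟨R, hR, hRr, by rw [hRs.dc_eq]; exact hcL⟩
  let f : M × {q : G ⧸ P.B // IsTop P s K q} →
      {q : G ⧸ P.B // q.out ∈ par P s J ∧ ∀ i ∈ K, Dg P q.out⁻¹ (s i)} := fun z =>
    ⟨((z.1.1.out * z.2.1.out : G) : G ⧸ P.B), by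
      refine ⟨(out_mem_iff (B_le_par J) _).2 (mul_mem z.1.2.1 (par_mono hKJ z.2.2.1)), fun i hi => ?_⟩
      rw [dg_out]
      obtain ⟨n, hn, hx⟩ := exists_bruhat (P := P) z.1.1.out⁻¹
      obtain ⟨R, hR, hRr, hcR⟩ := hword _ z.2.2.1
      obtain ⟨hN, hd, hl, hl'⟩ := key z.1 _ z.2.2.1 n R hn hx hR hRr hcR
      rw [dg_iff hN hd, hl]
      have hRlt := (dg_iff (prod_mem (word_subset hS hR)) hcR).1 (z.2.2.2 i hi)
      rw [hRr] at hRlt
      have hiK : s i ∈ s '' (K : Set ι) := ⟨i, hi, rfl⟩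
      obtain ⟨R', hR', hs', hr'⟩ := exists_red hS (L := s i :: R) (List.forall_mem_cons.2 ⟨hiK, hR⟩)
      rw [List.prod_cons] at hs'
      rw [hl' i hi R' hR' hr' hs']
      have : R'.length < R.length := by
        rw [← hr', len_congr hs']; exact hRlt
      omega⟩
  refine (Nat.card_eq_of_bijective f ⟨?_, ?_⟩).symm
  · rintro ⟨⟨q, hqJ, hqK⟩, c⟩ ⟨⟨q', hqJ', hqK'⟩, c'⟩ e
    simp only [f, Subtype.mk.injEq] at e
    have he := QuotientGroup.eq.1 e
    obtain ⟨n, hn, hx⟩ := exists_bruhat (P := P) q.out⁻¹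
    obtain ⟨n', hn', hx'⟩ := exists_bruhat (P := P) q'.out⁻¹
    have hp : q.out⁻¹ * q'.out ∈ par P s K := by
      have := mul_mem (mul_mem c.2.1 (B_le_par K he)) (inv_mem c'.2.1)
      convert this using 1
      group
    have hnd1 := (noDesc_iff (s '' (K : Set ι)) hn hx).1 (by rw [Set.forall_mem_image]; exact hqK)
    have hnd2 := (noDesc_iff (s '' (K : Set ι)) hn' hx').1 (by rw [Set.forall_mem_image]; exact hqK')
    have hB := mem_B_of_noDesc hS hp hn' hnd2 hx' hn hnd1 (by rwa [mul_inv_cancel_right])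
    have hqq : q = q' := by
      rw [← QuotientGroup.out_eq' q, ← QuotientGroup.out_eq' q']; exact mk_eq_of_mem _ hB
    subst hqq
    refine Prod.ext rfl (Subtype.ext ?_)
    rw [← QuotientGroup.out_eq' c.1, ← QuotientGroup.out_eq' c'.1]
    refine mk_eq_of_mem _ ?_
    convert he using 1
    group
  · rintro ⟨q, hqJ, hqK⟩
    obtain ⟨g, rfl⟩ := QuotientGroup.mk_surjective q
    have hgJ := (out_mem_iff (B_le_par J) g).1 hqJ
    obtain ⟨n0, hn0, hx0⟩ := exists_bruhat (P := P) g⁻¹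
    obtain ⟨n, hn, hndn, hmem⟩ := exists_noDesc hS hn0
    obtain ⟨u, hu, v, hv, huv⟩ := mem_dc.1 hx0
    set m := g * (n * n0⁻¹ * u⁻¹)⁻¹ with hm
    have hgm : g⁻¹ * m ∈ par P s K := by
      rw [hm, inv_mul_cancel_left]
      refine inv_mem (mul_mem ?_ (inv_mem (B_le_par K hu)))
      have h := inv_mem hmem
      rwa [mul_inv_rev, inv_inv] at h
    have hx : m⁻¹ ∈ dc P n := by
      refine mem_dc.2 ⟨1, one_mem _, v, hv, ?_⟩
      rw [hm, mul_inv_rev, inv_inv, huv]; group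
    have hmJ : m ∈ par P s J := by
      have := mul_mem hgJ (par_mono hKJ hgm)
      rwa [mul_inv_cancel_left] at this
    let mm : M := ⟨(m : G ⧸ P.B), (out_mem_iff (B_le_par J) m).2 hmJ, fun i hi => by
      rw [dg_out]; exact (noDesc_iff _ hn hx).2 hndn _ ⟨i, hi, rfl⟩⟩
    set c := mm.1.out⁻¹ * g with hc
    have hcK : c ∈ par P s K := by
      have h1 : m⁻¹ * mm.1.out ∈ P.B := out_spec P.B m
      have h2 := mul_mem (inv_mem (B_le_par K h1)) (inv_mem hgm)
      rw [hc]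
      convert h2 using 1
      group
    obtain ⟨n1, hn1, hx1⟩ := exists_bruhat (P := P) mm.1.out⁻¹
    obtain ⟨R, hR, hRr, hcR⟩ := hword c hcK
    obtain ⟨hN, hd, hl, hl'⟩ := key mm c hcK n1 R hn1 hx1 hR hRr hcR
    have hmc : mm.1.out * c = g := by rw [hc, mul_inv_cancel_left]
    rw [hmc] at hd
    have hdesc : ∀ i ∈ K, Dg P c⁻¹ (s i) := by
      intro i hi
      have hiS : s i ∈ P.S := hS ⟨i, hi, rfl⟩
      rw [dg_iff (prod_mem (word_subset hS hR)) hcR]
      rcases len_mul_cases hiS (prod_mem (word_subset hS hR)) with h | h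
      · exfalso
        have hg := hqK i hi
        rw [dg_out, dg_iff hN hd, hl] at hg
        have hR' : ∀ x ∈ s i :: R, x ∈ s '' (K : Set ι) := List.forall_mem_cons.2 ⟨⟨i, hi, rfl⟩, hR⟩
        rw [hl' i hi (s i :: R) hR' (by rw [Red, List.prod_cons, h, hRr]; simp) (by simp [Sim.refl]),
          List.length_cons] at hg
        omega
      · omega
    refine ⟨⟨mm, ⟨(c : G ⧸ P.B), (isTop_mk K c).2 ⟨hcK, hdesc⟩⟩⟩, Subtype.ext ?_⟩
    show ((mm.1.out * ((c : G ⧸ P.B)).out : G) : G ⧸ P.B) = (g : G ⧸ P.B)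
    refine (mk_eq_of_mem _ ?_).symm
    rw [hc]
    convert out_spec P.B c using 1
    rw [hc]; group

/-- The alternating sum over the cosets weighted by top cosets is one. -/
theorem alt_sum_cosets_top (J : Finset ι) :
    ∑ K ∈ J.powerset, (-1 : ℤ) ^ K.card * ((Nat.card {q : G ⧸ par P s K // q.out ∈ par P s J} *
      Nat.card {q : G ⧸ P.B // IsTop P s K q} : ℕ) : ℤ) = 1 := by
  have h := alt_sum_powerset (fun (q : {q : G ⧸ P.B // q.out ∈ par P s J}) i => Dg P q.1.out⁻¹ (s i)) J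
  have e : ∀ p : G ⧸ P.B → Prop, Nat.card {q : {q : G ⧸ P.B // q.out ∈ par P s J} // p q.1} =
      Nat.card {q : G ⧸ P.B // q.out ∈ par P s J ∧ p q} := fun p =>
    Nat.card_congr (Equiv.subtypeSubtypeEquivSubtypeInter _ p)
  have h1 : Nat.card {q : G ⧸ P.B // q.out ∈ par P s J ∧ ∀ i ∈ J, ¬ Dg P q.out⁻¹ (s i)} = 1 := by
    rw [← card_cosets hs (subset_refl J), Nat.card_eq_one_iff_unique]
    refine ⟨⟨fun a b => Subtype.ext ?_⟩, ⟨⟨((1 : G) : G ⧸ par P s J), (out_mem_iff le_rfl 1).2 (one_mem _)⟩⟩⟩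
    rw [← QuotientGroup.out_eq' a.1, ← QuotientGroup.out_eq' b.1]
    exact mk_eq_of_mem _ (mul_mem (inv_mem a.2) b.2)
  rw [e (fun q => ∀ i ∈ J, ¬ Dg P q.out⁻¹ (s i)), h1, Nat.cast_one] at h
  refine (Finset.sum_congr rfl fun K hK => ?_).trans h
  rw [e (fun q => ∀ i ∈ K, Dg P q.out⁻¹ (s i)), card_all_desc hs (Finset.mem_powerset.mp hK)]

/-- The count of the elements of a conjugation invariant set in the parabolic subgroups. -/
theorem card_unipotent {U : Subgroup G} (hUB : U ≤ P.B) (R : Finset ι → Subgroup G) {X : G → Prop}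
    (hX : ∀ g x, X x → X (g * x * g⁻¹)) (hUX : ∀ u ∈ U, X u)
    (hsyl : ∀ J x, X x → x ∈ par P s J → ∃ p ∈ par P s J, p * x * p⁻¹ ∈ U)
    (hRU : ∀ J, R J ≤ U) (hRn : ∀ J, ∀ p ∈ par P s J, ∀ x ∈ R J, p * x * p⁻¹ ∈ R J)
    (hfix : ∀ J, ∀ u ∈ U, ∀ q : G ⧸ P.B, IsTop P s J q → u • q = q → u ∈ R J)
    {Q : ℕ} (hcard : ∀ J, Nat.card {q : G ⧸ P.B // IsTop P s J q} * Nat.card ↥(R J) = Q) :
    ∀ J, Nat.card {x : G // X x ∧ x ∈ par P s J} = Q * Nat.card {q : G ⧸ P.B // IsTop P s J q} := by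
  classical
  haveI := Fintype.ofFinite G
  -- fixed cosets of `P_K` in `P_J`
  let fc : Finset ι → Finset ι → G → ℕ := fun J K x =>
    Nat.card {q : G ⧸ par P s K // x • q = q ∧ q.out ∈ par P s J}
  let χ : Finset ι → G → ℤ := fun J x => ∑ K ∈ J.powerset, (-1 : ℤ) ^ K.card * (fc J K x : ℤ)
  have hinv : ∀ J K, K ⊆ J → ∀ p ∈ par P s J, ∀ x, fc J K (p * x * p⁻¹) = fc J K x := by
    intro J K hKJ p hp x
    refine Nat.card_congr (Equiv.subtypeEquiv (MulAction.toPerm p⁻¹) fun q => ?_)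
    obtain ⟨g, rfl⟩ := QuotientGroup.mk_surjective q
    simp only [MulAction.toPerm_apply]
    refine and_congr ?_ ?_
    · rw [mul_smul, mul_smul, ← eq_inv_smul_iff]
    · rw [MulAction.Quotient.smul_coe, smul_eq_mul, out_mem_iff (par_mono hKJ), out_mem_iff (par_mono hKJ),
        Subgroup.mul_mem_cancel_left _ (inv_mem hp)]
  have hval : ∀ J, ∀ u ∈ U, χ J u = if u ∈ R J then (Nat.card {q : G ⧸ P.B // IsTop P s J q} : ℤ) else 0 := by
    intro J u hu
    have h := alt_sum_powerset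
      (fun (q : {q : G ⧸ P.B // u • q = q ∧ q.out ∈ par P s J}) i => ¬ Dg P q.1.out⁻¹ (s i)) J
    have e : ∀ p : G ⧸ P.B → Prop,
        Nat.card {q : {q : G ⧸ P.B // u • q = q ∧ q.out ∈ par P s J} // p q.1} =
          Nat.card {q : G ⧸ P.B // (u • q = q ∧ q.out ∈ par P s J) ∧ p q} := fun p =>
      Nat.card_congr (Equiv.subtypeSubtypeEquivSubtypeInter _ p)
    simp only [not_not] at h
    rw [e (fun q => ∀ i ∈ J, Dg P q.out⁻¹ (s i))] at h
    have h2 : χ J u = (Nat.card {q : G ⧸ P.B // (u • q = q ∧ q.out ∈ par P s J) ∧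
        ∀ i ∈ J, Dg P q.out⁻¹ (s i)} : ℤ) := by
      rw [← h]
      refine Finset.sum_congr rfl fun K hK => ?_
      rw [e (fun q => ∀ i ∈ K, ¬ Dg P q.out⁻¹ (s i)), ← card_fixed_in hs (par_mono (Finset.mem_powerset.mp hK))
        (hUB hu)]
    rw [h2]
    split_ifs with huR
    · congr 1
      refine Nat.card_congr (Equiv.subtypeEquivRight fun q => ⟨fun h => ⟨h.1.2, h.2⟩, fun h => ⟨⟨?_, h.1⟩, h.2⟩⟩)
      rw [← QuotientGroup.out_eq' q]
      have h1 := hUB (hRU J (hRn J _ (inv_mem h.1) _ (inv_mem huR)))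
      rw [inv_inv] at h1
      exact (mem_fixed_iff P.B u _).2 (by simpa [mul_assoc] using h1)
    · rw [Nat.cast_eq_zero]
      exact @Nat.card_of_isEmpty _ ⟨fun q => huR (hfix J u hu q.1 ⟨q.2.1.2, q.2.2⟩ q.2.1.1)⟩
  -- the sum over the unipotent elements of `P_J`
  have hsum : ∀ J, ∑ x ∈ Finset.univ.filter (fun x => X x ∧ x ∈ par P s J), χ J x = (Q : ℤ) := by
    intro J
    have hv : ∀ x ∈ Finset.univ.filter (fun x => X x ∧ x ∈ par P s J),
        χ J x = if x ∈ R J then (Nat.card {q : G ⧸ P.B // IsTop P s J q} : ℤ) else 0 := by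
      intro x hx
      rw [Finset.mem_filter] at hx
      obtain ⟨p, hp, hpu⟩ := hsyl J x hx.2.1 hx.2.2
      have hc : χ J (p * x * p⁻¹) = χ J x :=
        Finset.sum_congr rfl fun K hK => by rw [hinv J K (Finset.mem_powerset.mp hK) p hp x]
      rw [← hc, hval J _ hpu]
      refine if_congr ⟨fun h => ?_, fun h => hRn J p hp x h⟩ rfl rfl
      have := hRn J p⁻¹ (inv_mem hp) _ h
      simpa [mul_assoc] using this
    rw [Finset.sum_congr rfl hv, ← Finset.sum_filter, Finset.sum_const, nsmul_eq_mul,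
      ← hcard J, Nat.cast_mul, mul_comm (Nat.card {q : G ⧸ P.B // IsTop P s J q} : ℤ)]
    congr 2
    rw [Nat.card_eq_fintype_card, Fintype.card_subtype, Finset.filter_filter]
    refine congrArg Finset.card (Finset.filter_congr fun x _ => ⟨fun h => h.2, fun h => ⟨⟨hUX x (hRU J h), ?_⟩, h⟩⟩)
    exact B_le_par J (hUB (hRU J h))
  -- double counting
  have hdc : ∀ J K, K ⊆ J → ∑ x ∈ Finset.univ.filter (fun x => X x ∧ x ∈ par P s J), fc J K x =
      Nat.card {q : G ⧸ par P s K // q.out ∈ par P s J} * Nat.card {x : G // X x ∧ x ∈ par P s K} := by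
    intro J K hKJ
    have h1 : ∀ x, fc J K x = ∑ q : {q : G ⧸ par P s K // q.out ∈ par P s J},
        if x • q.1 = q.1 then 1 else 0 := by
      intro x
      rw [Finset.sum_boole, ← Fintype.card_subtype, ← Nat.card_eq_fintype_card, Nat.cast_id]
      exact Nat.card_congr ((Equiv.subtypeEquivRight fun q => and_comm).trans
        (Equiv.subtypeSubtypeEquivSubtypeInter (fun q : G ⧸ par P s K => q.out ∈ par P s J)
          (fun q => x • q = q)).symm)
    simp only [h1]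
    rw [Finset.sum_comm]
    have h2 : ∀ q : {q : G ⧸ par P s K // q.out ∈ par P s J},
        (∑ x ∈ Finset.univ.filter (fun x => X x ∧ x ∈ par P s J), if x • q.1 = q.1 then 1 else 0) =
          Nat.card {x : G // X x ∧ x ∈ par P s K} := by
      rintro ⟨q, hq⟩
      rw [Finset.sum_boole, Finset.filter_filter, ← Fintype.card_subtype, Nat.cast_id, ← Nat.card_eq_fintype_card]
      refine Nat.card_congr (Equiv.subtypeEquiv (MulAut.conj q.out⁻¹).toEquiv fun x => ?_)
      simp only [MulEquiv.toEquiv_eq_coe, EquivLike.coe_coe, MulAut.conj_apply, inv_inv]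
      have hiff : x • q = q ↔ q.out⁻¹ * x * q.out ∈ par P s K := by
        conv_lhs => rw [← QuotientGroup.out_eq' q, MulAction.Quotient.smul_coe, smul_eq_mul, QuotientGroup.eq,
          ← inv_mem_iff]
        simp [mul_assoc]
      refine ⟨fun h => ⟨?_, hiff.1 h.2⟩, fun h => ⟨⟨?_, ?_⟩, hiff.2 h.2⟩⟩
      · simpa using hX q.out⁻¹ x h.1.1
      · simpa [mul_assoc] using hX q.out _ h.1
      · have := mul_mem (mul_mem hq (par_mono hKJ h.2)) (inv_mem hq)
        simpa [mul_assoc] using this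
    rw [Finset.sum_congr rfl fun q _ => h2 q, Finset.sum_const, smul_eq_mul, Finset.card_univ,
      ← Nat.card_eq_fintype_card]
  have hrec : ∀ J, ∑ K ∈ J.powerset, (-1 : ℤ) ^ K.card *
      ((Nat.card {q : G ⧸ par P s K // q.out ∈ par P s J} * Nat.card {x : G // X x ∧ x ∈ par P s K} : ℕ) : ℤ) =
        (Q : ℤ) := by
    intro J
    rw [← hsum J]
    simp only [χ]
    rw [Finset.sum_comm]
    refine Finset.sum_congr rfl fun K hK => ?_
    rw [← Finset.mul_sum, ← hdc J K (Finset.mem_powerset.mp hK), Nat.cast_sum]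
  intro J
  induction J using Finset.strongInductionOn with
  | _ J ih =>
    have h1 := hrec J
    have h2 := congrArg ((Q : ℤ) * ·) (alt_sum_cosets_top hs J)
    simp only [mul_one, Finset.mul_sum] at h2
    have hJmem : J ∈ J.powerset := Finset.mem_powerset_self J
    rw [← Finset.add_sum_erase _ _ hJmem] at h1 h2
    have he : ∀ K ∈ J.powerset.erase J, (-1 : ℤ) ^ K.card *
        ((Nat.card {q : G ⧸ par P s K // q.out ∈ par P s J} * Nat.card {x : G // X x ∧ x ∈ par P s K} : ℕ) : ℤ) =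
        (Q : ℤ) * ((-1 : ℤ) ^ K.card * ((Nat.card {q : G ⧸ par P s K // q.out ∈ par P s J} *
          Nat.card {q : G ⧸ P.B // IsTop P s K q} : ℕ) : ℤ)) := by
      intro K hK
      rw [Finset.mem_erase, Finset.mem_powerset] at hK
      rw [ih K (lt_of_le_of_ne hK.2 hK.1)]
      push_cast; ring
    rw [Finset.sum_congr rfl he] at h1
    have hc0 : (Nat.card {q : G ⧸ par P s J // q.out ∈ par P s J} : ℤ) ≠ 0 := by
      haveI : Nonempty {q : G ⧸ par P s J // q.out ∈ par P s J} :=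
        ⟨⟨((1 : G) : G ⧸ par P s J), (out_mem_iff le_rfl 1).2 (one_mem _)⟩⟩
      exact_mod_cast Nat.card_pos.ne'
    have h3 := add_right_cancel (h1.trans h2.symm)
    push_cast at h3
    have hne : (-1 : ℤ) ^ J.card * (Nat.card {q : G ⧸ par P s J // q.out ∈ par P s J} : ℤ) ≠ 0 :=
      mul_ne_zero (pow_ne_zero _ (by norm_num)) hc0
    have h4 : (Nat.card {x : G // X x ∧ x ∈ par P s J} : ℤ) =
        (Q : ℤ) * (Nat.card {q : G ⧸ P.B // IsTop P s J q} : ℤ) :=
      mul_left_cancel₀ hne (by linear_combination h3)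
    exact_mod_cast h4

end finite

end Cfsg.Agent.LeadWork.UnipotentBN
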