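/-
The number of elements of prime power order of a Chevalley group in the natural characteristic.
-/
import Cfsg.Agent.LeadWork.UnipotentBN
import Cfsg.Agent.KnownA.Steinberg.Chev

set_option autoImplicit false

universe u

namespace Cfsg.Agent.LeadWork.UnipotentChev

open Cfsg.Lie Cfsg.Agent.Chev Cfsg.Agent.Suzuki.BN Cfsg.Agent.KnownA.Steinberg Cfsg.Agent.LeadWork.UnipotentBN

variable {D : ChevalleyDatum} {F : Type u} [Field F] (C : Cert.{u} D)
include C

/-- The indices of a set of nodes. -/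
abbrev idx (J : Finset (Fin D.rank)) : Set ℕ := Fin.val '' (J : Set (Fin D.rank))

theorem conj_inv_word {L : List ℕ} (hL : ∀ i ∈ L, i < D.rank) {r : ℕ} (hr : r < D.nroots) :
    ∃ c : F, c ≠ 0 ∧ ∀ t, (C.nWordElt F L)⁻¹ * C.xu r t * C.nWordElt F L = C.xu (act D L.reverse r) (c * t) := by
  have hL' : ∀ i ∈ L.reverse, i < D.rank := fun i hi => hL i (List.mem_reverse.mp hi)
  obtain ⟨c, hc, e⟩ := C.nWordElt_conj_xu (F := F) hL (C.act_lt hL' hr)
  have h := act_reverse_left C hL' hr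
  rw [List.reverse_reverse] at h
  rw [h] at e
  refine ⟨c⁻¹, inv_ne_zero hc, fun t => ?_⟩
  rw [← mul_inv_cancel_left₀ hc t, ← e, mul_inv_cancel_left₀ hc t]
  group

theorem act_pos_nonJ {J : Set ℕ} {L : List ℕ} (hL : ∀ i ∈ L, i < D.rank) (hLJ : ∀ i ∈ L, i ∈ J) {r : ℕ}
    (hr : D.IsPosRoot r) (hJ : ¬ D.InRootSub J r) :
    D.IsPosRoot (act D L r) ∧ ¬ D.InRootSub J (act D L r) := by
  induction L with
  | nil => exact ⟨hr, hJ⟩
  | cons a L ih =>
    rw [List.forall_mem_cons] at hL hLJ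
    obtain ⟨h1, h2⟩ := ih hL.2 hLJ.2
    rw [act_cons]
    exact ⟨C.pos_refl hL.1 h1 (fun e => h2 (e ▸ C.inRootSub_simple hL.1 hLJ.1)),
      fun h => h2 ((C.inRootSub_refl hL.1 hLJ.1 h1.1).mp h)⟩

theorem act_inRootSub {J : Set ℕ} {L : List ℕ} (hL : ∀ i ∈ L, i < D.rank) (hLJ : ∀ i ∈ L, i ∈ J) {r : ℕ}
    (hJ : D.InRootSub J r) : D.InRootSub J (act D L r) := by
  induction L with
  | nil => exact hJ
  | cons a L ih =>
    rw [List.forall_mem_cons] at hL hLJ
    rw [act_cons]
    exact (C.inRootSub_refl hL.1 hLJ.1 (C.act_lt hL.2 hJ.1)).mpr (ih hL.2 hLJ.2)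

/-- A positive root of the subsystem is made negative by a word inverting the fundamental roots. -/
theorem act_neg_J {J : Set ℕ} {L : List ℕ} (hL : ∀ i ∈ L, i < D.rank) (hLJ : ∀ i ∈ L, i ∈ J)
    (hdesc : ∀ i < D.rank, i ∈ J → D.IsNegRoot (act D L.reverse (D.simple i))) {r : ℕ}
    (hr : D.IsPosRoot r) (hJ : D.InRootSub J r) : D.IsNegRoot (act D L r) := by
  have hL' : ∀ i ∈ L.reverse, i < D.rank := fun i hi => hL i (List.mem_reverse.mp hi)
  have key : ∀ s, D.IsPosRoot s → D.InRootSub J s → D.IsNegRoot (act D L.reverse s) := by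
    intro s hs hsJ
    refine (C.negRoot_iff _ (C.act_lt hL' hs.1)).mpr fun k hk => ?_
    rw [C.act_coef hL' hs.1 k hk]
    refine Finset.sum_nonpos fun j hj => ?_
    by_cases hjJ : j ∈ J
    · exact mul_nonpos_of_nonneg_of_nonpos ((C.pos_iff s hs.1).mp hs j (Finset.mem_range.mp hj))
        ((C.negRoot_iff _ (C.act_lt hL' (C.simple_lt j (Finset.mem_range.mp hj)))).mp
          (hdesc j (Finset.mem_range.mp hj) hjJ) k hk)
    · rw [(C.inRootSub_iff.mp hsJ).2 j (Finset.mem_range.mp hj) hjJ, zero_mul]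
  rcases C.posRoot_or_negRoot (C.act_lt hL hr.1) with h | h
  · exfalso
    have h2 := key _ h (act_inRootSub C hL hLJ hJ)
    rw [act_reverse_left C hL hr.1] at h2
    exact C.not_pos_and_neg hr h2
  · exact h

section group

variable [Fintype F] {P : Cfsg.BNPair ↥(D.group F)}
  (hB : P.B = (D.borelSubgroup F).subgroupOf (D.group F))
  (hN : P.N = (D.monomialSubgroup F).subgroupOf (D.group F))
  (hS : P.S = Set.range (node C (F := F)))

include hB hS in
/-- If an element sends a negative fundamental root element into `B` then it is shortened by the node. -/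
theorem shorten {w : ↥(D.group F)} (hwN : w ∈ P.N) (i : Fin D.rank)
    (hzU : (w : GL D.Idx F)⁻¹ * C.xu (D.neg (D.simple i)) (1 : F) * (w : GL D.Idx F) ∈ D.borelSubgroup F) :
    len P (node C i * w) < len P w := by
  by_contra hlt
  have hi := i.isLt
  have hp := C.simple_lt i hi
  have ht : node C i ∈ P.S := hS ▸ Set.mem_range_self i
  set b1 : ↥(D.group F) :=
    ⟨C.xu (D.simple i) ((1 : F))⁻¹, C.xu_mem_group _ _⟩ *
      ⟨C.hu (D.simple i) (-((1 : F))⁻¹), C.wu_mem_group _⟩ with hb1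
  set b2 : ↥(D.group F) := ⟨C.xu (D.simple i) ((1 : F))⁻¹, C.xu_mem_group _ _⟩ with hb2
  have hb1B : b1 ∈ P.B := by
    rw [hB]
    exact mul_mem (C.pos_le_borel (C.xu_mem_pos (C.pos_simple hi) _))
      (C.diagonal_le_borel (C.hu_simple_mem_diagonal hp (neg_ne_zero.mpr (inv_ne_zero one_ne_zero))))
  have hb2B : b2 ∈ P.B := by
    rw [hB]
    exact C.pos_le_borel (C.xu_mem_pos (C.pos_simple hi) _)
  have hdec : (⟨C.xu (D.neg (D.simple i)) (1 : F), C.xu_mem_group _ _⟩ : ↥(D.group F)) = b1 * node C i * b2 := by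
    apply Subtype.ext
    simp only [hb1, hb2, node, Subgroup.coe_mul]
    exact C.xu_neg_decomp hi one_ne_zero
  have hv : (⟨_, C.borel_le_group hzU⟩ : ↥(D.group F)) ∈ P.B := by
    rw [hB]; exact Subgroup.mem_subgroupOf.mpr hzU
  have h1 : node C i * (b2 * w) ∈ dc P w := by
    refine mem_dc.2 ⟨b1⁻¹, inv_mem hb1B, _, hv, ?_⟩
    apply Subtype.ext
    have e := congrArg (Subtype.val) hdec
    simp only [Subgroup.coe_mul] at e
    simp only [Subgroup.coe_mul, Subgroup.coe_inv, e]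
    group
  have h2 := left_mul_of_le ht hwN (le_of_not_gt hlt) (mul_left_mem hb2B (mem_dc_self w))
  exact not_sim_mul ht hwN (sim_of_mem_mem (mul_mem (s_mem ht) hwN) hwN h2 h1)

include hB hN hS in
/-- A word inverts the fundamental roots of the nodes shortening it. -/
theorem neg_of_desc {w : ↥(D.group F)} (hwN : w ∈ P.N) {L : List ℕ} (hL : ∀ i ∈ L, i < D.rank)
    (hw : (w : GL D.Idx F) = C.nWordElt F L) (i : Fin D.rank) (h : len P (node C i * w) < len P w) :
    D.IsNegRoot (act D L.reverse (D.simple i)) := by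
  have hL' : ∀ i ∈ L.reverse, i < D.rank := fun i hi => hL i (List.mem_reverse.mp hi)
  rcases C.posRoot_or_negRoot (C.act_lt hL' (C.simple_lt i i.isLt)) with hp | hn
  · exfalso
    have ht : node C i ∈ P.S := hS ▸ Set.mem_range_self i
    have hm := mul_mem (s_mem ht) hwN
    have h2 := shorten C hB hS hm i ?_
    · rw [len_congr (cancel_left ht hwN)] at h2; omega
    · obtain ⟨c, -, e⟩ := conj_inv_word C (F := F) hL (C.simple_lt i i.isLt)
      have e2 : (C.nu (D.simple i) (1 : F))⁻¹ * C.xu (D.neg (D.simple i)) (1 : F) * C.nu (D.simple i) 1 =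
          C.xu (D.simple i) (-1) := by
        have e3 := C.nu_simple_xu (F := F) i.isLt (-1)
        rw [_root_.neg_neg] at e3
        rw [mul_assoc, ← e3, inv_mul_cancel_left]
      have e4 : ((node C i * w : ↥(D.group F)) : GL D.Idx F)⁻¹ * C.xu (D.neg (D.simple i)) (1 : F) *
          ((node C i * w : ↥(D.group F)) : GL D.Idx F) = C.xu (act D L.reverse (D.simple i)) (c * -1) := by
        rw [← e, ← e2]
        simp only [Subgroup.coe_mul, hw, node]
        group
      rw [e4]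
      exact C.pos_le_borel (C.xu_mem_pos hp _)
  · exact hn

omit [Fintype F] in
theorem word_eq {J : Finset (Fin D.rank)} {R : List ↥(D.group F)}
    (hR : ∀ x ∈ R, x ∈ node C '' (J : Set (Fin D.rank))) :
    ∃ L : List ℕ, (∀ i ∈ L, i < D.rank) ∧ (∀ i ∈ L, i ∈ idx J) ∧
      ((R.prod : ↥(D.group F)) : GL D.Idx F) = C.nWordElt F L := by
  induction R with
  | nil => exact ⟨[], by simp, by simp, rfl⟩
  | cons x R ih =>
    rw [List.forall_mem_cons] at hR
    obtain ⟨L, h1, h2, h3⟩ := ih hR.2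
    obtain ⟨i, hi, rfl⟩ := hR.1
    refine ⟨i.val :: L, List.forall_mem_cons.mpr ⟨i.isLt, h1⟩, List.forall_mem_cons.mpr ⟨⟨i, hi, rfl⟩, h2⟩, ?_⟩
    rw [List.prod_cons, Subgroup.coe_mul, h3, C.nWordElt_cons]
    rfl

include hB hN hS in
/-- The data attached to a top coset of a parabolic subgroup. -/
theorem top_data {J : Finset (Fin D.rank)} {q : ↥(D.group F) ⧸ P.B} (hq : IsTop P (node C) J q) :
    ∃ (w : ↥(D.group F)) (L : List ℕ), (∀ i ∈ L, i < D.rank) ∧ (∀ i ∈ L, i ∈ idx J) ∧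
      (w : GL D.Idx F) = C.nWordElt F L ∧ q.out⁻¹ ∈ dc P w ∧
      (∀ r, D.IsPosRoot r → D.InRootSub (idx J) r → D.IsNegRoot (act D L r)) := by
  have hsub : node C '' (J : Set (Fin D.rank)) ⊆ P.S := hS ▸ Set.image_subset_range _ _
  obtain ⟨L0, hL0, hd0⟩ := (mem_parabolic hsub).1 (inv_mem hq.1)
  obtain ⟨L, h1, h2, h3⟩ := word_eq C hL0
  refine ⟨L0.prod, L, h1, h2, h3, hd0, fun r hr hJ => act_neg_J C h1 h2 (fun i hi hiJ => ?_) hr hJ⟩
  obtain ⟨j, hj, e⟩ := hiJ
  subst e
  have hwN := prod_mem (word_subset hsub hL0)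
  exact neg_of_desc C hB hN hS hwN h1 h3 j ((dg_iff hwN hd0).1 (hq.2 j hj))

omit [Fintype F] in
theorem posUnipotent_decomp {J : Set ℕ} {g : GL D.Idx F} (hg : g ∈ D.posUnipotent F) :
    ∃ a ∈ D.unipotentRadical F J, ∃ c ∈ spanGroup D F (fun r => D.IsPosRoot r ∧ D.InRootSub J r), a * c = g := by
  rw [C.radical_eq]
  refine (Cert.mem_sup_of_normalised ?_).mp ?_
  · exact C.span_le fun r hr t => C.pos_normalises_radical J hr.1 t
  · rw [← Cert.span_pos] at hg
    refine C.span_le (fun r hr t => ?_) hg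
    by_cases h : D.InRootSub J r
    · exact Subgroup.mem_sup_right (C.xu_mem_span (P := fun r => D.IsPosRoot r ∧ D.InRootSub J r) ⟨hr, h⟩ t)
    · exact Subgroup.mem_sup_left (C.xu_mem_span (P := fun r => D.IsPosRoot r ∧ ¬ D.InRootSub J r) ⟨hr, h⟩ t)

omit [Fintype F] in
theorem radical_le_pos (J : Set ℕ) : D.unipotentRadical F J ≤ D.posUnipotent F := by
  rw [C.radical_eq, ← Cert.span_pos]
  exact C.span_mono fun r hr => hr.1

omit [Fintype F] in
/-- An element of `U` carried into `B` by a top word lies in the radical. -/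
theorem mem_radical_of_conj {J : Set ℕ} {L : List ℕ} (hL : ∀ i ∈ L, i < D.rank) (hLJ : ∀ i ∈ L, i ∈ J)
    (hneg : ∀ r, D.IsPosRoot r → D.InRootSub J r → D.IsNegRoot (act D L r)) {g : GL D.Idx F}
    (hg : g ∈ D.posUnipotent F) :
    C.nWordElt F L * g * (C.nWordElt F L)⁻¹ ∈ D.borelSubgroup F ↔ g ∈ D.unipotentRadical F J := by
  have hrad : ∀ a ∈ D.unipotentRadical F J, C.nWordElt F L * a * (C.nWordElt F L)⁻¹ ∈ D.borelSubgroup F := by
    intro a ha
    rw [C.radical_eq] at ha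
    have h : spanGroup D F (fun r => D.IsPosRoot r ∧ ¬ D.InRootSub J r) ≤
        (D.borelSubgroup F).comap (MulAut.conj (C.nWordElt F L)).toMonoidHom := by
      refine C.span_le fun r hr t => ?_
      obtain ⟨c, -, e⟩ := C.nWordElt_conj_xu (F := F) hL hr.1.1
      rw [Subgroup.mem_comap]
      show C.nWordElt F L * C.xu r t * (C.nWordElt F L)⁻¹ ∈ _
      rw [e]
      exact C.pos_le_borel (C.xu_mem_pos (act_pos_nonJ C hL hLJ hr.1 hr.2).1 _)
    exact h ha
  refine ⟨fun h => ?_, hrad g⟩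
  obtain ⟨a, ha, c, hc, rfl⟩ := posUnipotent_decomp C (J := J) hg
  have hcneg : spanGroup D F (fun r => D.IsPosRoot r ∧ D.InRootSub J r) ≤
      (D.negUnipotent F).comap (MulAut.conj (C.nWordElt F L)).toMonoidHom := by
    refine C.span_le fun r hr t => ?_
    obtain ⟨k, -, e⟩ := C.nWordElt_conj_xu (F := F) hL hr.1.1
    rw [Subgroup.mem_comap]
    show C.nWordElt F L * C.xu r t * (C.nWordElt F L)⁻¹ ∈ _
    rw [e]
    exact C.xu_mem_neg (hneg r hr.1 hr.2) _
  have h1 : C.nWordElt F L * c * (C.nWordElt F L)⁻¹ ∈ D.borelSubgroup F := by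
    have := mul_mem (inv_mem (hrad a ha)) h
    convert this using 1
    group
  have h2 : C.nWordElt F L * c * (C.nWordElt F L)⁻¹ = 1 := by
    rw [← Subgroup.mem_bot, ← C.borel_inf_neg]
    exact Subgroup.mem_inf.mpr ⟨h1, hcneg hc⟩
  rw [conj_eq_one_iff] at h2
  rw [h2, mul_one]
  exact ha

omit [Fintype F] in
/-- Two top words differ by a diagonal element. -/
theorem diagonal_of_top {M : CoxeterMatrix (Fin D.rank)} (hM : CoxOK D M) {J : Set ℕ} {L L' : List ℕ}
    (hL : ∀ i ∈ L, i < D.rank) (hLJ : ∀ i ∈ L, i ∈ J) (hL' : ∀ i ∈ L', i < D.rank) (hLJ' : ∀ i ∈ L', i ∈ J)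
    (hneg : ∀ r, D.IsPosRoot r → D.InRootSub J r → D.IsNegRoot (act D L r))
    (hneg' : ∀ r, D.IsPosRoot r → D.InRootSub J r → D.IsNegRoot (act D L' r)) :
    (C.nWordElt F L)⁻¹ * C.nWordElt F L' ∈ D.diagonalSubgroup F := by
  refine C.mem_diagonal_of_invCount_zero hM (mul_mem (inv_mem (C.nWordElt_mem hL)) (C.nWordElt_mem hL')) ?_
  rw [invCount, Finset.card_eq_zero, Finset.eq_empty_iff_forall_notMem]
  intro r hr
  obtain ⟨hp, hle⟩ := mem_invSet.mp hr
  have hLr : ∀ i ∈ L.reverse, i < D.rank := fun i hi => hL i (List.mem_reverse.mp hi)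
  have hLJr : ∀ i ∈ L.reverse, i ∈ J := fun i hi => hLJ i (List.mem_reverse.mp hi)
  have hs := C.act_lt hL' hp.1
  have hpos : D.IsPosRoot (act D L.reverse (act D L' r)) := by
    by_cases hJ : D.InRootSub J r
    · have h1 := hneg' r hp hJ
      have h2 := act_inRootSub C hL' hLJ' hJ
      rcases C.posRoot_or_negRoot (C.act_lt hLr hs) with h | h
      · exact h
      · exfalso
        have h3 := hneg _ (C.posRoot_neg h) (C.inRootSub_neg (act_inRootSub C hLr hLJr h2))
        have h4 := act_reverse_left C hLr hs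
        rw [List.reverse_reverse] at h4
        rw [C.act_neg hL (C.act_lt hLr hs), h4] at h3
        exact C.not_pos_and_neg (C.posRoot_neg h1) h3
    · exact (act_pos_nonJ C hLr hLJr (act_pos_nonJ C hL' hLJ' hp hJ).1
        (act_pos_nonJ C hL' hLJ' hp hJ).2).1
  obtain ⟨c, hc, e⟩ := C.nWordElt_conj_xu (F := F) hL' hp.1
  obtain ⟨c', hc', e'⟩ := conj_inv_word C (F := F) hL hs
  have h := hle (Subgroup.mem_map_of_mem _ (C.mem_rootSubgroup.mpr ⟨1, rfl⟩))
  have e3 : (MulAut.conj ((C.nWordElt F L)⁻¹ * C.nWordElt F L')).toMonoidHom (C.xu r 1) =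
      C.xu (act D L.reverse (act D L' r)) (c' * (c * 1)) := by
    rw [← e', ← e]
    simp only [MulEquiv.toMonoidHom_eq_coe, MonoidHom.coe_coe, MulAut.conj_apply]
    group
  rw [e3] at h
  have h5 : C.xu (act D L.reverse (act D L' r)) (c' * (c * 1)) = 1 := by
    rw [← Subgroup.mem_bot, ← C.borel_inf_neg]
    exact Subgroup.mem_inf.mpr ⟨C.pos_le_borel (C.xu_mem_pos hpos _), h⟩
  exact mul_ne_zero hc' (mul_ne_zero hc one_ne_zero) (C.xu_eq_one hpos.1 h5)

include hB hN hS in
theorem exists_top (J : Finset (Fin D.rank)) : ∃ q, IsTop P (node C) J q := by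
  have hsub : node C '' (J : Set (Fin D.rank)) ⊆ P.S := hS ▸ Set.image_subset_range _ _
  obtain ⟨n, ⟨hn, hnp⟩, hmax⟩ := Set.exists_max_image {n : ↥(D.group F) | n ∈ P.N ∧ n ∈ par P (node C) J}
    (len P) (Set.toFinite _) ⟨1, one_mem _, one_mem _⟩
  refine ⟨(n⁻¹ : ↥(D.group F)), (isTop_mk J _).2 ⟨inv_mem hnp, fun i hi => ?_⟩⟩
  rw [inv_inv, dg_iff hn (mem_dc_self n)]
  have ht : node C i ∈ P.S := hsub ⟨i, hi, rfl⟩
  have := hmax _ ⟨mul_mem (s_mem ht) hn,
    mul_mem (Subgroup.mem_sup_right (Subgroup.subset_closure ⟨i, hi, rfl⟩)) hnp⟩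
  have := len_mul_ne ht hn
  omega

include hB hN hS in
theorem card_top_mul {M : CoxeterMatrix (Fin D.rank)} (hM : CoxOK D M) (J : Finset (Fin D.rank)) :
    Nat.card {q : ↥(D.group F) ⧸ P.B // IsTop P (node C) J q} *
      Nat.card ↥((D.unipotentRadical F (idx J)).subgroupOf (D.group F)) =
      Nat.card ↥((D.posUnipotent F).subgroupOf (D.group F)) := by
  set U := (D.posUnipotent F).subgroupOf (D.group F)
  set R := (D.unipotentRadical F (idx J)).subgroupOf (D.group F)
  have hRU : R ≤ U := fun x hx => radical_le_pos C _ hx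
  obtain ⟨q0, hq0⟩ := exists_top C hB hN hS J
  obtain ⟨w, L, hL, hLJ, hw, hd, hneg⟩ := top_data C hB hN hS hq0
  have hUB : U ≤ P.B := by rw [hB]; exact fun x hx => C.pos_le_borel hx
  have hwp : w ∈ par P (node C) J := by
    obtain ⟨u, hu, v, hv, e⟩ := mem_dc.1 hd
    have h := inv_mem hq0.1
    rw [e] at h
    have := mul_mem (mul_mem (inv_mem (B_le_par (s := node C) J hu)) h) (inv_mem (B_le_par (s := node C) J hv))
    simpa [mul_assoc] using this
  have hwN : w ∈ P.N := by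
    rw [hN, Subgroup.mem_subgroupOf, hw]; exact C.nWordElt_mem hL
  have hwall : ∀ i ∈ J, len P (node C i * w) < len P w := fun i hi => (dg_iff hwN hd).1 (hq0.2 i hi)
  -- the fibres are the cosets of the radical
  have hker : ∀ u v : U, (((u : ↥(D.group F)) * w⁻¹ : ↥(D.group F)) : ↥(D.group F) ⧸ P.B) =
      ((v : ↥(D.group F)) * w⁻¹ : ↥(D.group F)) ↔ (u⁻¹ * v : U) ∈ R.subgroupOf U := by
    intro u v
    rw [QuotientGroup.eq, hB, Subgroup.mem_subgroupOf, Subgroup.mem_subgroupOf, Subgroup.mem_subgroupOf,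
      ← mem_radical_of_conj C hL hLJ hneg (g := (((u⁻¹ * v : U) : ↥(D.group F)) : GL D.Idx F)) (u⁻¹ * v : U).2,
      ← hw]
    simp only [Subgroup.coe_mul, Subgroup.coe_inv, mul_inv_rev, inv_inv, mul_assoc]
  let f : U ⧸ R.subgroupOf U → {q : ↥(D.group F) ⧸ P.B // IsTop P (node C) J q} :=
    Quotient.lift (fun u : U => ⟨(((u : ↥(D.group F)) * w⁻¹ : ↥(D.group F)) : ↥(D.group F) ⧸ P.B), by
        refine (isTop_mk J _).2 ⟨mul_mem (B_le_par J (hUB u.2)) (inv_mem hwp), fun i hi => ?_⟩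
        rw [mul_inv_rev, inv_inv, dg_iff hwN (mul_right_mem (inv_mem (hUB u.2)) (mem_dc_self w))]
        exact hwall i hi⟩)
      fun u v h => Subtype.ext ((hker u v).2 (QuotientGroup.leftRel_apply.mp h))
  have hbij : Function.Bijective f := by
    refine ⟨fun a b => ?_, fun q => ?_⟩
    · induction a using Quotient.inductionOn with | _ u => ?_
      induction b using Quotient.inductionOn with | _ v => ?_
      intro h
      exact QuotientGroup.eq.2 ((hker u v).1 (congrArg Subtype.val h))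
    · obtain ⟨q, hq⟩ := q
      obtain ⟨w', L', hL', hLJ', hw', hd', hneg'⟩ := top_data C hB hN hS hq
      have hdiag := diagonal_of_top C (F := F) hM hL hLJ hL' hLJ' hneg hneg'
      rw [← hw, ← hw'] at hdiag
      have hsim : Sim P w w' := by
        show w⁻¹ * w' ∈ P.B
        rw [hB, Subgroup.mem_subgroupOf]
        exact C.diagonal_le_borel hdiag
      rw [← hsim.dc_eq] at hd'
      obtain ⟨b1, hb1, b2, hb2, e⟩ := mem_dc.1 hd'
      have hb2' : ((b2⁻¹ : ↥(D.group F)) : GL D.Idx F) ∈ D.borelSubgroup F := by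
        rw [hB] at hb2; exact inv_mem hb2
      obtain ⟨a, ha, h, hh, eah⟩ := C.mem_borel.mp hb2'
      refine ⟨QuotientGroup.mk (⟨⟨a, C.borel_le_group (C.pos_le_borel ha)⟩, ha⟩ : U), Subtype.ext ?_⟩
      show ((_ : ↥(D.group F)) : ↥(D.group F) ⧸ P.B) = q
      rw [← QuotientGroup.out_eq' q, QuotientGroup.eq]
      have e' : q.out = b2⁻¹ * w⁻¹ * b1⁻¹ := by rw [← inv_inv q.out, e]; group
      rw [e', hB, Subgroup.mem_subgroupOf]
      simp only [Subgroup.coe_mul, Subgroup.coe_inv, mul_inv_rev, inv_inv] at eah ⊢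
      rw [← eah]
      have h1 : (w : GL D.Idx F) * h * (w : GL D.Idx F)⁻¹ ∈ D.diagonalSubgroup F :=
        C.monomial_conj_diagonal (hw ▸ C.nWordElt_mem hL) hh
      have h2 : ((b1 : ↥(D.group F)) : GL D.Idx F) ∈ D.borelSubgroup F := by rw [hB] at hb1; exact hb1
      have h3 := mul_mem (C.diagonal_le_borel h1) (inv_mem h2)
      simpa [mul_assoc] using h3
  rw [← Nat.card_eq_of_bijective f hbij, ← Nat.card_congr (Subgroup.subgroupOfEquivOfLe hRU).toEquiv]
  exact (Subgroup.card_eq_card_quotient_mul_card_subgroup _).symm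

/-- Steinberg's count of unipotent elements. -/
theorem card_unipotent_elements {M : CoxeterMatrix (Fin D.rank)} (hM : CoxOK D M) (p : ℕ) [Fact p.Prime] [CharP F p] :
    Nat.card {g : ↥(D.group F) // ∃ k : ℕ, orderOf g = p ^ k} = Fintype.card F ^ (2 * (D.nroots / 2)) := by
  obtain ⟨P, hB, hN, hS⟩ := C.exists_bnPair (F := F) hM
  have hS' := hS.trans (range_node C).symm
  set U := (D.posUnipotent F).subgroupOf (D.group F)
  have hUB : U ≤ P.B := by rw [hB]; exact fun x hx => C.pos_le_borel hx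
  obtain ⟨S, hSU⟩ := Cfsg.Agent.KnownA.Steinberg.exists_sylow C (F := F) hM p
  have hcardU : Nat.card ↥U = Fintype.card F ^ (D.nroots / 2) := by
    rw [Nat.card_congr (Subgroup.subgroupOfEquivOfLe (C.pos_le_borel.trans C.borel_le_group)).toEquiv,
      C.natCard_posUnipotent]
  have hUpg : IsPGroup p ↥U := by
    have := S.isPGroup'
    rwa [hSU] at this
  have hUX : ∀ u ∈ U, ∃ k : ℕ, orderOf u = p ^ k := fun u hu => by
    obtain ⟨k, hk⟩ := IsPGroup.iff_orderOf.mp hUpg ⟨u, hu⟩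
    exact ⟨k, by rwa [Subgroup.orderOf_mk u hu] at hk⟩
  have key := card_unipotent (s := node C) hS'.symm hUB
    (fun J => (D.unipotentRadical F (idx J)).subgroupOf (D.group F))
    (X := fun g => ∃ k : ℕ, orderOf g = p ^ k) ?_ hUX ?_ ?_ ?_ ?_
    (Q := Nat.card ↥U) (fun J => card_top_mul C hB hN hS' hM J) Finset.univ
  · have htop : par P (node C) (Finset.univ : Finset (Fin D.rank)) = ⊤ := by
      rw [par, Finset.coe_univ, Set.image_univ, ← hS', parabolic_S]
    have hR : (D.unipotentRadical F (idx (Finset.univ : Finset (Fin D.rank)))).subgroupOf (D.group F) = ⊥ := by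
      rw [C.radical_eq, eq_bot_iff]
      intro x hx
      have h : spanGroup D F (fun r => D.IsPosRoot r ∧ ¬ D.InRootSub (idx (Finset.univ : Finset (Fin D.rank))) r) ≤ ⊥ := by
        refine C.span_le fun r hr t => absurd ?_ hr.2
        exact C.inRootSub_iff.mpr ⟨hr.1.1, fun k hk hkn => absurd ⟨⟨k, hk⟩, by simp, rfl⟩ hkn⟩
      exact Subgroup.mem_bot.mpr (Subtype.ext (Subgroup.mem_bot.mp (h hx)))
    have h2 := card_top_mul C hB hN hS' hM (Finset.univ : Finset (Fin D.rank))
    rw [hR, Subgroup.card_bot, mul_one] at h2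
    rw [h2] at key
    rw [two_mul, pow_add, ← hcardU, ← key]
    exact Nat.card_congr (Equiv.subtypeEquivRight fun g => by simp [htop])
  · rintro g x ⟨k, hk⟩
    exact ⟨k, by rw [← MulAut.conj_apply, MulEquiv.orderOf_eq, hk]⟩
  · rintro J x ⟨k, hk⟩ hxJ
    have hxp : IsPGroup p ↥(Subgroup.zpowers (⟨x, hxJ⟩ : ↥(par P (node C) J))) :=
      IsPGroup.of_card (n := k) (by rw [Nat.card_zpowers, Subgroup.orderOf_mk, hk])
    obtain ⟨T, hT⟩ := hxp.exists_le_sylow
    have hUJ : U ≤ par P (node C) J := hUB.trans (B_le_par J)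
    let S' : Sylow p ↥(par P (node C) J) := S.subtype (hSU ▸ hUJ)
    obtain ⟨g, hg⟩ := MulAction.exists_smul_eq (↥(par P (node C) J)) T S'
    refine ⟨g, g.2, ?_⟩
    have h1 := Subgroup.smul_mem_pointwise_smul _ (MulAut.conj g) _ (hT (Subgroup.mem_zpowers _))
    rw [← Sylow.coe_subgroup_smul, hg] at h1
    simp only [S', Sylow.coe_subtype, Subgroup.mem_subgroupOf, hSU] at h1
    exact h1
  · intro J x hx
    exact radical_le_pos C _ hx
  · intro J g hg x hx
    have hgP : (g : GL D.Idx F) ∈ D.parabolicSubgroup F (idx J) := by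
      have e := map_parabolic C hB J
      rw [par, e] at hg
      simpa [ChevalleyDatum.parabolicIn, idx, Subgroup.mem_subgroupOf] using hg
    exact (Subgroup.mem_normalizer_iff.mp (C.parabolic_le_normalizer _ hgP) _).mp hx
  · intro J u hu q hq hfix
    obtain ⟨w, L, hL, hLJ, hw, hd, hneg⟩ := top_data C hB hN hS' hq
    obtain ⟨b1, hb1, b2, hb2, e⟩ := mem_dc.1 hd
    rw [← QuotientGroup.out_eq' q] at hfix
    have h1 := (mem_fixed_iff P.B u q.out).1 hfix
    have e' : q.out = b2⁻¹ * w⁻¹ * b1⁻¹ := by rw [← inv_inv q.out, e]; group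
    rw [mul_inv_rev] at h1
    have h2 : w * (b2 * u⁻¹ * b2⁻¹) * w⁻¹ ∈ P.B := by
      have h3 := mul_mem (mul_mem (inv_mem hb1) h1) hb1
      convert h3 using 1
      rw [e']; group
    rw [hB] at h2 hb2
    have hnorm : (b2 : GL D.Idx F) ∈ Subgroup.normalizer (D.posUnipotent F : Set (GL D.Idx F)) := by
      obtain ⟨a, ha, h, hh, ee⟩ := C.mem_borel.mp hb2
      change (b2 : GL D.Idx F) ∈ _
      rw [show (b2 : GL D.Idx F) = a * h from ee.symm]
      exact mul_mem (Subgroup.le_normalizer ha) (C.posUnipotent_normalised hh)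
    have hu' := (Subgroup.mem_normalizer_iff.mp hnorm _).mp (inv_mem hu)
    have h4 := (mem_radical_of_conj C hL hLJ hneg hu').1 (by
      have := Subgroup.mem_subgroupOf.mp h2
      simpa [hw] using this)
    have h5 := (Subgroup.mem_normalizer_iff.mp
      ((C.borel_le_parabolic (idx J)).trans (C.parabolic_le_normalizer _) hb2) _).mpr h4
    exact Subgroup.mem_subgroupOf.mpr (by simpa using inv_mem h5)

end group

end Cfsg.Agent.LeadWork.UnipotentChev
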